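import Cfsg.Agent.MinIndexPSU.Two

/-!
A lower bound `q^n + q^(n-1)` for the index of a proper subgroup of `SU_n(q)`, `n ≥ 4`.
-/

set_option autoImplicit false
set_option linter.unusedSectionVars false

open scoped Classical

namespace CfsgLib.MinIndexPSU

open Matrix CfsgLib.Unitary CfsgLib.AutPSU CfsgLib.AutPSU.Frame CfsgLib.SchurClassical.Un

variable {F : Type*} [Field F] [Fintype F] {q : ℕ} (hF : Fintype.card F = q ^ 2)

include hF in
/-- In `SU_3(2)` an image of index two stabilises `F`-lines. -/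
theorem rbar_card_two_case (hq : q = 2) (T : Frame F 3 q) {K : Subgroup ↥(Cfsg.SU (3 + 2) F q)}
    (hI : (kbar hF T K).index = 2) (hbad : ¬ Good hF K T.e) : Nat.card (rbar hF T K) ≤ 4 := by
  subst hq
  obtain ⟨z, hz, -, hz1⟩ := CfsgLib.AutPSU.exists_not_fixed hF
  let g : ↥(Cfsg.SU 3 F 2) := ⟨⟨z • (1 : Matrix (Fin 3) (Fin 3) F), by
      rw [Matrix.det_smul, Matrix.det_one, mul_one, Fintype.card_fin]; exact hz⟩,
    mem_SU.2 fun x y => by
      show Cfsg.hermForm 3 F 2 ((z • (1 : Matrix (Fin 3) (Fin 3) F)) *ᵥ x) ((z • (1 : Matrix (Fin 3) (Fin 3) F)) *ᵥ y) = _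
      rw [Matrix.smul_mulVec, Matrix.smul_mulVec, Matrix.one_mulVec, Matrix.one_mulVec, herm_smul_left,
        herm_smul_right, ← mul_assoc, ← pow_succ', hz, one_mul]⟩
  have hg : ∀ x, sv g x = z • x := fun x => by
    show (z • (1 : Matrix (Fin 3) (Fin 3) F)) *ᵥ x = _
    rw [Matrix.smul_mulVec, Matrix.one_mulVec]
  have hgk : g ∈ kbar hF T K := by
    have h4 : g = (g ^ 2) ^ 2 := sv_ext fun x => by
      simp only [pow_two, sv_mul, hg, smul_smul]
      rw [show z * (z * (z * z)) = z ^ 3 * z by ring, hz, one_mul]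
    rw [h4]
    exact Subgroup.sq_mem_of_index_two hI _
  let S : AddSubgroup F :=
    { carrier := {c | ∀ r ∈ rbar hF T K, c • r ∈ rbar hF T K}
      add_mem' := fun {a b} ha hb r hr => by rw [add_smul]; exact (rbar hF T K).add_mem (ha r hr) (hb r hr)
      zero_mem' := fun r _ => by rw [zero_smul]; exact (rbar hF T K).zero_mem
      neg_mem' := fun {a} ha r hr => by rw [neg_smul]; exact (rbar hF T K).neg_mem (ha r hr) }
  have hS : S = ⊤ := by
    refine AddSubgroup.eq_top_of_card_eq S ?_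
    have h1 : ({0, 1, z} : Set F) ⊆ (S : Set F) := by
      rintro c (rfl | rfl | rfl)
      · exact S.zero_mem
      · intro r hr; rwa [one_smul]
      · intro r hr; rw [← hg]; exact kbar_rbar hF T hgk hr
    have hz0 : z ≠ 0 := fun e => by rw [e, zero_pow (by norm_num)] at hz; exact zero_ne_one hz
    have h2 : ({0, 1, z} : Set F).ncard = 3 :=
      Set.ncard_eq_three.2 ⟨0, 1, z, zero_ne_one, hz0.symm, Ne.symm hz1, rfl⟩
    have h3 := Set.ncard_le_ncard h1 (Set.toFinite _)
    rw [h2, ← Nat.card_coe_set_eq] at h3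
    have h4 := AddSubgroup.card_addSubgroup_dvd_card S
    rw [Nat.card_eq_fintype_card (α := F), hF] at h4 ⊢
    have h5 : Nat.card S ≤ 4 := Nat.le_of_dvd (by norm_num) h4
    change 3 ≤ Nat.card S at h3
    rcases (show Nat.card S = 3 ∨ Nat.card S = 4 by omega) with e | e
    · rw [e] at h4; norm_num at h4
    · exact e
  let M : Submodule F (Fin 3 → F) :=
    { carrier := rbar hF T K
      add_mem' := fun {a b} ha hb => (rbar hF T K).add_mem ha hb
      zero_mem' := (rbar hF T K).zero_mem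
      smul_mem' := fun c r hr => (show c ∈ S from hS ▸ trivial) r hr }
  have hM : Nat.card (rbar hF T K) = 4 ^ Module.finrank F M := by
    rw [show (4 : ℕ) = Nat.card F by rw [Nat.card_eq_fintype_card, hF]; norm_num]
    exact Module.natCard_eq_pow_finrank (K := F) (V := M)
  have h8 := card_rbar_le hF T hbad
  rw [hM] at h8 ⊢
  rcases Nat.lt_or_ge (Module.finrank F M) 2 with h | h
  · calc 4 ^ Module.finrank F M ≤ 4 ^ 1 := Nat.pow_le_pow_right (by norm_num) (by omega)
      _ = 4 := pow_one 4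
  · have := Nat.pow_le_pow_right (show 0 < 4 by norm_num) h
    omega

include hF in
/-- Proper subgroups of `SU_n(q)`, `n ≥ 4`, `(n, q) ≠ (4, 2)`. -/
theorem index_ge_weak {n : ℕ} (hn : 4 ≤ n) (h42 : ¬ (n = 4 ∧ q = 2)) (K : Subgroup ↥(Cfsg.SU n F q))
    (hK : K ≠ ⊤) : q ^ n + q ^ (n - 1) ≤ K.index := by
  obtain ⟨m, rfl⟩ : ∃ m, n = m + 2 := ⟨n - 2, by omega⟩
  obtain ⟨T⟩ := exists_frame (F := F) (m := m) hF
  obtain ⟨K', hidx, -, hbad⟩ := exists_bad_conj hF (by omega) T (fun h => by omega) K hK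
  rw [← hidx]
  have hq := two_le_q hF
  rcases Nat.eq_or_lt_of_le (show 2 ≤ m by omega) with rfl | hm
  · exact index_ge_four hF T hbad
  have hle := le_index hF T (K := K') (by omega) hbad
  refine le_trans ?_ hle
  rw [show q ^ (m + 2) + q ^ (m + 2 - 1) = q * (q ^ m * (q + 1)) by
    rw [show m + 2 - 1 = m + 1 by omega]; ring]
  refine Nat.mul_le_mul_left _ ?_
  by_cases htop : kbar hF T K' = ⊤
  · rw [htop, Subgroup.index_top, one_mul, rbar_index_of_bot hF T (rbar_eq_zero_of_top hF T hm hbad htop),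
      two_mul, pow_add]
    exact Nat.mul_le_mul_left _ (le_trans (show q + 1 ≤ q ^ 2 by nlinarith) (Nat.pow_le_pow_right (by omega) (by omega)))
  have hτ := rbar_index_ge hF T hbad
  by_cases h32 : m = 3 ∧ q = 2
  · obtain ⟨rfl, hq2⟩ := h32
    subst hq2
    have hI1 : (kbar hF T K').index ≠ 1 := fun e => htop (Subgroup.index_eq_one.1 e)
    have hI0 : (kbar hF T K').index ≠ 0 := Subgroup.index_ne_zero_of_finite
    rcases Nat.lt_or_ge (kbar hF T K').index 3 with h | h
    · have hρ := rbar_card_two_case hF rfl T (by omega) hbad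
      have hm' : Nat.card (rbar hF T K') * (rbar hF T K').index = 64 :=
        (rbar hF T K').card_mul_index.trans (card_Vm hF)
      norm_num
      have h16 := Nat.mul_le_mul_right (rbar hF T K').index hρ
      have := Nat.mul_le_mul (show 2 ≤ (kbar hF T K').index by omega) (show 16 ≤ (rbar hF T K').index by omega)
      omega
    · norm_num at hτ ⊢
      have := Nat.mul_le_mul h hτ
      omega
  · rw [mul_comm (q ^ m)]
    exact Nat.mul_le_mul (index_ge_succ hF (by omega) h32 _ htop) hτ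

end CfsgLib.MinIndexPSU
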