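import Cfsg.Agent.MinIndexPSU.Main

/-!
The stabiliser of an isotropic point and the transfer to `PSU_n(q)`.
-/

set_option autoImplicit false
set_option linter.unusedSectionVars false

open scoped Classical

namespace CfsgLib.MinIndexPSU

open Matrix CfsgLib.Unitary CfsgLib.AutPSU CfsgLib.AutPSU.Frame CfsgLib.SchurClassical.Un

variable {F : Type*} [Field F] [Fintype F] {n m q : ℕ} (hF : Fintype.card F = q ^ 2) (T : Frame F m q)

include hF in
theorem iso_even (hn : Even n) (h1 : 1 ≤ n) : iso F n q = (q ^ n - 1) * (q ^ (n - 1) + 1) := by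
  have hq := two_le_q hF
  obtain ⟨j, rfl⟩ : ∃ j, n = j + 1 := ⟨n - 1, by omega⟩
  have h := iso_eq hF (j + 1)
  rw [hn.neg_one_pow] at h
  rw [Nat.add_sub_cancel]
  apply Nat.cast_injective (R := ℤ)
  push_cast [Nat.cast_sub (Nat.one_le_pow (j + 1) q (by omega))]
  refine mul_left_cancel₀ (show (q : ℤ) ≠ 0 by exact_mod_cast (show q ≠ 0 by omega)) ?_
  linear_combination h

include hF in
theorem iso_odd (hn : Odd n) : iso F n q = (q ^ n + 1) * (q ^ (n - 1) - 1) := by
  have hq := two_le_q hF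
  obtain ⟨j, rfl⟩ : ∃ j, n = j + 1 := ⟨n - 1, by have := hn.pos; omega⟩
  have h := iso_eq hF (j + 1)
  rw [hn.neg_one_pow] at h
  rw [Nat.add_sub_cancel]
  apply Nat.cast_injective (R := ℤ)
  push_cast [Nat.cast_sub (Nat.one_le_pow j q (by omega))]
  refine mul_left_cancel₀ (show (q : ℤ) ≠ 0 by exact_mod_cast (show q ≠ 0 by omega)) ?_
  linear_combination h

/-- The stabiliser of the point of `e`. -/
def pointStab : Subgroup ↥(Cfsg.SU (m + 2) F q) where
  carrier := {g | ∃ μ : Fˣ, sv g T.e = (μ : F) • T.e}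
  one_mem' := ⟨1, by rw [sv_one, Units.val_one, one_smul]⟩
  mul_mem' := by
    rintro a b ⟨μ, ha⟩ ⟨ν, hb⟩
    exact ⟨ν * μ, by rw [sv_mul, hb, sv_smul, ha, smul_smul, Units.val_mul]⟩
  inv_mem' := by
    rintro a ⟨μ, ha⟩
    refine ⟨μ⁻¹, ?_⟩
    have h := congrArg (sv a⁻¹) ha
    rw [sv_inv_sv, sv_smul] at h
    conv_rhs => rw [h]
    rw [smul_smul, ← Units.val_mul, inv_mul_cancel, Units.val_one, one_smul]

include hF in
theorem index_pointStab (hm : 1 ≤ m) : (q - 1) * (q + 1) * (pointStab T).index = iso F (m + 2) q := by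
  have hle : vecStab F m q T.e ≤ pointStab T := fun g hg =>
    ⟨1, by rw [Units.val_one, one_smul]; exact hg⟩
  have hinj : Function.Injective fun μ : Fˣ => (μ : F) • T.e := fun a b h =>
    Units.ext (smul_left_injective F (T.e_ne_zero hF) h)
  choose cc hcc using fun g : pointStab T => (show ∃ μ : Fˣ, sv g.1 T.e = (μ : F) • T.e from g.2)
  let χ : pointStab T →* Fˣ := MonoidHom.mk' cc fun a b => hinj (by
    show ((cc (a * b) : Fˣ) : F) • T.e = ((cc a * cc b : Fˣ) : F) • T.e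
    rw [← hcc (a * b), Subgroup.coe_mul, sv_mul, hcc b, sv_smul, hcc a, smul_smul, Units.val_mul, mul_comm])
  have hker : χ.ker = (vecStab F m q T.e).subgroupOf (pointStab T) := by
    ext g
    rw [MonoidHom.mem_ker, Subgroup.mem_subgroupOf, AutPSU.mem_vecStab]
    show cc g = 1 ↔ _
    constructor
    · intro h
      rw [hcc g, h, Units.val_one, one_smul]
    · intro h
      refine hinj ?_
      show ((cc g : Fˣ) : F) • T.e = ((1 : Fˣ) : F) • T.e
      rw [Units.val_one, one_smul, ← hcc g, h]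
  have hsurj : Function.Surjective χ := fun μ => by
    obtain ⟨g, hg⟩ := exists_SU_map_isotropic hF (show 3 ≤ m + 2 by omega) (T.e_ne_zero hF)
      (smul_ne_zero μ.ne_zero (T.e_ne_zero hF)) T.he (by rw [herm_self_smul, T.he, mul_zero])
    exact ⟨⟨g, μ, hg⟩, hinj ((hcc ⟨g, μ, hg⟩).symm.trans hg)⟩
  have hrel : (vecStab F m q T.e).relIndex (pointStab T) = (q - 1) * (q + 1) := by
    rw [Subgroup.relIndex, ← hker, Subgroup.index_ker, MonoidHom.range_eq_top.2 hsurj,
      Nat.card_congr Subgroup.topEquiv.toEquiv, card_units_eq hF]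
  rw [← hrel, Subgroup.relIndex_mul_index hle, index_vecStab_eq hF T hm]

include hF in
theorem center_le_pointStab : Subgroup.center ↥(Cfsg.SU (m + 2) F q) ≤ pointStab T := by
  intro g hg
  obtain ⟨c, hc⟩ := (mem_center_SU_iff hF (by omega) g).1 hg
  have e : sv g T.e = c • T.e := by
    show ((g : Matrix.SpecialLinearGroup (Fin (m + 2)) F) : Matrix (Fin (m + 2)) (Fin (m + 2)) F) *ᵥ T.e = _
    rw [hc, Matrix.scalar_apply, ← Matrix.smul_one_eq_diagonal, Matrix.smul_mulVec, Matrix.one_mulVec]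
  have hc0 : c ≠ 0 := fun e0 => T.e_ne_zero hF (by
    rw [← sv_inv_sv g T.e, e, e0, zero_smul]; exact Matrix.mulVec_zero _)
  exact ⟨Units.mk0 c hc0, e⟩

include hF in
/-- The minimal index in `PSU_n(q)` from a bound in `SU_n(q)`. -/
theorem psu_min_index (hn : 3 ≤ n)
    (h : ∀ K : Subgroup ↥(Cfsg.SU n F q), K ≠ ⊤ → iso F n q ≤ (q - 1) * (q + 1) * K.index) :
    (∀ H : Subgroup (Cfsg.PSU n F q), H ≠ ⊤ → iso F n q / (q ^ 2 - 1) ≤ H.index) ∧
      ∃ H : Subgroup (Cfsg.PSU n F q), H.index = iso F n q / (q ^ 2 - 1) := by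
  obtain ⟨m, rfl⟩ : ∃ m, n = m + 2 := ⟨n - 2, by omega⟩
  have hsurj := QuotientGroup.mk'_surjective (Subgroup.center ↥(Cfsg.SU (m + 2) F q))
  have he : q ^ 2 - 1 = (q - 1) * (q + 1) := by
    rw [← Nat.sq_sub_sq q 1 |>.trans (mul_comm _ _), one_pow]
  have hpos : 0 < (q - 1) * (q + 1) := Nat.mul_pos (by have := two_le_q hF; omega) (by omega)
  refine ⟨fun H hH => ?_, ?_⟩
  · rw [← Subgroup.index_comap_of_surjective H hsurj, he]
    refine Nat.div_le_of_le_mul (h _ fun h' => hH (Subgroup.comap_injective hsurj ?_))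
    rw [h', Subgroup.comap_top]
  · obtain ⟨T⟩ := exists_frame (F := F) (m := m) hF
    refine ⟨(pointStab T).map (QuotientGroup.mk' _), ?_⟩
    rw [Subgroup.index_map_eq _ hsurj (by rw [QuotientGroup.ker_mk']; exact center_le_pointStab hF T), he,
      ← index_pointStab hF T (by omega), Nat.mul_div_cancel_left _ hpos]

end CfsgLib.MinIndexPSU
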