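import Cfsg.Agent.MinIndexPSU.Basic
import Cfsg.Agent.MinIndexPSp.Arith
import Cfsg.Agent.SchurClassical.UnitPair

/-!
Bad points of a proper subgroup of `SU_n(q)`, the pairing bound on the image of the radical, and orbits of
`SU_m` on vectors of given norm.
-/

set_option autoImplicit false
set_option linter.unusedSectionVars false

open scoped Classical

namespace CfsgLib.MinIndexPSU

open Matrix CfsgLib.Unitary CfsgLib.AutPSU CfsgLib.AutPSU.Frame CfsgLib.SchurClassical.Un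

variable {F : Type*} [Field F] [Fintype F] {n m q : ℕ} (hF : Fintype.card F = q ^ 2)

include hF in
theorem exists_bad (h32 : ¬ (n = 3 ∧ q = 2)) (K : Subgroup ↥(Cfsg.SU n F q)) (hK : K ≠ ⊤) :
    ∃ v : Fin n → F, v ≠ 0 ∧ Cfsg.hermForm n F q v v = 0 ∧ ¬ Good hF K v := by
  by_contra hcon
  push Not at hcon
  refine hK (top_le_iff.1 ?_)
  rw [← transvGroup_eq_top hF h32, transvGroup, Subgroup.closure_le]
  rintro A ⟨v, c, hv, hA⟩
  obtain ⟨c', hc', rfl, -⟩ := eq_transvSU_of_matrix_eq hF hv hA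
  by_cases hv0 : v = 0
  · rw [transvSU_eq_one hF hv hc' (Or.inr hv0)]; exact K.one_mem
  · exact hcon v hv0 hv hv c' hc'

include hF in
theorem exists_bad_conj (hm : 1 ≤ m) (T : Frame F m q) (h32 : ¬ (m = 1 ∧ q = 2))
    (K : Subgroup ↥(Cfsg.SU (m + 2) F q)) (hK : K ≠ ⊤) :
    ∃ K' : Subgroup ↥(Cfsg.SU (m + 2) F q), K'.index = K.index ∧ K' ≠ ⊤ ∧ ¬ Good hF K' T.e := by
  obtain ⟨v, hv0, hv, hbad⟩ := exists_bad hF (fun h => h32 ⟨by omega, h.2⟩) K hK
  obtain ⟨a, ha⟩ := exists_SU_map_isotropic hF (by omega) hv0 (T.e_ne_zero hF) hv T.he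
  exact ⟨conjSub a K, index_conjSub a K, conjSub_ne_top a hK, fun h => hbad ((good_conjSub hF).1 (ha ▸ h))⟩

include hF in
theorem card_Vm : Nat.card (Fin m → F) = q ^ (2 * m) := by
  rw [Nat.card_eq_fintype_card, Fintype.card_fun, hF, Fintype.card_fin, pow_mul]

variable (T : Frame F m q) {K : Subgroup ↥(Cfsg.SU (m + 2) F q)}

include hF in
theorem card_rbar_le (h : ¬ Good hF K T.e) : Nat.card (rbar hF T K) ≤ q ^ m := by
  let A' : AddSubgroup F := (aSub hF T K).comap
    ((AddMonoidHom.id F) - (conjHom hF).toAddMonoidHom)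
  have hA' : A' ≠ ⊤ := by
    intro e
    refine aSub_ne hF T h (le_antisymm (aSub_le hF T) fun r hr => ?_)
    obtain ⟨t, ht⟩ := exists_pow_sub_eq hF (show r + r ^ q = 0 from AddMonoidHom.mem_ker.1 hr)
    have hmem : -t ∈ A' := e ▸ trivial
    simp only [A', AddSubgroup.mem_comap, AddMonoidHom.sub_apply, AddMonoidHom.id_apply] at hmem
    change -t - (-t) ^ q ∈ _ at hmem
    rwa [neg_pow_q hF, show -t - -(t ^ q) = r by linear_combination ht] at hmem
  have hsq := MinIndexPSp.sq_card_le (fun x y : Fin m → F => Cfsg.hermForm m F q y x)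
    (fun x y z => herm_add_left y z x) (fun x y z => herm_add_right hF z x y) (fun x c y => herm_smul_left c y x)
    (fun x hx => herm_nondeg hF x fun v => herm_eq_zero_comm hF (hx v)) A' hA' (rbar hF T K) (fun x hx y hy => by
      show Cfsg.hermForm m F q y x - Cfsg.hermForm m F q y x ^ q ∈ aSub hF T K
      rw [← herm_conj hF y x]
      exact comm_mem_aSub hF T hy hx)
  rw [card_Vm hF, two_mul, pow_add] at hsq
  exact Nat.mul_self_le_mul_self_iff.1 hsq

include hF in
theorem rbar_index_ge (h : ¬ Good hF K T.e) : q ^ m ≤ (rbar hF T K).index := by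
  have h1 := card_rbar_le hF T h
  have h2 := (rbar hF T K).card_mul_index
  rw [card_Vm hF, two_mul, pow_add] at h2
  by_contra hlt
  push Not at hlt
  exact lt_irrefl _ (h2 ▸ Nat.mul_lt_mul_of_le_of_lt h1 hlt (pow_pos (by have := two_le_q hF; omega) m))

include hF in
theorem rbar_index_of_bot (h : ∀ r ∈ rbar hF T K, r = 0) : (rbar hF T K).index = q ^ (2 * m) := by
  haveI : Subsingleton (rbar hF T K) := ⟨fun a b => Subtype.ext ((h _ a.2).trans (h _ b.2).symm)⟩
  rw [← card_Vm (m := m) hF, ← (rbar hF T K).card_mul_index, Nat.card_unique, one_mul]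

include hF in
/-- `SU_n` is transitive on vectors of the same non-zero norm. -/
theorem exists_SU_map_norm (hn : 2 ≤ n) {x y : Fin n → F} (hx : Cfsg.hermForm n F q x x ≠ 0)
    (h : Cfsg.hermForm n F q y y = Cfsg.hermForm n F q x x) : ∃ A : ↥(Cfsg.SU n F q), sv A x = y := by
  obtain ⟨l, hl⟩ := exists_norm_eq hF (herm_self_fixed hF x)
  have hl0 : l ≠ 0 := fun e => hx (by rw [← hl, e, zero_pow (Nat.succ_ne_zero q)])
  have hu : ∀ z, Cfsg.hermForm n F q z z = Cfsg.hermForm n F q x x →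
      Orthonorm q (fun _ : Fin 1 => l⁻¹ • z) := fun z hz i j => by
    rw [herm_self_smul, hz, inv_pow, hl, inv_mul_cancel₀ hx, if_pos (Subsingleton.elim i j)]
  obtain ⟨A, hA⟩ := exists_SU_map_orthonorm hF (hu x rfl) (hu y h) (by omega)
  refine ⟨A, ?_⟩
  have := hA 0
  rw [sv_smul] at this
  exact smul_right_injective _ (inv_ne_zero hl0) this

include hF in
theorem normCount_gt (hn : 3 ≤ n) (a : F) (ha : a ^ q = a) : q ^ n + 1 < normCount n q a := by
  have hq := two_le_q hF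
  obtain ⟨k, rfl⟩ : ∃ k, n = k + 3 := ⟨n - 3, by omega⟩
  have hq' : (2 : ℤ) ≤ q := by exact_mod_cast hq
  have hP : (q : ℤ) * q ≤ (q : ℤ) ^ (k + 2) := by
    rw [pow_add, ← pow_two]; exact le_mul_of_one_le_left (by positivity) (one_le_pow₀ (by linarith))
  have hQ : (q : ℤ) ^ (k + 3) = q * (q : ℤ) ^ (k + 2) := by ring
  have hs : ((-1 : ℤ)) ^ (k + 3) = 1 ∨ ((-1 : ℤ)) ^ (k + 3) = -1 := neg_one_pow_eq_or ℤ _
  have hP4 : (4 : ℤ) ≤ (q : ℤ) ^ (k + 2) := le_trans (by nlinarith) hP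
  have hB : (q : ℤ) + 2 ≤ (q : ℤ) * (q : ℤ) ^ (k + 2) - q - 1 := by nlinarith
  have hB2 := mul_le_mul_of_nonneg_left hB (show (0 : ℤ) ≤ (q : ℤ) ^ (k + 2) by linarith)
  suffices (q : ℤ) ^ (k + 3) + 1 < normCount (k + 3) q a by exact_mod_cast this
  refine lt_of_mul_lt_mul_left (a := (q : ℤ)) ?_ (by linarith)
  rcases eq_or_ne a 0 with rfl | ha0
  · rw [normCount_zero_eq hF]
    rcases hs with e | e <;> rw [e, hQ] <;> nlinarith [mul_le_mul_of_nonneg_left hB2 (show (0 : ℤ) ≤ q by linarith)]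
  · rw [normCount_eq hF _ ha ha0]
    rcases hs with e | e <;> rw [e, hQ] <;> nlinarith [mul_le_mul_of_nonneg_left hB2 (show (0 : ℤ) ≤ q by linarith)]

include hF in
/-- An invariant image of the radical is trivial. -/
theorem rbar_eq_zero_of_top (hm : 3 ≤ m) (hbad : ¬ Good hF K T.e) (htop : kbar hF T K = ⊤) :
    ∀ r ∈ rbar hF T K, r = 0 := by
  intro r hr
  by_contra hr0
  set a := Cfsg.hermForm m F q r r
  have hmem : ∀ y, Cfsg.hermForm m F q y y = a → y = 0 ∨ y ∈ rbar hF T K := by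
    intro y hy
    refine or_iff_not_imp_left.2 fun hy0 => ?_
    obtain ⟨A, hA⟩ : ∃ A : ↥(Cfsg.SU m F q), sv A r = y := by
      by_cases ha : a = 0
      · exact exists_SU_map_isotropic hF hm hr0 hy0 ha (hy.trans ha)
      · exact exists_SU_map_norm hF (by omega) ha hy
    exact hA ▸ kbar_rbar hF T (htop ▸ trivial) hr
  have h1 : normCount m q a ≤ Nat.card (rbar hF T K) :=
    Nat.card_le_card_of_injective (fun y => (⟨y.1, (hmem y.1 y.2).elim (fun e => e ▸ (rbar hF T K).zero_mem) id⟩ :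
      rbar hF T K)) fun y z e => Subtype.ext (congrArg (fun w : rbar hF T K => w.1) e)
  have h2 := normCount_gt hF hm a (herm_self_fixed hF r)
  have := card_rbar_le hF T hbad
  omega

include hF in
/-- Every proper subgroup has index at least `q + 1`. -/
theorem index_ge_succ (hn : 3 ≤ n) (h32 : ¬ (n = 3 ∧ q = 2)) (K : Subgroup ↥(Cfsg.SU n F q)) (hK : K ≠ ⊤) :
    q + 1 ≤ K.index := by
  obtain ⟨m, rfl⟩ : ∃ m, n = m + 2 := ⟨n - 2, by omega⟩
  obtain ⟨T⟩ := exists_frame (F := F) (m := m) hF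
  obtain ⟨K', hidx, -, hbad⟩ := exists_bad_conj hF (by omega) T (fun h => h32 ⟨by omega, h.2⟩) K hK
  have hq := two_le_q hF
  have h := le_index hF T (by omega) hbad
  have hτ : q ≤ (rbar hF T K').index :=
    le_trans (Nat.le_self_pow (by omega) q) (rbar_index_ge hF T hbad)
  have hI : 1 ≤ (kbar hF T K').index := Nat.one_le_iff_ne_zero.2 Subgroup.index_ne_zero_of_finite
  rw [← hidx]
  nlinarith [Nat.mul_le_mul hI hτ]

end CfsgLib.MinIndexPSU
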