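import Mathlib
import Cfsg.Agent.Classical.Unitary.Parabolic
import Cfsg.Agent.SchurClassical.UnitRadical

/-!
The stabiliser of an isotropic vector in `SU_(m+2)(q)`: coordinates, the trace of a subgroup on it, and the
counting inequalities for the index of a subgroup.
-/

set_option autoImplicit false
set_option linter.unusedSectionVars false

open scoped Classical

namespace CfsgLib.MinIndexPSU

open Matrix CfsgLib.Unitary CfsgLib.AutPSU CfsgLib.AutPSU.Frame CfsgLib.SchurClassical.Un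

/-- Scalars preserving an additive subgroup inside a larger one. -/
theorem card_scalar_stab {F : Type*} [Field F] [Finite F] {A B : AddSubgroup F} (hAB : A ≤ B) (hne : A ≠ B)
    (S : Set F) (hS : ∀ c ∈ S, c ≠ 0 ∧ (∀ a ∈ A, c * a ∈ A) ∧ ∀ b ∈ B, c * b ∈ B) :
    (Nat.card S + 1) * Nat.card A ≤ Nat.card B := by
  obtain ⟨y, hyB, hy⟩ : ∃ y ∈ B, y ∉ A := by
    by_contra h
    push Not at h
    exact hne (le_antisymm hAB h)
  have key : ∀ d : F, d ≠ 0 → (∀ a ∈ A, d * a ∈ A) → d * y ∉ A := by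
    intro d hd hdA hdy
    have hinj : Function.Injective fun a : A => (⟨d * a, hdA a a.2⟩ : A) := fun a b h =>
      Subtype.ext (mul_left_cancel₀ hd (congrArg Subtype.val h))
    obtain ⟨a, ha⟩ := Finite.surjective_of_injective hinj ⟨d * y, hdy⟩
    exact hy (mul_left_cancel₀ hd (congrArg Subtype.val ha) ▸ a.2)
  let g : Option S → F := fun o => o.elim 0 fun c => c.1 * y
  have hg : ∀ o, g o ∈ B := by
    rintro (_ | ⟨c, hc⟩)
    · exact B.zero_mem
    · exact (hS c hc).2.2 y hyB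
  have hinj : Function.Injective fun p : Option S × A => (⟨g p.1 + p.2, B.add_mem (hg p.1) (hAB p.2.2)⟩ : B) := by
    rintro ⟨o, a⟩ ⟨o', a'⟩ h
    have h' : g o + a = g o' + a' := congrArg Subtype.val h
    have hd : g o - g o' ∈ A := by
      rw [show g o - g o' = (a' : F) - a by linear_combination h']; exact A.sub_mem a'.2 a.2
    have ho : o = o' := by
      rcases o with _ | ⟨c, hc⟩ <;> rcases o' with _ | ⟨d, hd'⟩ <;> simp only [g, Option.elim] at hd
      · rfl
      · rw [zero_sub, neg_mem_iff] at hd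
        exact absurd hd (key d (hS d hd').1 (hS d hd').2.1)
      · rw [sub_zero] at hd
        exact absurd hd (key c (hS c hc).1 (hS c hc).2.1)
      · rcases eq_or_ne c d with rfl | hcd
        · rfl
        · rw [← sub_mul] at hd
          refine absurd hd (key _ (sub_ne_zero.mpr hcd) fun e he => ?_)
          rw [sub_mul]; exact A.sub_mem ((hS c hc).2.1 e he) ((hS d hd').2.1 e he)
    subst ho
    exact Prod.ext rfl (Subtype.ext (add_left_cancel h'))
  have := Nat.card_le_card_of_injective _ hinj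
  rwa [Nat.card_prod, Finite.card_option] at this

variable {F : Type*} [Field F] [Fintype F] {n m q : ℕ} (hF : Fintype.card F = q ^ 2)

include hF in
/-- All transvections centred at `v` lie in `K`. -/
def Good (K : Subgroup ↥(Cfsg.SU n F q)) (v : Fin n → F) : Prop :=
  ∀ (hv : Cfsg.hermForm n F q v v = 0) (c : F) (hc : c + c ^ q = 0), transvSU hF v c hv hc ∈ K

theorem Good.map {K : Subgroup ↥(Cfsg.SU n F q)} {v : Fin n → F} (h : Good hF K v) {k : ↥(Cfsg.SU n F q)}
    (hk : k ∈ K) : Good hF K (sv k v) := by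
  intro hv c hc
  have hv' : Cfsg.hermForm n F q v v = 0 := by rwa [sv_herm] at hv
  rw [← conj_transvSU hF k hv' hc]
  exact K.mul_mem (K.mul_mem hk (h hv' c hc)) (K.inv_mem hk)

theorem Good.smul {K : Subgroup ↥(Cfsg.SU n F q)} {v : Fin n → F} (h : Good hF K v) (l : F) :
    Good hF K (l • v) := by
  intro hv c hc
  rcases eq_or_ne l 0 with rfl | hl
  · rw [transvSU_eq_one hF hv hc (Or.inr (zero_smul F v))]; exact K.one_mem
  · have hv' : Cfsg.hermForm n F q v v = 0 := by
      rw [herm_self_smul] at hv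
      exact (mul_eq_zero.1 hv).resolve_left (pow_ne_zero _ hl)
    have hd : c * l ^ (q + 1) + (c * l ^ (q + 1)) ^ q = 0 := by
      rw [mul_pow, norm_pow_q hF]; linear_combination l ^ (q + 1) * hc
    rw [transvSU_smul hF hv' hv hc hd]
    exact h hv' _ hd

/-- The conjugate `a K a⁻¹`. -/
noncomputable def conjSub {G : Type*} [Group G] (a : G) (K : Subgroup G) : Subgroup G :=
  K.map (MulAut.conj a).toMonoidHom

theorem mem_conjSub {G : Type*} [Group G] {a : G} {K : Subgroup G} {x : G} :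
    x ∈ conjSub a K ↔ a⁻¹ * x * a ∈ K := by
  rw [conjSub, Subgroup.mem_map_equiv, MulAut.conj_symm_apply]

theorem index_conjSub {G : Type*} [Group G] (a : G) (K : Subgroup G) : (conjSub a K).index = K.index :=
  Subgroup.index_map_equiv K (MulAut.conj a)

theorem conjSub_ne_top {G : Type*} [Group G] (a : G) {K : Subgroup G} (h : K ≠ ⊤) : conjSub a K ≠ ⊤ :=
  fun e => h (eq_top_iff.2 fun x _ => by
    have := mem_conjSub.1 (show a * x * a⁻¹ ∈ conjSub a K from e ▸ trivial)
    simpa [mul_assoc] using this)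

theorem good_conjSub {a : ↥(Cfsg.SU n F q)} {K : Subgroup ↥(Cfsg.SU n F q)} {v : Fin n → F} :
    Good hF (conjSub a K) (sv a v) ↔ Good hF K v := by
  constructor
  · intro h hv c hc
    have := mem_conjSub.1 (h (herm_sv_self_eq_zero a hv) c hc)
    rw [← conj_transvSU hF a hv hc] at this
    simpa [mul_assoc] using this
  · intro h hv c hc
    have hv' : Cfsg.hermForm n F q v v = 0 := by rwa [sv_herm] at hv
    rw [mem_conjSub, ← conj_transvSU hF a hv' hc]
    simpa [mul_assoc] using h hv' c hc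

variable (T : Frame F m q)

local notation "Vm" => Fin m → F
local notation "Vn" => Fin (m + 2) → F
local notation "h[" u "," v "]" => Cfsg.hermForm (m + 2) F q u v
local notation "hm[" u "," v "]" => Cfsg.hermForm m F q u v
set_option quotPrecheck false in
local notation "SUn" => ↥(Cfsg.SU (m + 2) F q)
set_option quotPrecheck false in
local notation "SUm" => ↥(Cfsg.SU m F q)

include hF in
theorem heis_zero {c : F} (hc : HCond q (0 : Vm) c) (h0 : c = 0) : T.heis hF 0 c hc = 1 := by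
  refine T.sv_ext_frame hF ?_ ?_ fun y => ?_ <;> rw [sv_one, T.sv_heis hF]
  · rw [T.heisLin_e hF]
  · rw [T.heisLin_f hF, eta_zero, h0]; simp
  · rw [T.heisLin_eta hF, herm_zero_right hF]; simp

include hF in
theorem hcond_neg {w : Vm} {c : F} (hc : HCond q w c) : HCond q (-w) (c ^ q) := by
  unfold HCond at *
  rw [pow_q_q hF, herm_neg_left, herm_neg_right hF, neg_neg]
  linear_combination hc

include hF in
theorem heis_inv {w : Vm} {c : F} (hc : HCond q w c) :
    (T.heis hF w c hc)⁻¹ = T.heis hF (-w) (c ^ q) (hcond_neg hF hc) := by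
  refine inv_eq_of_mul_eq_one_right ?_
  rw [T.heis_mul hF hc (hcond_neg hF hc)]
  rw [T.heis_congr hF _ (hcond_zero_iff.2 (by rw [zero_add, zero_pow_q hF])) (add_neg_cancel w) (c' := 0) (by
    rw [herm_neg_left]; unfold HCond at hc; linear_combination hc)]
  exact heis_zero hF T _ rfl

theorem emb_conj_heis (a : SUm) {w : Vm} {c : F} (hc : HCond q w c) :
    ∃ hc', emb hF T a * T.heis hF w c hc * (emb hF T a)⁻¹ = T.heis hF (sv a w) c hc' := by
  have hc' : HCond q (sv a w) c := by unfold HCond at *; rwa [sv_herm]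
  refine ⟨hc', ?_⟩
  show T.tor hF (adm_smat hF a) * _ * (T.tor hF (adm_smat hF a))⁻¹ = _
  rw [T.conj_tor_heis hF]
  exact T.heis_congr hF _ _ (by rw [act, one_pow, one_smul]; rfl) (by rw [one_pow, one_mul])

theorem heis_mem_vecStab {w : Vm} {c : F} (hc : HCond q w c) : T.heis hF w c hc ∈ vecStab F m q T.e := by
  rw [AutPSU.mem_vecStab, T.sv_heis hF, T.heisLin_e hF]

theorem emb_mem_vecStab (a : SUm) : emb hF T a ∈ vecStab F m q T.e := emb_e hF T a

include hF in
theorem exists_heis_emb {s : SUn} (hs : s ∈ vecStab F m q T.e) :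
    ∃ (w : Vm) (c : F) (hc : HCond q w c) (a : SUm), s = T.heis hF w c hc * emb hF T a := by
  obtain ⟨h, hh, a, ha⟩ := exists_decomp hF T (AutPSU.mem_vecStab.1 hs)
  rw [← qsub_eq_qAt hF T] at hh
  obtain ⟨w, c, hc, rfl⟩ := hh
  exact ⟨w, c, hc, a, by rw [← ha, mul_inv_cancel_left]⟩

theorem sv_heis_emb_eta {w : Vm} {c : F} (hc : HCond q w c) (a : SUm) (u : Vm) :
    sv (T.heis hF w c hc * emb hF T a) (eta u) = eta (sv a u) - hm[sv a u, w] • T.e := by
  rw [sv_mul, emb_eta, T.sv_heis hF, T.heisLin_eta hF]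

theorem heis_emb_inj {w w' : Vm} {c c' : F} {hc : HCond q w c} {hc' : HCond q w' c'} {a a' : SUm}
    (h : T.heis hF w c hc * emb hF T a = T.heis hF w' c' hc' * emb hF T a') : w = w' ∧ c = c' ∧ a = a' := by
  have ha : a = a' := sv_ext fun u => by
    have := congrArg (fun s => proj (sv s (eta u))) h
    simpa [sv_heis_emb_eta, sub_eq_add_neg, ← neg_smul, proj_add, proj_smul, T.proj_e hF] using this
  subst ha
  exact ⟨(T.heis_inj hF (mul_right_cancel h)).1, (T.heis_inj hF (mul_right_cancel h)).2, rfl⟩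

include hF in
theorem exists_pi (s : vecStab F m q T.e) : ∃ a : SUm, ∀ u, proj (sv (s : SUn) (eta u)) = sv a u := by
  obtain ⟨w, c, hc, a, e⟩ := exists_heis_emb hF T s.2
  refine ⟨a, fun u => ?_⟩
  rw [e, sv_heis_emb_eta, sub_eq_add_neg, ← neg_smul, proj_add, proj_smul, proj_eta, T.proj_e hF, smul_zero, add_zero]

/-- The action of the stabiliser of `e` on `e^⊥ / e`. -/
noncomputable def piHom : vecStab F m q T.e →* SUm :=
  MonoidHom.mk' (fun s => (exists_pi hF T s).choose) fun s t => by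
    refine sv_ext fun u => ?_
    rw [← (exists_pi hF T (s * t)).choose_spec, sv_mul, ← (exists_pi hF T t).choose_spec,
      ← (exists_pi hF T s).choose_spec, Subgroup.coe_mul, sv_mul]
    obtain ⟨w, c, hc, a, e⟩ := exists_heis_emb hF T t.2
    rw [e, sv_heis_emb_eta, sub_eq_add_neg, ← neg_smul, sv_add, sv_smul, AutPSU.mem_vecStab.1 s.2, proj_add,
      proj_smul, T.proj_e hF, smul_zero, add_zero, proj_add, proj_smul, T.proj_e hF, smul_zero, add_zero, proj_eta]

theorem piHom_apply (s : vecStab F m q T.e) (u : Vm) : sv (piHom hF T s) u = proj (sv (s : SUn) (eta u)) :=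
  ((exists_pi hF T s).choose_spec u).symm

theorem piHom_heis_emb {w : Vm} {c : F} (hc : HCond q w c) (a : SUm) (h) :
    piHom hF T ⟨T.heis hF w c hc * emb hF T a, h⟩ = a := by
  refine sv_ext fun u => ?_
  rw [piHom_apply, sv_heis_emb_eta, sub_eq_add_neg, ← neg_smul, proj_add, proj_smul, proj_eta, T.proj_e hF,
    smul_zero, add_zero]

include hF in
theorem exists_normal_form (s : vecStab F m q T.e) :
    ∃ (w : Vm) (c : F) (hc : HCond q w c), (s : SUn) = T.heis hF w c hc * emb hF T (piHom hF T s) := by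
  obtain ⟨w, c, hc, a, e⟩ := exists_heis_emb hF T s.2
  refine ⟨w, c, hc, ?_⟩
  have : piHom hF T s = a := by
    rw [show s = ⟨T.heis hF w c hc * emb hF T a, e ▸ s.2⟩ from Subtype.ext e, piHom_heis_emb]
  rw [this, e]

variable (K : Subgroup ↥(Cfsg.SU (m + 2) F q))

/-- The scalars by which `K` acts on `e`. -/
def scal : Subgroup Fˣ where
  carrier := {μ | ∃ k ∈ K, sv k T.e = (μ : F) • T.e}
  one_mem' := ⟨1, K.one_mem, by rw [sv_one, Units.val_one, one_smul]⟩
  mul_mem' := by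
    rintro a b ⟨k, hk, hka⟩ ⟨l, hl, hlb⟩
    exact ⟨k * l, K.mul_mem hk hl, by rw [sv_mul, hlb, sv_smul, hka, smul_smul, Units.val_mul, mul_comm]⟩
  inv_mem' := by
    rintro a ⟨k, hk, hka⟩
    refine ⟨k⁻¹, K.inv_mem hk, ?_⟩
    have h := congrArg (sv k⁻¹) hka
    rw [sv_inv_sv, sv_smul] at h
    rw [h, smul_smul, ← Units.val_mul, inv_mul_cancel, Units.val_one, one_smul, ← h]

/-- The image in `SU_m`. -/
noncomputable def kbar : Subgroup SUm := (K.subgroupOf (vecStab F m q T.e)).map (piHom hF T)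

/-- The image of the radical. -/
noncomputable def rbar : AddSubgroup Vm where
  carrier := {w | ∃ (c : F) (hc : HCond q w c), T.heis hF w c hc ∈ K}
  add_mem' := fun ⟨_, hc, h⟩ ⟨_, hc', h'⟩ => ⟨_, _, T.heis_mul hF hc hc' ▸ K.mul_mem h h'⟩
  zero_mem' := ⟨0, hcond_zero_iff.2 (by rw [zero_add, zero_pow_q hF]), by rw [heis_zero hF T _ rfl]; exact K.one_mem⟩
  neg_mem' := fun ⟨_, hc, h⟩ => ⟨_, _, heis_inv hF T hc ▸ K.inv_mem h⟩

/-- The trace on the root group of `e`. -/
noncomputable def aSub : AddSubgroup F where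
  carrier := {z | ∃ hz : HCond q (0 : Vm) z, T.heis hF 0 z hz ∈ K}
  add_mem' := fun {a b} ⟨hz, h⟩ ⟨hz', h'⟩ =>
    ⟨hcond_zero_iff.2 (by rw [add_pow_q hF]; linear_combination hcond_zero_iff.1 hz + hcond_zero_iff.1 hz'), by
      have := K.mul_mem h h'
      rw [T.heis_mul hF hz hz'] at this
      rwa [T.heis_congr hF _ (hcond_zero_iff.2 (by
        rw [add_pow_q hF]; linear_combination hcond_zero_iff.1 hz + hcond_zero_iff.1 hz')) (add_zero 0)
        (c' := a + b) (by rw [herm_zero_left, sub_zero])] at this⟩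
  zero_mem' := ⟨hcond_zero_iff.2 (by rw [zero_add, zero_pow_q hF]), by rw [heis_zero hF T _ rfl]; exact K.one_mem⟩
  neg_mem' := fun {a} ⟨hz, h⟩ => ⟨hcond_zero_iff.2 (by
      rw [neg_pow_q hF]; linear_combination -hcond_zero_iff.1 hz), by
      have := K.inv_mem h
      rw [heis_inv hF T hz] at this
      rwa [T.heis_congr hF _ (hcond_zero_iff.2 (by rw [neg_pow_q hF]; linear_combination -hcond_zero_iff.1 hz))
        neg_zero (c' := -a) (eq_neg_of_add_eq_zero_right (hcond_zero_iff.1 hz))] at this⟩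

variable {K}

theorem mem_kbar {a : SUm} :
    a ∈ kbar hF T K ↔ ∃ (w : Vm) (c : F) (hc : HCond q w c), T.heis hF w c hc * emb hF T a ∈ K := by
  constructor
  · rintro ⟨k, hk, rfl⟩
    obtain ⟨w, c, hc, e⟩ := exists_normal_form hF T k
    exact ⟨w, c, hc, e ▸ hk⟩
  · rintro ⟨w, c, hc, h⟩
    exact ⟨⟨_, mul_mem (heis_mem_vecStab hF T hc) (emb_mem_vecStab hF T a)⟩, h, piHom_heis_emb hF T hc a _⟩

include hF in
theorem sub_mem_aSub {w : Vm} {c c' : F} {hc : HCond q w c} {hc' : HCond q w c'}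
    (h : T.heis hF w c hc ∈ K) (h' : T.heis hF w c' hc' ∈ K) : c - c' ∈ aSub hF T K := by
  have hz : HCond q (0 : Vm) (c - c') := hcond_zero_iff.2 (by
    unfold HCond at hc hc'; rw [sub_pow_q hF]; linear_combination hc - hc')
  refine ⟨hz, ?_⟩
  have := K.mul_mem h (K.inv_mem h')
  rw [heis_inv hF T hc', T.heis_mul hF hc (hcond_neg hF hc')] at this
  rwa [T.heis_congr hF _ hz (add_neg_cancel w) (c' := c - c') (by
    rw [herm_neg_left]; unfold HCond at hc'; linear_combination hc')] at this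

include hF in
theorem comm_mem_aSub {r s : Vm} (hr : r ∈ rbar hF T K) (hs : s ∈ rbar hF T K) :
    hm[r, s] - hm[s, r] ∈ aSub hF T K := by
  obtain ⟨c, hc, h⟩ := hr
  obtain ⟨c', hc', h'⟩ := hs
  have h1 := K.mul_mem h h'
  have h2 := K.mul_mem h' h
  rw [T.heis_mul hF hc hc'] at h1
  rw [T.heis_mul hF hc' hc, T.heis_congr hF (hcond_mul hF hc' hc)
    (show HCond q (r + s) (c' + c - hm[r, s]) by rw [add_comm r s]; exact hcond_mul hF hc' hc) (add_comm s r) rfl] at h2
  have := sub_mem_aSub hF T h1 h2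
  convert this using 1
  ring

include hF in
theorem kbar_rbar {a : SUm} (ha : a ∈ kbar hF T K) {r : Vm} (hr : r ∈ rbar hF T K) :
    sv a r ∈ rbar hF T K := by
  obtain ⟨w, c, hc, hk⟩ := (mem_kbar hF T).1 ha
  obtain ⟨c', hc', h'⟩ := hr
  have h := K.mul_mem (K.mul_mem hk h') (K.inv_mem hk)
  obtain ⟨hc'', e⟩ := emb_conj_heis hF T a hc'
  rw [_root_.mul_inv_rev, show T.heis hF w c hc * emb hF T a * T.heis hF r c' hc' *
    ((emb hF T a)⁻¹ * (T.heis hF w c hc)⁻¹) = T.heis hF w c hc * (emb hF T a * T.heis hF r c' hc' *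
    (emb hF T a)⁻¹) * (T.heis hF w c hc)⁻¹ by group, e, T.heis_mul hF hc hc'', heis_inv hF T hc,
    T.heis_mul hF _ (hcond_neg hF hc)] at h
  have key : ∀ {x : Vm} {d : F} {hx : HCond q x d}, x = sv a r → T.heis hF x d hx ∈ K → sv a r ∈ rbar hF T K :=
    fun {x d hx} e hmem => e ▸ ⟨d, hx, hmem⟩
  exact key (by abel) h

theorem scal_norm_mem {μ : Fˣ} (hμ : μ ∈ scal T K) {z : F} (hz : z ∈ aSub hF T K) :
    (μ : F) ^ (q + 1) * z ∈ aSub hF T K := by
  obtain ⟨k, hk, hke⟩ := hμ
  obtain ⟨h0, h⟩ := hz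
  have hz0 := hcond_zero_iff.1 h0
  rw [← T.transvSU_e_eq hF hz0 h0] at h
  have h' := K.mul_mem (K.mul_mem hk h) (K.inv_mem hk)
  have hd : z * (μ : F) ^ (q + 1) + (z * (μ : F) ^ (q + 1)) ^ q = 0 := by
    rw [mul_pow, norm_pow_q hF]; linear_combination (μ : F) ^ (q + 1) * hz0
  have hlv : h[(μ : F) • T.e, (μ : F) • T.e] = 0 := by rw [herm_self_smul, T.he, mul_zero]
  rw [conj_transvSU, transvSU_congr hF _ hz0 hlv hz0 (fun x => by rw [hke]),
    transvSU_smul hF T.he hlv hz0 hd, T.transvSU_e_eq hF hd (hcond_zero_iff.2 hd)] at h'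
  rw [mul_comm]
  exact ⟨hcond_zero_iff.2 hd, h'⟩

theorem aSub_le : aSub hF T K ≤ (traceHom hF).ker := fun z ⟨hz, _⟩ => by
  rw [AddMonoidHom.mem_ker]
  exact hcond_zero_iff.1 hz

theorem aSub_ne (h : ¬ Good hF K T.e) : aSub hF T K ≠ (traceHom hF).ker := fun e => h fun hv c hc => by
  obtain ⟨h0, hmem⟩ : c ∈ aSub hF T K := e.symm ▸ (AddMonoidHom.mem_ker.2 hc)
  exact (T.transvSU_e_eq hF hc h0).symm ▸ hmem

theorem card_traceKer : Nat.card (traceHom hF).ker = q :=
  (Nat.card_congr (Equiv.subtypeEquivRight fun _ => AddMonoidHom.mem_ker)).trans (card_trace_zero hF)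

theorem card_norm_scal_le (h : ¬ Good hF K T.e) :
    (Nat.card ((powMonoidHom (q + 1)).comp (scal T K).subtype).range + 1) * Nat.card (aSub hF T K) ≤ q := by
  let f : scal T K →* Fˣ := (powMonoidHom (q + 1)).comp (scal T K).subtype
  let S : Set F := Units.val '' (f.range : Set Fˣ)
  have hS : ∀ c ∈ S, c ≠ 0 ∧ (∀ a ∈ aSub hF T K, c * a ∈ aSub hF T K) ∧
      ∀ b ∈ (traceHom hF).ker, c * b ∈ (traceHom hF).ker := by
    rintro _ ⟨_, ⟨μ, rfl⟩, rfl⟩
    refine ⟨Units.ne_zero _, fun a ha => ?_, fun b hb => ?_⟩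
    · simpa [f] using scal_norm_mem hF T μ.2 ha
    · rw [AddMonoidHom.mem_ker] at hb ⊢
      show (f μ : F) * b + ((f μ : F) * b) ^ q = 0
      have e : (f μ : F) = ((μ : Fˣ) : F) ^ (q + 1) := by simp [f]
      rw [e, mul_pow, norm_pow_q hF]
      have hb' : b + b ^ q = 0 := hb
      linear_combination ((μ : Fˣ) : F) ^ (q + 1) * hb' 
  have h1 := card_scalar_stab (aSub_le hF T) (aSub_ne hF T h) S hS
  rw [card_traceKer hF, Nat.card_image_of_injective Units.val_injective] at h1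
  exact h1

theorem card_scal_le (h : ¬ Good hF K T.e) :
    Nat.card (scal T K) * Nat.card (aSub hF T K) + (q + 1) * Nat.card (aSub hF T K) ≤ (q + 1) * q := by
  have h1 := card_norm_scal_le hF T h
  let f : scal T K →* Fˣ := (powMonoidHom (q + 1)).comp (scal T K).subtype
  have h2 : Nat.card (scal T K) = Nat.card f.range * Nat.card f.ker := by
    rw [← f.ker.card_mul_index, Subgroup.index_ker, mul_comm]
  have h3 : Nat.card f.ker ≤ q + 1 := by
    refine le_of_le_of_eq ?_ (card_norm_one hF)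
    refine Nat.card_le_card_of_injective (fun x => ⟨((x.1 : Fˣ) : F), by
      have hx := MonoidHom.mem_ker.1 x.2
      simpa [f, Units.ext_iff] using hx⟩) ?_
    intro a b hab
    exact Subtype.ext (Subtype.ext (Units.ext (congrArg Subtype.val hab)))
  rw [h2]
  calc Nat.card f.range * Nat.card f.ker * Nat.card (aSub hF T K) + (q + 1) * Nat.card (aSub hF T K)
      ≤ Nat.card f.range * (q + 1) * Nat.card (aSub hF T K) + (q + 1) * Nat.card (aSub hF T K) :=
        Nat.add_le_add_right (Nat.mul_le_mul_right _ (Nat.mul_le_mul_left _ h3)) _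
    _ = (q + 1) * ((Nat.card f.range + 1) * Nat.card (aSub hF T K)) := by ring
    _ ≤ (q + 1) * q := Nat.mul_le_mul_left _ h1

include hF in
/-- An element fixing the line of `e` is a radical element times a torus element. -/
theorem exists_line_form {k : SUn} {l : F} (hl : l ≠ 0) (hk : sv k T.e = l • T.e) :
    ∃ (w : Vm) (c : F) (hc : HCond q w c) (R : Matrix (Fin m) (Fin m) F) (h : Adm q l R),
      k = T.heis hF w c hc * T.tor hF h := by
  have hlq : l ^ q ≠ 0 := pow_ne_zero _ hl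
  have hb : h[sv k T.f, T.e] = (l ^ q)⁻¹ := by
    have h := sv_herm k T.f T.e
    rw [hk, herm_smul_right, T.hfe hF] at h
    exact eq_inv_of_mul_eq_one_right h
  obtain ⟨a', ha'⟩ : ∃ a', a' = h[sv k T.f, T.f] := ⟨_, rfl⟩
  obtain ⟨w', hw'⟩ : ∃ w', w' = proj (sv k T.f) := ⟨_, rfl⟩
  have hkf : sv k T.f = a' • T.e + (l ^ q)⁻¹ • T.f + eta w' := by
    conv_lhs => rw [T.decomp hF (sv k T.f), hb, ← ha', ← hw']
  obtain ⟨w2, hw2⟩ : ∃ w2, w2 = l ^ q • w' := ⟨_, rfl⟩
  have hs : sv k ((l ^ q) • T.f) = (l ^ q * a') • T.e + T.f + eta w2 := by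
    rw [hw2, sv_smul, hkf, smul_add, smul_add, smul_smul, smul_smul, mul_inv_cancel₀ hlq, one_smul, eta_smul]
  have hc : HCond q w2 (l ^ q * a') := by
    have h := sv_herm k ((l ^ q) • T.f) ((l ^ q) • T.f)
    rw [hs, herm_self_smul, T.hf, mul_zero] at h
    simp only [herm_add_left, herm_add_right hF, herm_smul_left, herm_smul_right, T.he, T.hf, T.hef, T.hfe hF,
      T.ew, T.fw, T.we hF, T.wf hF, herm_eta hF] at h
    unfold HCond
    linear_combination h
  set u := T.heis hF w2 (l ^ q * a') hc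
  have hue : sv u T.e = T.e := by rw [T.sv_heis hF, T.heisLin_e hF]
  have huf : sv u T.f = sv k ((l ^ q) • T.f) := by rw [T.sv_heis hF, T.heisLin_f hF, hs]; abel
  have e1 : sv (u⁻¹ * k) T.e = l • T.e := by
    rw [sv_mul, hk, sv_smul]
    conv_lhs => rw [← hue, sv_inv_sv]
  have e2 : sv (u⁻¹ * k) T.f = (l ^ q)⁻¹ • T.f := by
    have h := congrArg (sv u⁻¹) huf
    rw [sv_inv_sv, sv_smul, sv_smul, ← sv_mul] at h
    conv_rhs => rw [h]
    rw [inv_smul_smul₀ hlq]
  obtain ⟨l', R, hA, e⟩ := T.exists_tor_of_fix hF hl e1 e2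
  have hll : l' = l := by
    have h := e1
    rw [e, T.sv_tor hF, T.lin_e hF] at h
    exact smul_left_injective F (T.e_ne_zero hF) h
  subst hll
  exact ⟨_, _, hc, R, hA, by rw [← e, mul_inv_cancel_left]⟩

theorem act_mem_rbar {l : F} {R : Matrix (Fin m) (Fin m) F} {h : Adm q l R} {w : Vm} {c : F}
    {hc : HCond q w c} (hk : T.heis hF w c hc * T.tor hF h ∈ K) {r : Vm} (hr : r ∈ rbar hF T K) :
    act q l R r ∈ rbar hF T K := by
  obtain ⟨c', hc', h'⟩ := hr
  have hx := K.mul_mem (K.mul_mem hk h') (K.inv_mem hk)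
  rw [_root_.mul_inv_rev, show T.heis hF w c hc * T.tor hF h * T.heis hF r c' hc' *
    ((T.tor hF h)⁻¹ * (T.heis hF w c hc)⁻¹) = T.heis hF w c hc * (T.tor hF h * T.heis hF r c' hc' *
    (T.tor hF h)⁻¹) * (T.heis hF w c hc)⁻¹ by group] at hx
  obtain ⟨hc'', e⟩ : ∃ hc'', T.tor hF h * T.heis hF r c' hc' * (T.tor hF h)⁻¹ =
      T.heis hF (act q l R r) (l ^ (q + 1) * c') hc'' := ⟨_, T.conj_tor_heis hF h hc'⟩
  rw [e, T.heis_mul hF hc hc'', heis_inv hF T hc, T.heis_mul hF _ (hcond_neg hF hc)] at hx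
  have key : ∀ {x : Vm} {d : F} {hxd : HCond q x d}, x = act q l R r → T.heis hF x d hxd ∈ K →
      act q l R r ∈ rbar hF T K := fun {x d hxd} e hmem => e ▸ ⟨d, hxd, hmem⟩
  exact key (by abel) hx

/-- The elements of `K` fixing `e`. -/
theorem card_inf_vecStab_le :
    Nat.card (K.subgroupOf (vecStab F m q T.e)) ≤
      Nat.card (kbar hF T K) * (Nat.card (rbar hF T K) * Nat.card (aSub hF T K)) := by
  choose rep hrep hrepe using fun a : kbar hF T K => Subgroup.mem_map.1 a.2
  have hnf : ∀ k : K.subgroupOf (vecStab F m q T.e), ∃ (w : Vm) (c : F) (hc : HCond q w c),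
      (k.1 : SUn) * ((rep ⟨piHom hF T k.1, k.1, k.2, rfl⟩ : SUn))⁻¹ = T.heis hF w c hc := by
    intro k
    set b : kbar hF T K := ⟨piHom hF T k.1, k.1, k.2, rfl⟩ with hb
    obtain ⟨w, c, hc, e⟩ := exists_normal_form hF T (k.1 * (rep b)⁻¹)
    rw [map_mul, map_inv, hrepe, mul_inv_cancel, map_one, mul_one] at e
    exact ⟨w, c, hc, e⟩
  choose w c hc hwc using hnf
  have hK : ∀ k, T.heis hF (w k) (c k) (hc k) ∈ K := fun k => hwc k ▸ K.mul_mem k.2 (K.inv_mem (hrep _))
  have hr : ∀ k, w k ∈ rbar hF T K := fun k => ⟨c k, hc k, hK k⟩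
  choose cc hcc hccK using fun r : rbar hF T K => r.2
  rw [← Nat.card_prod, ← Nat.card_prod]
  refine Nat.card_le_card_of_injective
    (fun k => ((⟨piHom hF T k.1, k.1, k.2, rfl⟩ : kbar hF T K), ((⟨w k, hr k⟩ : rbar hF T K),
      (⟨c k - cc ⟨w k, hr k⟩, sub_mem_aSub hF T (hK k) (hccK ⟨w k, hr k⟩)⟩ : aSub hF T K)))) ?_
  intro a b h
  have e0 := congrArg (fun p => p.1) h
  have e1 : w a = w b := congrArg (fun p => p.2.1.1) h
  have e2 : c a - cc ⟨w a, hr a⟩ = c b - cc ⟨w b, hr b⟩ := congrArg (fun p => p.2.2.1) h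
  have e3 : (⟨w a, hr a⟩ : rbar hF T K) = ⟨w b, hr b⟩ := Subtype.ext e1
  rw [e3, sub_left_inj] at e2
  have e4 := hwc a
  rw [show (⟨piHom hF T a.1, a.1, a.2, rfl⟩ : kbar hF T K) = ⟨piHom hF T b.1, b.1, b.2, rfl⟩ from e0,
    T.heis_congr hF (hc a) (hc b) e1 e2, ← hwc b, mul_left_inj] at e4
  exact Subtype.ext (Subtype.ext e4)

include hF in
theorem card_vecStab_ge :
    q * (q ^ (2 * m) * Nat.card SUm) ≤ Nat.card (vecStab F m q T.e) := by
  choose cw hcw using fun w : Vm => exists_hcond hF w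
  have hV : Nat.card Vm = q ^ (2 * m) := by
    rw [Nat.card_eq_fintype_card, Fintype.card_fun, hF, Fintype.card_fin, pow_mul]
  rw [← hV]
  refine le_trans (le_of_eq (congrArg (· * _) (card_traceKer hF).symm)) ?_
  rw [← Nat.card_prod, ← Nat.card_prod]
  have hz : ∀ (w : Vm) (z : (traceHom hF).ker), HCond q w (cw w + (z : F)) := fun w z => by
    have h1 : (z : F) + (z : F) ^ q = 0 := AddMonoidHom.mem_ker.1 z.2
    have h2 := hcw w
    unfold HCond at *
    rw [add_pow_q hF]
    linear_combination h1 + h2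
  refine Nat.card_le_card_of_injective (fun p => (⟨T.heis hF p.2.1 (cw p.2.1 + p.1) (hz _ _) * emb hF T p.2.2,
    mul_mem (heis_mem_vecStab hF T _) (emb_mem_vecStab hF T _)⟩ : vecStab F m q T.e)) ?_
  rintro ⟨z, w, a⟩ ⟨z', w', a'⟩ h
  obtain ⟨h1, h2, h3⟩ := heis_emb_inj hF T (congrArg Subtype.val h)
  dsimp only at h1 h2 h3
  subst h1 h3
  exact Prod.ext (Subtype.ext (add_left_cancel h2)) rfl

include hF in
/-- The basic count. -/
theorem card_le_index (hm : 1 ≤ m) :
    (q - 1) * (q + 1) * Nat.card (vecStab F m q T.e) ≤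
      K.index * (Nat.card (scal T K) * Nat.card (K.subgroupOf (vecStab F m q T.e))) := by
  choose g hg using fun μ : Fˣ => exists_SU_map_isotropic hF (show 3 ≤ m + 2 by omega) (T.e_ne_zero hF)
    (smul_ne_zero μ.ne_zero (T.e_ne_zero hF)) T.he (by rw [herm_self_smul, T.he, mul_zero] :
      h[(μ : F) • T.e, (μ : F) • T.e] = 0)
  let φ : Fˣ × vecStab F m q T.e → SUn := fun p => g p.1 * p.2
  have hφe : ∀ p, sv (φ p) T.e = ((p.1 : Fˣ) : F) • T.e := fun p => by
    simp only [φ, sv_mul, AutPSU.mem_vecStab.1 p.2.2, hg]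
  let cls : Fˣ × vecStab F m q T.e → SUn ⧸ K := fun p => QuotientGroup.mk (φ p)
  let r : SUn ⧸ K → Fˣ × vecStab F m q T.e := Function.invFun cls
  have hrK : ∀ p, (φ (r (cls p)))⁻¹ * φ p ∈ K := fun p =>
    QuotientGroup.eq.1 (Function.invFun_eq (f := cls) ⟨p, rfl⟩)
  have hre : ∀ p, sv ((φ (r (cls p)))⁻¹ * φ p) T.e = (((r (cls p)).1⁻¹ * p.1 : Fˣ) : F) • T.e := fun p => by
    have h := congrArg (sv (φ (r (cls p)))⁻¹) (hφe (r (cls p)))
    rw [sv_inv_sv, sv_smul] at h
    have h' : sv (φ (r (cls p)))⁻¹ T.e = (((r (cls p)).1⁻¹ : Fˣ) : F) • T.e := by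
      conv_rhs => arg 2; rw [h]
      rw [smul_smul, ← Units.val_mul, inv_mul_cancel, Units.val_one, one_smul]
    rw [sv_mul, hφe, sv_smul, h', smul_smul, Units.val_mul, mul_comm]
  choose s hsK hse using fun μ : scal T K => μ.2
  have hmu : ∀ p, (r (cls p)).1⁻¹ * p.1 ∈ scal T K := fun p => ⟨_, hrK p, hre p⟩
  have hfix : ∀ p, (s ⟨_, hmu p⟩)⁻¹ * ((φ (r (cls p)))⁻¹ * φ p) ∈ vecStab F m q T.e := fun p => by
    rw [AutPSU.mem_vecStab, sv_mul, hre, ← hse ⟨_, hmu p⟩, sv_inv_sv]
  have h : Nat.card Fˣ * Nat.card (vecStab F m q T.e) ≤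
      K.index * (Nat.card (scal T K) * Nat.card (K.subgroupOf (vecStab F m q T.e))) := by
    rw [← Nat.card_prod, Subgroup.index, ← Nat.card_prod, ← Nat.card_prod]
    refine Nat.card_le_card_of_injective (fun p => (cls p, ((⟨_, hmu p⟩ : scal T K),
      (⟨⟨_, hfix p⟩, Subgroup.mem_subgroupOf.2 (K.mul_mem (K.inv_mem (hsK _)) (hrK p))⟩ :
        K.subgroupOf (vecStab F m q T.e))))) ?_
    intro p p' he
    have e0 : cls p = cls p' := congrArg (fun x => x.1) he
    have e1 := congrArg (fun x => (x.2.1 : Fˣ)) he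
    dsimp only at e1
    rw [e0, mul_right_inj] at e1
    have e2 : (s ⟨_, hmu p⟩)⁻¹ * ((φ (r (cls p)))⁻¹ * φ p) = (s ⟨_, hmu p'⟩)⁻¹ * ((φ (r (cls p')))⁻¹ * φ p') :=
      congrArg (fun x => x.2.2.1.1) he
    have e3 : (⟨_, hmu p⟩ : scal T K) = ⟨_, hmu p'⟩ := congrArg (fun x => x.2.1) he
    rw [e3, mul_right_inj, e0, mul_right_inj] at e2
    refine Prod.ext e1 (Subtype.ext ?_)
    have e4 : g p.1 * (p.2 : SUn) = g p'.1 * p'.2 := e2
    rw [e1] at e4
    exact mul_left_cancel e4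
  rwa [card_units_eq hF] at h

include hF in
/-- The counting inequality. -/
theorem count_le (hm : 1 ≤ m) :
    (q - 1) * (q + 1) * q * ((kbar hF T K).index * (rbar hF T K).index) ≤
      Nat.card (scal T K) * Nat.card (aSub hF T K) * K.index := by
  have hV : Nat.card Vm = q ^ (2 * m) := by
    rw [Nat.card_eq_fintype_card, Fintype.card_fun, hF, Fintype.card_fin, pow_mul]
  have h := card_le_index hF T (K := K) hm
  have h1 := (Nat.mul_le_mul_left _ (card_vecStab_ge hF T)).trans (h.trans (Nat.mul_le_mul_left _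
    (Nat.mul_le_mul_left _ (card_inf_vecStab_le hF T))))
  rw [← hV, ← (kbar hF T K).card_mul_index, ← (rbar hF T K).card_mul_index] at h1
  refine Nat.le_of_mul_le_mul_right (c := Nat.card (kbar hF T K) * Nat.card (rbar hF T K)) ?_
    (Nat.mul_pos Nat.card_pos Nat.card_pos)
  calc _ = (q - 1) * (q + 1) * (q * (Nat.card (rbar hF T K) * (rbar hF T K).index *
        (Nat.card (kbar hF T K) * (kbar hF T K).index))) := by ring
    _ ≤ _ := h1
    _ = _ := by ring

include hF in
/-- At a bad point the index is at least `q` times the two partial indices. -/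
theorem le_index (hm : 1 ≤ m) (h : ¬ Good hF K T.e) :
    q * ((kbar hF T K).index * (rbar hF T K).index) ≤ K.index := by
  have hq := two_le_q hF
  have h1 := card_scal_le hF T h
  have hα : 0 < Nat.card (aSub hF T K) := Nat.card_pos
  have h2 : Nat.card (scal T K) * Nat.card (aSub hF T K) ≤ (q - 1) * (q + 1) := by
    obtain ⟨p, rfl⟩ : ∃ p, q = p + 1 := ⟨q - 1, by omega⟩
    rw [Nat.add_sub_cancel]
    nlinarith
  refine Nat.le_of_mul_le_mul_left ?_ (Nat.mul_pos (show 0 < q - 1 by omega) (show 0 < q + 1 by omega))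
  calc _ = (q - 1) * (q + 1) * q * ((kbar hF T K).index * (rbar hF T K).index) := by ring
    _ ≤ _ := count_le hF T hm
    _ ≤ _ := Nat.mul_le_mul_right _ h2

end CfsgLib.MinIndexPSU
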