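import Cfsg.Agent.MinIndexPSU.ThreeIndex

/-!
The index at a bad point of a subgroup of `SU_5(2)` whose image on the middle space is proper.
-/

set_option autoImplicit false
set_option linter.unusedSectionVars false

open scoped Classical

namespace CfsgLib.MinIndexPSU

open Matrix CfsgLib.Unitary CfsgLib.AutPSU CfsgLib.AutPSU.Frame CfsgLib.SchurClassical.Un

variable {F : Type*} [Field F] [Fintype F] (hF : Fintype.card F = 2 ^ 2)

local notation "H₃[" u "," v "]" => Cfsg.hermForm 3 F 2 u v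

include hF in
theorem two_zero : (2 : F) = 0 := by
  have h := add_pow_q hF (1 : F) 1
  linear_combination h

include hF in
theorem mem_prime_of_fixed {x : F} (hx : x ^ 2 = x) : x = 0 ∨ x = 1 := by
  have : x * (x - 1) = 0 := by linear_combination hx
  exact (mul_eq_zero.1 this).imp_right sub_eq_zero.1

include hF in
theorem eq_smul_of_perp_three {r s : Fin 3 → F} (hr0 : r ≠ 0) (hr : H₃[r, r] = 0) (hs : H₃[s, s] = 0)
    (hsr : H₃[s, r] = 0) : ∃ a : F, s = a • r := by
  obtain ⟨T⟩ := exists_frame (F := F) (m := 1) (q := 2) hF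
  obtain ⟨A, hA⟩ := exists_SU_map_isotropic (n := 3) hF le_rfl hr0 (T.e_ne_zero hF) hr T.he
  have h1 : Cfsg.hermForm (1 + 2) F 2 (sv A s) T.e = 0 := by rw [← hA, sv_herm]; exact hsr
  have h2 := T.eq_of_perp_e hF h1
  set a := Cfsg.hermForm (1 + 2) F 2 (sv A s) T.f
  set y := proj (sv A s)
  have hy : Cfsg.hermForm 1 F 2 y y = 0 := by
    have h := herm_sv_self_eq_zero A hs
    rw [h2] at h
    simp only [herm_add_left, herm_add_right hF, herm_smul_left, herm_smul_right, T.he, T.ew, T.we hF,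
      herm_eta hF] at h
    linear_combination h
  have hy0 : y = 0 := by
    funext i
    fin_cases i
    simpa [Cfsg.hermForm] using hy
  refine ⟨a, ?_⟩
  rw [hy0, eta_zero, add_zero, ← hA, ← sv_smul] at h2
  rw [← sv_inv_sv A s, h2, sv_inv_sv]

variable (T : Frame F 3 2) {K : Subgroup ↥(Cfsg.SU (3 + 2) F 2)}

include hF in
theorem aSub_eq_zero (hbad : ¬ Good hF K T.e) {z : F} (hz : z ∈ aSub hF T K) : z = 0 := by
  have hle := aSub_le hF T (K := K)
  have h2 := two_zero hF
  have key : ∀ y ∈ (traceHom hF).ker, y = 0 ∨ y = 1 := fun y hy => mem_prime_of_fixed hF (by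
    have h : y + y ^ 2 = 0 := AddMonoidHom.mem_ker.1 hy
    linear_combination h - y * h2)
  rcases key z (hle hz) with e | e
  · exact e
  · refine absurd (le_antisymm hle fun y hy => ?_) (aSub_ne hF T hbad)
    rcases key y hy with rfl | rfl
    · exact (aSub hF T K).zero_mem
    · exact e ▸ hz

include hF in
theorem rbar_iso_two (hbad : ¬ Good hF K T.e) {r : Fin 3 → F} (hr : r ∈ rbar hF T K) : H₃[r, r] = 0 := by
  have h2 := two_zero hF
  obtain ⟨c, hc, h⟩ := hr
  have hh := K.mul_mem h h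
  rw [T.heis_mul hF hc hc] at hh
  have hrr : r + r = 0 := by rw [← two_smul F r, h2, zero_smul]
  have h0 : HCond 2 (0 : Fin 3 → F) (c + c - H₃[r, r]) := hrr ▸ hcond_mul hF hc hc
  rw [T.heis_congr hF _ h0 hrr rfl] at hh
  have := aSub_eq_zero hF T hbad ⟨h0, hh⟩
  linear_combination -this + c * h2

include hF in
theorem rbar_card_le_four (hbad : ¬ Good hF K T.e) : Nat.card (rbar hF T K) ≤ 4 := by
  by_cases h0 : ∀ r ∈ rbar hF T K, r = 0
  · have : Subsingleton (rbar hF T K) := ⟨fun a b => Subtype.ext ((h0 _ a.2).trans (h0 _ b.2).symm)⟩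
    rw [Nat.card_unique]; norm_num
  push Not at h0
  obtain ⟨r, hr, hr0⟩ := h0
  have hfix : ∀ s ∈ rbar hF T K, ∀ t ∈ rbar hF T K, H₃[s, t] ^ 2 = H₃[s, t] := fun s hs t ht => by
    have h := aSub_eq_zero hF T hbad (comm_mem_aSub hF T hs ht)
    rw [← herm_conj hF s t]
    linear_combination -h
  have hperp : ∀ s ∈ rbar hF T K, H₃[s, r] = 0 → ∃ a : F, s = a • r := fun s hs h =>
    eq_smul_of_perp_three hF hr0 (rbar_iso_two hF T hbad hr) (rbar_iso_two hF T hbad hs) h
  have h4 : Nat.card F = 4 := by rw [Nat.card_eq_fintype_card, hF]; norm_num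
  by_cases hall : ∀ s ∈ rbar hF T K, H₃[s, r] = 0
  · choose a ha using fun s : rbar hF T K => hperp s.1 s.2 (hall s.1 s.2)
    rw [← h4]
    exact Nat.card_le_card_of_injective a fun x y e => Subtype.ext (by rw [ha x, ha y, e])
  push Not at hall
  obtain ⟨s1, hs1, hs1r⟩ := hall
  have h1 : H₃[s1, r] = 1 := (mem_prime_of_fixed hF (hfix _ hs1 _ hr)).resolve_left hs1r
  have hdec : ∀ s ∈ rbar hF T K, ∃ a b : F, a ^ 2 = a ∧ b ^ 2 = b ∧ s = a • s1 + b • r := by
    intro s hs
    have hmem : s - H₃[s, r] • s1 ∈ rbar hF T K := by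
      rcases mem_prime_of_fixed hF (hfix _ hs _ hr) with e | e <;> rw [e]
      · rwa [zero_smul, sub_zero]
      · rw [one_smul]; exact (rbar hF T K).sub_mem hs hs1
    obtain ⟨b, hb⟩ := hperp _ hmem (by rw [herm_sub_left, herm_smul_left, h1, mul_one, sub_self])
    refine ⟨H₃[s, r], b, hfix _ hs _ hr, ?_, by rw [← hb]; abel⟩
    have h := hfix _ hs1 _ (hb ▸ hmem)
    rw [herm_smul_right, h1, mul_one] at h
    rcases mem_prime_of_fixed hF h with e | e
    · rw [eq_zero_of_pow_eq_zero e]; ring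
    · have h2 := two_zero hF
      have : (b - 1) ^ 2 = 0 := by linear_combination e + (1 - b) * h2
      rw [sub_eq_zero.1 (eq_zero_of_pow_eq_zero this)]; ring
  choose a b ha hb hab using fun s : rbar hF T K => hdec s.1 s.2
  have hle := Nat.card_le_card_of_injective
    (fun s => ((⟨a s, ha s⟩, ⟨b s, hb s⟩) : {x : F // x ^ 2 = x} × {x : F // x ^ 2 = x}))
    fun x y e => Subtype.ext (by
      simp only [Prod.mk.injEq, Subtype.mk.injEq] at e
      rw [hab x, hab y, e.1, e.2])
  rwa [Nat.card_prod, card_fixed hF] at hle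

include hF in
theorem index_mul_ge_three_two (hbad : ¬ Good hF K T.e) (hk : kbar hF T K ≠ ⊤) :
    83 ≤ (kbar hF T K).index * (rbar hF T K).index := by
  have hI2 : 2 ≤ (kbar hF T K).index := by
    have h0 : (kbar hF T K).index ≠ 0 := Subgroup.index_ne_zero_of_finite
    have h1 : (kbar hF T K).index ≠ 1 := fun e => hk (Subgroup.index_eq_one.1 e)
    omega
  have hmk := (kbar hF T K).card_mul_index
  have hmr := (rbar hF T K).card_mul_index
  rw [card_SU_three_eq hF] at hmk
  rw [card_Vm hF] at hmr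
  rw [show (2 : ℕ) ^ 3 * ((2 ^ 3 + 1) * (2 ^ 2 - 1)) = 216 by norm_num] at hmk
  rw [show (2 : ℕ) ^ (2 * 3) = 64 by norm_num] at hmr
  by_cases hr : ∀ r ∈ rbar hF T K, r = 0
  · rw [rbar_index_of_bot hF T hr]
    norm_num
    omega
  push Not at hr
  obtain ⟨r, hr, hr0⟩ := hr
  have hS : Nat.card (vecStab F 1 2 r) = 8 := by
    have h := index_vecStab (m := 1) hF le_rfl hr0 (rbar_iso_two hF T hbad hr)
    have h1 := (vecStab F 1 2 r).card_mul_index
    rw [card_SU_three_eq hF, show (2 : ℕ) ^ 3 * ((2 ^ 3 + 1) * (2 ^ 2 - 1)) = 216 by norm_num] at h1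
    have h2 := normCount_zero_eq (F := F) hF (1 + 2)
    norm_num at h2
    have h3 : (normCount 3 2 (0 : F) : ℤ) = 28 := by linarith
    have h3' : normCount 3 2 (0 : F) = 28 := by exact_mod_cast h3
    rw [show normCount (1 + 2) 2 (0 : F) = 28 from h3'] at h
    have h4 : (vecStab F 1 2 r).index = 27 := by omega
    rw [h4] at h1
    omega
  let S : Set (Fin 3 → F) := (rbar hF T K : Set (Fin 3 → F)) \ {0}
  have hκ : Nat.card (kbar hF T K) ≤ S.ncard * 8 := by
    refine card_le_orbit_mul (kbar hF T K) (fun g => sv g r) 8 (fun g0 hg0 => ?_) (S := S) fun g hg => ?_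
    · refine (card_fibre_le (kbar hF T K) (vecStab F 1 2 r) (fun g => sv g r) (fun g g' e => ?_) g0 hg0).trans ?_
      · show sv (g'⁻¹ * g) r = r
        rw [sv_mul, e, sv_inv_sv]
      · exact hS ▸ Nat.card_le_card_of_injective (Subgroup.inclusion inf_le_right) (Subgroup.inclusion_injective _)
    · exact ⟨kbar_rbar hF T hg hr, fun e => hr0 (by
        rw [← sv_inv_sv g r, show sv g r = 0 from e]; exact Matrix.mulVec_zero _)⟩
  have hSc : S.ncard + 1 = Nat.card (rbar hF T K) := by
    rw [Set.ncard_sdiff_singleton_add_one (rbar hF T K).zero_mem (Set.toFinite _), ← Nat.card_coe_set_eq]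
    rfl
  have hρ := rbar_card_le_four hF T hbad
  have h96 : Nat.card (kbar hF T K) * Nat.card (rbar hF T K) ≤ 96 :=
    (Nat.mul_le_mul (hκ.trans (Nat.mul_le_mul_right 8 (show S.ncard ≤ 3 by omega))) hρ).trans (by norm_num)
  by_contra hlt
  push Not at hlt
  have h := Nat.mul_le_mul h96 hlt.le
  rw [mul_mul_mul_comm, hmk, hmr] at h
  omega

end CfsgLib.MinIndexPSU
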