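import Cfsg.Agent.MinIndexPSU.ThreeIndex
import Cfsg.Agent.MinIndexPSU.ThreeTwo

/-!
The number of isotropic vectors, and the consequences of a small index at a bad point.
-/

set_option autoImplicit false
set_option linter.unusedSectionVars false

open scoped Classical

namespace CfsgLib.MinIndexPSU

open Matrix CfsgLib.Unitary CfsgLib.AutPSU CfsgLib.AutPSU.Frame CfsgLib.SchurClassical.Un

variable {F : Type*} [Field F] [Fintype F] {m q : ℕ} (hF : Fintype.card F = q ^ 2)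

variable (F) in
/-- The number of non-zero isotropic vectors. -/
noncomputable def iso (n q : ℕ) : ℕ := normCount n q (0 : F) - 1

theorem one_le_normCount_zero (n : ℕ) : 1 ≤ normCount n q (0 : F) :=
  Nat.one_le_iff_ne_zero.2 (Nat.card_ne_zero.2 ⟨⟨⟨0, herm_zero_left _⟩⟩, inferInstance⟩)

include hF in
theorem iso_eq (n : ℕ) :
    (q : ℤ) * ((iso F n q : ℤ) + 1) = (q : ℤ) ^ n * ((q : ℤ) ^ n + (q - 1) * (-1) ^ n) := by
  rw [← normCount_zero_eq hF, iso, Nat.cast_sub (one_le_normCount_zero n)]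
  push_cast
  ring

include hF in
theorem iso_rec (n : ℕ) :
    (iso F (n + 2) q : ℤ) = ((q : ℤ) ^ 2 - 1) * ((q : ℤ) ^ (2 * n + 1) + 1) + (q : ℤ) ^ 2 * iso F n q := by
  have hq : (q : ℤ) ≠ 0 := by have := two_le_q hF; exact_mod_cast (show q ≠ 0 by omega)
  refine mul_left_cancel₀ hq ?_
  have h1 := iso_eq hF (n + 2)
  have h2 := iso_eq hF n
  rw [pow_add (-1 : ℤ)] at h1
  linear_combination h1 - (q : ℤ) ^ 2 * h2

include hF in
theorem iso_rec' (n : ℕ) :
    iso F (n + 2) q = (q - 1) * (q + 1) * (q ^ (2 * n + 1) + 1) + q ^ 2 * iso F n q := by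
  have hq := two_le_q hF
  have h := iso_rec hF n
  apply Nat.cast_injective (R := ℤ)
  rw [h]
  push_cast [Nat.cast_sub (show 1 ≤ q by omega)]
  ring

include hF in
/-- The points not of the form of the generic one are few. -/
theorem excess_le (hm : 3 ≤ m) :
    (q - 1) * (q + 1) + q ^ 2 * iso F m q ≤ (q - 1) * (q + 1) * q ^ (2 * m) := by
  have hq := two_le_q hF
  have hq' : (2 : ℤ) ≤ q := by exact_mod_cast hq
  suffices h : ((q : ℤ) - 1) * (q + 1) + (q : ℤ) ^ 2 * iso F m q ≤ ((q : ℤ) - 1) * (q + 1) * (q : ℤ) ^ (2 * m) by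
    rw [← Nat.cast_le (α := ℤ)]
    push_cast [Nat.cast_sub (show 1 ≤ q by omega)]
    exact h
  refine le_of_mul_le_mul_left ?_ (show (0 : ℤ) < q by linarith)
  have h := iso_eq hF m
  have hs : ((-1 : ℤ)) ^ m ≤ 1 := by rcases neg_one_pow_eq_or ℤ m with e | e <;> rw [e] <;> norm_num
  have hP : (q : ℤ) ^ 3 ≤ (q : ℤ) ^ m := pow_le_pow_right₀ (by linarith) hm
  have hPP : (q : ℤ) ^ (2 * m) = (q : ℤ) ^ m * (q : ℤ) ^ m := by rw [two_mul, pow_add]
  have h1 : (q : ℤ) * iso F m q ≤ (q : ℤ) ^ m * ((q : ℤ) ^ m + (q - 1)) - q := by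
    have := mul_le_mul_of_nonneg_left (mul_le_mul_of_nonneg_left hs (show (0 : ℤ) ≤ q - 1 by linarith))
      (show (0 : ℤ) ≤ (q : ℤ) ^ m by positivity)
    nlinarith
  rw [hPP]
  have h2 := mul_le_mul_of_nonneg_left h1 (show (0 : ℤ) ≤ (q : ℤ) ^ 2 by positivity)
  have hA : (2 : ℤ) ≤ (q : ℤ) ^ 3 - (q : ℤ) ^ 2 - q := by nlinarith
  have h3 := mul_le_mul_of_nonneg_left hA (show (0 : ℤ) ≤ (q : ℤ) ^ m * (q : ℤ) ^ m by positivity)
  have h4 := mul_le_mul_of_nonneg_left hP (show (0 : ℤ) ≤ (q : ℤ) ^ m by positivity)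
  nlinarith

include hF in
theorem iso_odd_three : iso F 3 q = (q - 1) * (q + 1) * (q ^ 3 + 1) := by
  have h := iso_eq hF 3
  have hq := two_le_q hF
  apply Nat.cast_injective (R := ℤ)
  push_cast [Nat.cast_sub (show 1 ≤ q by omega)]
  refine mul_left_cancel₀ (show (q : ℤ) ≠ 0 by exact_mod_cast (show q ≠ 0 by omega)) ?_
  linear_combination h

/-- The bound to be excluded. -/
def Small (K : Subgroup ↥(Cfsg.SU (m + 2) F q)) : Prop :=
  (q - 1) * (q + 1) * K.index < iso F (m + 2) q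

theorem Small.conjSub {K : Subgroup ↥(Cfsg.SU (m + 2) F q)} (h : Small K) (a : ↥(Cfsg.SU (m + 2) F q)) :
    Small (MinIndexPSU.conjSub a K) := by rwa [Small, index_conjSub]

variable (T : Frame F m q) {K : Subgroup ↥(Cfsg.SU (m + 2) F q)}

include hF in
theorem kbar_eq_top (hm : 3 ≤ m) (h42 : ¬ (m = 4 ∧ q = 2)) (hbad : ¬ Good hF K T.e) (hs : Small K) :
    kbar hF T K = ⊤ := by
  by_contra hk
  have hle := le_index hF T (K := K) (by omega) hbad
  rcases Nat.eq_or_lt_of_le hm with rfl | hm4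
  · rcases Nat.eq_or_lt_of_le (two_le_q hF) with e | hq
    · subst e
      have h1 := (Nat.mul_le_mul_left 2 (index_mul_ge_three_two hF T hbad hk)).trans hle
      have h2 : iso F (3 + 2) 2 = 495 := by rw [iso_rec' hF, iso_odd_three hF]; norm_num
      have hs' : (2 - 1) * (2 + 1) * K.index < iso F (3 + 2) 2 := hs
      omega
    have h1 := (Nat.mul_le_mul_left q (index_mul_ge_three hF hq T hbad hk)).trans hle
    have h2 := Nat.mul_le_mul_left ((q - 1) * (q + 1)) h1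
    refine lt_irrefl _ (hs.trans_le (le_trans ?_ h2))
    rw [iso_rec' hF, iso_odd_three hF]
    obtain ⟨p, rfl⟩ : ∃ p, q = p + 1 := ⟨q - 1, by omega⟩
    rw [Nat.add_sub_cancel]
    calc p * (p + 1 + 1) * ((p + 1) ^ (2 * 3 + 1) + 1) + (p + 1) ^ 2 * (p * (p + 1 + 1) * ((p + 1) ^ 3 + 1))
        = p * (p + 1 + 1) * ((p + 1) * ((p + 1) ^ 6 + (p + 1) ^ 4) + ((p + 1) ^ 2 + 1)) := by ring
      _ ≤ p * (p + 1 + 1) * ((p + 1) * ((p + 1) ^ 6 + (p + 1) ^ 4) + ((p + 1) ^ 2 + (p + 1))) :=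
          Nat.mul_le_mul_left _ (by omega)
      _ = _ := by ring
  have hI := index_ge_weak hF hm4 h42 _ hk
  have hτ := rbar_index_ge hF T hbad
  have h1 := (Nat.mul_le_mul_left q (Nat.mul_le_mul hI hτ)).trans hle
  obtain ⟨j, rfl⟩ : ∃ j, m = j + 1 := ⟨m - 1, by omega⟩
  rw [Nat.add_sub_cancel] at h1
  refine lt_irrefl _ (hs.trans_le ?_)
  rw [iso_rec' hF]
  have h2 := excess_le hF (m := j + 1) (by omega)
  have h3 := Nat.mul_le_mul_left ((q - 1) * (q + 1)) h1
  have e : q * ((q ^ (j + 1) + q ^ j) * q ^ (j + 1)) = q ^ (2 * (j + 1) + 1) + q ^ (2 * (j + 1)) := by ring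
  rw [e, mul_add] at h3
  rw [mul_add, mul_one]
  omega

include hF in
theorem scal_eq_top (hm : 3 ≤ m) (h42 : ¬ (m = 4 ∧ q = 2)) (hbad : ¬ Good hF K T.e) (hs : Small K) :
    Nat.card (aSub hF T K) = 1 ∧ ∀ μ : Fˣ, μ ∈ scal T K := by
  have hq := two_le_q hF
  have htop := kbar_eq_top hF T hm h42 hbad hs
  have hc := count_le hF T (K := K) (by omega)
  rw [htop, Subgroup.index_top, one_mul, rbar_index_of_bot hF T (rbar_eq_zero_of_top hF T (by omega) hbad htop)] at hc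
  have hα : 0 < Nat.card (aSub hF T K) := Nat.card_pos
  have h1 := card_scal_le hF T hbad
  have hgE := excess_le hF (m := m) (by omega)
  have hiso : iso F (m + 2) q ≤ (q - 1) * (q + 1) * (q ^ (2 * m + 1) + q ^ (2 * m)) := by
    rw [iso_rec' hF, Nat.mul_add ((q - 1) * (q + 1)), Nat.mul_add ((q - 1) * (q + 1)), mul_one]
    omega
  by_contra hcon
  have hγ : Nat.card (scal T K) * Nat.card (aSub hF T K) * (q ^ (2 * m + 1) + q ^ (2 * m))
      ≤ (q - 1) * (q + 1) * q ^ (2 * m + 1) := by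
    rw [show q ^ (2 * m + 1) + q ^ (2 * m) = (q + 1) * q ^ (2 * m) by ring,
      show (q - 1) * (q + 1) * q ^ (2 * m + 1) = (q - 1) * (q + 1) * q * q ^ (2 * m) by ring, ← mul_assoc]
    refine Nat.mul_le_mul_right _ ?_
    obtain ⟨p, rfl⟩ : ∃ p, q = p + 1 := ⟨q - 1, by omega⟩
    rw [Nat.add_sub_cancel]
    rcases Nat.lt_or_ge (Nat.card (aSub hF T K)) 2 with h | h
    · have hα1 : Nat.card (aSub hF T K) = 1 := by omega
      rw [hα1, mul_one]
      have hγ1 : (scal T K).index ≠ 1 := fun e => hcon ⟨hα1, fun μ => Subgroup.index_eq_one.1 e ▸ trivial⟩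
      have hγ0 : (scal T K).index ≠ 0 := Subgroup.index_ne_zero_of_finite
      have hcard := (scal T K).card_mul_index
      rw [card_units_eq hF, Nat.add_sub_cancel] at hcard
      have h2 : Nat.card (scal T K) * 2 ≤ p * (p + 1 + 1) :=
        hcard ▸ Nat.mul_le_mul_left _ (show 2 ≤ (scal T K).index by omega)
      nlinarith
    · nlinarith
  refine lt_irrefl _ (hs.trans_le (hiso.trans ?_))
  refine Nat.le_of_mul_le_mul_left ?_ (show 0 < Nat.card (scal T K) * Nat.card (aSub hF T K) from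
    Nat.mul_pos Nat.card_pos hα)
  calc Nat.card (scal T K) * Nat.card (aSub hF T K) * ((q - 1) * (q + 1) * (q ^ (2 * m + 1) + q ^ (2 * m)))
      = (q - 1) * (q + 1) * (Nat.card (scal T K) * Nat.card (aSub hF T K) * (q ^ (2 * m + 1) + q ^ (2 * m))) := by ring
    _ ≤ (q - 1) * (q + 1) * ((q - 1) * (q + 1) * q ^ (2 * m + 1)) := Nat.mul_le_mul_left _ hγ
    _ = (q - 1) * (q + 1) * ((q - 1) * (q + 1) * q * q ^ (2 * m)) := by ring
    _ ≤ (q - 1) * (q + 1) * (Nat.card (scal T K) * Nat.card (aSub hF T K) * K.index) := Nat.mul_le_mul_left _ hc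
    _ = _ := by ring

include hF in
theorem rbar_eq_zero (hm : 3 ≤ m) (h42 : ¬ (m = 4 ∧ q = 2)) (hbad : ¬ Good hF K T.e) (hs : Small K) :
    ∀ r ∈ rbar hF T K, r = 0 :=
  rbar_eq_zero_of_top hF T (by omega) hbad (kbar_eq_top hF T hm h42 hbad hs)

end CfsgLib.MinIndexPSU
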