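import Cfsg.Agent.MinIndexPSU.Attain

/-!
Orbits at a bad point of a subgroup of `SU_4(q)` of index close to `q^4 + q^3`.
-/

set_option autoImplicit false
set_option linter.unusedSectionVars false

open scoped Classical

namespace CfsgLib.MinIndexPSU

open Matrix CfsgLib.Unitary CfsgLib.AutPSU CfsgLib.AutPSU.Frame CfsgLib.SchurClassical.Un

variable {F : Type*} [Field F] [Fintype F] {q : ℕ} (hF : Fintype.card F = q ^ 2)
variable (T : Frame F 2 q) {K : Subgroup ↥(Cfsg.SU (2 + 2) F q)}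

local notation "V4" => Fin (2 + 2) → F
local notation "h[" u "," v "]" => Cfsg.hermForm (2 + 2) F q u v

/-- The vectors on the points of the orbit of `e`. -/
def orbPts (K : Subgroup ↥(Cfsg.SU (2 + 2) F q)) : Set V4 :=
  {x | ∃ μ : Fˣ, ∃ o ∈ orbitE T K, x = (μ : F) • o}

include hF in
theorem orbPts_iso {x : V4} (hx : x ∈ orbPts T K) : x ≠ 0 ∧ h[x, x] = 0 := by
  obtain ⟨μ, _, ⟨k, rfl⟩, rfl⟩ := hx
  refine ⟨smul_ne_zero μ.ne_zero fun e => T.e_ne_zero hF ?_, ?_⟩
  · rw [← sv_inv_sv k.1 T.e, show sv k.1 T.e = 0 from e]; exact Matrix.mulVec_zero _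
  · rw [herm_self_smul, herm_sv_self_eq_zero _ T.he, mul_zero]

include hF in
theorem orbPts_not_good (hbad : ¬ Good hF K T.e) {x : V4} (hx : x ∈ orbPts T K) : ¬ Good hF K x := by
  obtain ⟨μ, _, ⟨k, rfl⟩, rfl⟩ := hx
  intro hg
  have h1 := (hg.smul hF (μ : F)⁻¹).map hF (K.inv_mem k.2)
  rw [inv_smul_smul₀ μ.ne_zero, sv_inv_sv] at h1
  exact hbad h1

include hF in
theorem card_orbPts_add (hbad : ¬ Good hF K T.e) :
    (orbPts T K).ncard + (goodSet hF K).ncard ≤ iso F (2 + 2) q := by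
  have hdisj : Disjoint (orbPts T K) (goodSet hF K) := by
    rw [Set.disjoint_left]
    exact fun x hx hg => orbPts_not_good hF T hbad hx hg.2.2
  rw [← Set.ncard_union_eq hdisj (Set.toFinite _) (Set.toFinite _), ← card_isoVec (n := 2 + 2) hF,
    show Nat.card {v : V4 // v ≠ 0 ∧ h[v, v] = 0} = ({v : V4 | v ≠ 0 ∧ h[v, v] = 0}).ncard from
      Nat.card_coe_set_eq _]
  refine Set.ncard_le_ncard ?_ (Set.toFinite _)
  rintro v (hv | hv)
  · exact orbPts_iso hF T hv
  · exact ⟨hv.1, hv.2.1⟩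

include hF in
theorem card_units_mul_orbit_le :
    (q - 1) * (q + 1) * (orbitE T K).ncard ≤ Nat.card (scal T K) * (orbPts T K).ncard := by
  rw [← card_units_eq hF, ← Nat.card_coe_set_eq, ← Nat.card_prod, ← Nat.card_coe_set_eq (orbPts T K)]
  let f : Fˣ × orbitE T K → orbPts T K := fun p => ⟨_, p.1, p.2.1, p.2.2, rfl⟩
  haveI := Fintype.ofFinite (orbPts T K)
  haveI := Fintype.ofFinite (Fˣ × orbitE T K)
  rw [Nat.card_eq_fintype_card, Nat.card_eq_fintype_card (α := orbPts T K), ← Finset.card_univ, ← Finset.card_univ]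
  refine Finset.card_le_mul_card_image_of_maps_to (f := f) (fun _ _ => Finset.mem_univ _) _ fun y _ => ?_
  rw [← Fintype.card_subtype, ← Nat.card_eq_fintype_card]
  rcases isEmpty_or_nonempty {p : Fˣ × orbitE T K // f p = y} with hE | ⟨⟨⟨μ0, ⟨o0, k0, rfl⟩⟩, h0⟩⟩
  · rw [Nat.card_of_isEmpty]; exact Nat.zero_le _
  refine Nat.card_le_card_of_injective (fun p => (⟨p.1.1⁻¹ * μ0, ?_⟩ : scal T K)) ?_
  · obtain ⟨⟨μ, ⟨o, k, rfl⟩⟩, hp⟩ := p
    have e : (μ : F) • sv k.1 T.e = (μ0 : F) • sv k0.1 T.e := congrArg Subtype.val (hp.trans h0.symm)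
    refine ⟨k0.1⁻¹ * k.1, K.mul_mem (K.inv_mem k0.2) k.2, ?_⟩
    have e' := congrArg (sv k0.1⁻¹) e
    rw [sv_smul, sv_smul, sv_inv_sv, ← sv_mul] at e'
    rw [Units.val_mul, mul_smul, ← e', Units.val_inv_eq_inv_val, inv_smul_smul₀ μ.ne_zero]
  · rintro ⟨⟨μ, o⟩, hp⟩ ⟨⟨ν, o'⟩, hp'⟩ e
    have e1 : μ⁻¹ * μ0 = ν⁻¹ * μ0 := congrArg Subtype.val e
    rw [mul_left_inj, _root_.inv_inj] at e1
    subst e1
    have e2 : (μ : F) • o.1 = (μ : F) • o'.1 := congrArg Subtype.val (hp.trans hp'.symm)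
    exact Subtype.ext (Prod.ext rfl (Subtype.ext (smul_right_injective _ μ.ne_zero e2)))

include hF in
theorem card_eq_orbit_mul :
    Nat.card K ≤ (orbitE T K).ncard * Nat.card (K.subgroupOf (vecStab F 2 q T.e)) := by
  refine card_le_orbit_mul (S := orbitE T K) K (fun g => sv g T.e)
    (Nat.card (K.subgroupOf (vecStab F 2 q T.e))) (fun g0 hg0 => ?_) fun g hg => ⟨⟨g, hg⟩, rfl⟩
  refine Nat.card_le_card_of_injective (fun g => (⟨⟨g0⁻¹ * g.1.1, ?_⟩,
    Subgroup.mem_subgroupOf.2 (K.mul_mem (K.inv_mem hg0) g.1.2)⟩ : K.subgroupOf (vecStab F 2 q T.e))) ?_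
  · rw [AutPSU.mem_vecStab, sv_mul, show sv g.1.1 T.e = sv g0 T.e from g.2, sv_inv_sv]
  · intro a b h
    exact Subtype.ext (Subtype.ext (mul_left_cancel (congrArg (fun x => x.1.1) h)))

include hF in
/-- The orbit inequality at a bad point. -/
theorem four_orbit (hbad : ¬ Good hF K T.e) :
    iso F (2 + 2) q *
        ((Nat.card (scal T K) * Nat.card (aSub hF T K) + (Nat.card (aSub hF T K) - 1)) * (q ^ 4 + q ^ 3)) ≤
      K.index * Nat.card (aSub hF T K) * (Nat.card (scal T K) * (orbPts T K).ncard) := by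
  have hc := count_four hF T hbad
  have hu := card_units_mul_orbit_le hF T (K := K)
  have h0 : iso F (2 + 2) q * (q * ((kbar hF T K).index * (rbar hF T K).index)) ≤
      K.index * Nat.card (aSub hF T K) * (orbitE T K).ncard := by
    have hG : iso F (2 + 2) q * Nat.card (vecStab F 2 q T.e) = K.index * Nat.card K := by
      rw [← index_vecStab_eq hF T (by omega), mul_comm, (vecStab F 2 q T.e).card_mul_index, mul_comm,
        K.card_mul_index]
    have hge := card_vecStab_ge hF T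
    rw [← (kbar hF T K).card_mul_index, ← card_Vm (m := 2) hF, ← (rbar hF T K).card_mul_index] at hge
    have h1 := (Nat.mul_le_mul_left _ hge).trans (hG.le.trans (Nat.mul_le_mul_left _
      ((card_eq_orbit_mul hF T).trans (Nat.mul_le_mul_left _ (card_inf_vecStab_le hF T)))))
    refine Nat.le_of_mul_le_mul_right (c := Nat.card (kbar hF T K) * Nat.card (rbar hF T K)) ?_
      (Nat.mul_pos Nat.card_pos Nat.card_pos)
    calc _ = iso F (2 + 2) q * (q * (Nat.card (rbar hF T K) * (rbar hF T K).index *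
          (Nat.card (kbar hF T K) * (kbar hF T K).index))) := by ring
      _ ≤ _ := h1
      _ = _ := by ring
  calc _ ≤ iso F (2 + 2) q * ((q - 1) * (q + 1) * (q * ((kbar hF T K).index * (rbar hF T K).index))) :=
        Nat.mul_le_mul_left _ hc
    _ = (q - 1) * (q + 1) * (iso F (2 + 2) q * (q * ((kbar hF T K).index * (rbar hF T K).index))) := by ring
    _ ≤ (q - 1) * (q + 1) * (K.index * Nat.card (aSub hF T K) * (orbitE T K).ncard) := Nat.mul_le_mul_left _ h0
    _ = K.index * Nat.card (aSub hF T K) * ((q - 1) * (q + 1) * (orbitE T K).ncard) := by ring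
    _ ≤ _ := Nat.mul_le_mul_left _ hu

include hF in
theorem iso_four : iso F (2 + 2) q = (q ^ 4 - 1) * (q ^ 3 + 1) := by
  rw [iso_even hF (by decide) (by norm_num)]

include hF in
theorem iso_four_pos : 0 < iso F (2 + 2) q := by
  rw [iso_four hF]
  have hq := two_le_q hF
  have := Nat.pow_le_pow_left hq 4
  exact Nat.mul_pos (by omega) (by omega)

include hF in
/-- Index exactly `q^4 + q^3`: at a bad point no root element, and the orbit covers every point. -/
theorem four_tight (hbad : ¬ Good hF K T.e) (hN : K.index ≤ q ^ 4 + q ^ 3) :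
    Nat.card (aSub hF T K) = 1 ∧ (goodSet hF K).ncard = 0 ∧
      ∀ x : V4, x ≠ 0 → h[x, x] = 0 → x ∈ orbPts T K := by
  have h := four_orbit hF T hbad
  have hadd := card_orbPts_add hF T hbad
  have hI := iso_four_pos hF (F := F) (q := q)
  have hM : 0 < q ^ 4 + q ^ 3 := by have := two_le_q hF; positivity
  have hα : 0 < Nat.card (aSub hF T K) := Nat.card_pos
  have hγ : 0 < Nat.card (scal T K) := Nat.card_pos
  have hC : (orbPts T K).ncard ≤ iso F (2 + 2) q := le_trans (Nat.le_add_right _ _) hadd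
  have h1 : iso F (2 + 2) q *
      (Nat.card (scal T K) * Nat.card (aSub hF T K) + (Nat.card (aSub hF T K) - 1)) ≤
      Nat.card (scal T K) * Nat.card (aSub hF T K) * (orbPts T K).ncard := by
    refine Nat.le_of_mul_le_mul_right (c := q ^ 4 + q ^ 3) ?_ hM
    rw [mul_assoc]
    refine h.trans ?_
    calc _ ≤ (q ^ 4 + q ^ 3) * Nat.card (aSub hF T K) * (Nat.card (scal T K) * (orbPts T K).ncard) :=
          Nat.mul_le_mul_right _ (Nat.mul_le_mul_right _ hN)
      _ = _ := by ring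
  rw [Nat.mul_add] at h1
  have h2 := Nat.mul_le_mul_left (Nat.card (scal T K) * Nat.card (aSub hF T K)) hC
  have h3 : iso F (2 + 2) q * (Nat.card (aSub hF T K) - 1) = 0 := by
    rw [mul_comm (iso F (2 + 2) q) (Nat.card (scal T K) * Nat.card (aSub hF T K))] at h1
    omega
  have hα1 : Nat.card (aSub hF T K) = 1 := by
    rcases Nat.mul_eq_zero.1 h3 with e | e <;> omega
  have hfull : iso F (2 + 2) q ≤ (orbPts T K).ncard := by
    refine Nat.le_of_mul_le_mul_left ?_ (Nat.mul_pos hγ hα)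
    rw [mul_comm (iso F (2 + 2) q) (Nat.card (scal T K) * Nat.card (aSub hF T K))] at h1
    omega
  refine ⟨hα1, by omega, fun x hx0 hx => ?_⟩
  have hsub : orbPts T K ⊆ {v : V4 | v ≠ 0 ∧ h[v, v] = 0} := fun y hy => orbPts_iso hF T hy
  have heq := Set.eq_of_subset_of_ncard_le hsub ((le_of_eq ((Nat.card_coe_set_eq _).symm.trans
    (card_isoVec (n := 2 + 2) hF))).trans hfull) (Set.toFinite _)
  exact heq ▸ (show x ∈ {v : V4 | v ≠ 0 ∧ h[v, v] = 0} from ⟨hx0, hx⟩)

include hF in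
theorem good_few_four_frame (hbad : ¬ Good hF K T.e) (hN : K.index ≤ q ^ 4 + q ^ 3 + q) :
    (goodSet hF K).ncard * (q ^ 4 + q ^ 3) ≤ iso F (2 + 2) q * q := by
  have h := four_orbit hF T hbad
  have hadd := card_orbPts_add hF T hbad
  have hα : 0 < Nat.card (aSub hF T K) := Nat.card_pos
  have hγ : 0 < Nat.card (scal T K) := Nat.card_pos
  have h1 : iso F (2 + 2) q * (q ^ 4 + q ^ 3) ≤ (q ^ 4 + q ^ 3 + q) * (orbPts T K).ncard := by
    refine Nat.le_of_mul_le_mul_left ?_ (Nat.mul_pos hγ hα)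
    calc Nat.card (scal T K) * Nat.card (aSub hF T K) * (iso F (2 + 2) q * (q ^ 4 + q ^ 3))
        ≤ iso F (2 + 2) q * ((Nat.card (scal T K) * Nat.card (aSub hF T K) +
          (Nat.card (aSub hF T K) - 1)) * (q ^ 4 + q ^ 3)) := by
          rw [mul_left_comm]
          exact Nat.mul_le_mul_left _ (Nat.mul_le_mul_right _ (Nat.le_add_right _ _))
      _ ≤ _ := h
      _ ≤ (q ^ 4 + q ^ 3 + q) * Nat.card (aSub hF T K) * (Nat.card (scal T K) * (orbPts T K).ncard) :=
          Nat.mul_le_mul_right _ (Nat.mul_le_mul_right _ hN)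
      _ = _ := by ring
  have h2 := Nat.mul_le_mul_left (q ^ 4 + q ^ 3 + q) hadd
  have h3 : 0 ≤ q * (goodSet hF K).ncard := Nat.zero_le _
  generalize q ^ 4 + q ^ 3 = M at h1 h2 ⊢
  rw [Nat.mul_add, add_mul M q, add_mul M q, add_mul M q] at h2
  rw [add_mul] at h1
  rw [mul_comm _ M, mul_comm _ q]
  rw [mul_comm _ M] at h1
  omega

end CfsgLib.MinIndexPSU
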