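import Cfsg.Agent.MinIndexPSU.FourFix

/-!
A subgroup of order `q^3` fixing a flag of the unitary quadrangle and containing no transvection exists only for
`q = 2`.
-/

set_option autoImplicit false
set_option linter.unusedSectionVars false

open scoped Classical

namespace CfsgLib.MinIndexPSU

open Matrix CfsgLib.Unitary CfsgLib.AutPSU CfsgLib.AutPSU.Frame CfsgLib.SchurClassical.Un

variable {F : Type*} [Field F] [Fintype F] {q : ℕ} (hF : Fintype.card F = q ^ 2)

include hF in
/-- A norm equation with a linear term. -/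
theorem exists_norm_eq_linear (l : F →+ F) (hl : ∀ x, l x ^ q = l x)
    (hlt : ∀ t x, t ^ q = t → l (t * x) = t * l x) {a : F} (ha : a ^ q = a) :
    ∃ x : F, x ^ (q + 1) = l x + a := by
  obtain ⟨x0, hx00, hx0⟩ : ∃ x0 : F, x0 ≠ 0 ∧ l x0 = 0 := by
    by_contra hcon
    push Not at hcon
    have hinj : Function.Injective l := (injective_iff_map_eq_zero l).2 fun x hx => by
      by_contra h0; exact hcon x h0 hx
    have h1 := Nat.card_le_card_of_injective (fun x => (⟨l x, hl x⟩ : {y : F // y ^ q = y}))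
      fun x y e => hinj (congrArg Subtype.val e)
    rw [card_fixed hF, Nat.card_eq_fintype_card, hF] at h1
    have := two_le_q hF
    nlinarith
  obtain ⟨ω, -, hω, -⟩ := CfsgLib.AutPSU.exists_not_fixed hF
  have hωne : ω - ω ^ q ≠ 0 := sub_ne_zero.2 fun e => hω e.symm
  set d := l (x0 * ω) / (ω - ω ^ q)
  have hd : d ^ q = -d := by
    simp only [d]
    rw [div_pow, hl, sub_pow_q hF, pow_q_q hF, ← div_neg, neg_sub]
  have hL : ∀ y, l (x0 * y) = d * y + d ^ q * y ^ q := by
    intro y
    set s := (y - y ^ q) / (ω - ω ^ q)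
    have hs : s ^ q = s := by
      simp only [s]
      rw [div_pow, sub_pow_q hF, sub_pow_q hF, pow_q_q hF, pow_q_q hF, ← neg_sub y, ← neg_sub ω, neg_div_neg_eq]
    have hsy : s * (ω - ω ^ q) = y - y ^ q := div_mul_cancel₀ _ hωne
    have ht : (y - s * ω) ^ q = y - s * ω := by
      rw [sub_pow_q hF, mul_pow, hs]
      linear_combination hsy
    have e : l (x0 * y) = s * l (x0 * ω) := by
      conv_lhs => rw [show x0 * y = (y - s * ω) * x0 + s * (x0 * ω) by ring, map_add, hlt _ _ ht, hx0, mul_zero,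
        zero_add, hlt _ _ hs]
    rw [e, hd]
    have hdm : d * (ω - ω ^ q) = l (x0 * ω) := div_mul_cancel₀ _ hωne
    rw [← hdm]
    linear_combination d * hsy
  set N0 := x0 ^ (q + 1)
  have hN0 : N0 ≠ 0 := pow_ne_zero _ hx00
  have hN0f : N0 ^ q = N0 := norm_pow_q hF x0
  set A := d / N0
  have hA : A ^ q * N0 = d ^ q := by
    simp only [A]; rw [div_pow, hN0f, div_mul_cancel₀ _ hN0]
  have hA' : A * N0 = d := div_mul_cancel₀ _ hN0
  obtain ⟨m, hm⟩ := exists_norm_eq hF (a := a / N0 + A ^ (q + 1)) (by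
    rw [add_pow_q hF, div_pow, ha, hN0f, norm_pow_q hF])
  refine ⟨x0 * (A ^ q + m), ?_⟩
  rw [hL, mul_pow, add_pow_q hF, pow_q_q hF, pow_succ (A ^ q + m), add_pow_q hF, pow_q_q hF]
  have hm' : N0 * (m ^ q * m) = a + N0 * (A ^ q * A) := by
    rw [← pow_succ, ← pow_succ, hm, mul_add, mul_div_cancel₀ _ hN0]
  linear_combination hm' + (A ^ q + m) * hA' + (A + m ^ q) * hA

include hF in
theorem conj_heis_heis (T : Frame F 2 q) {w x : Fin 2 → F} {cw c : F} (hw : HCond q w cw) (hx : HCond q x c) :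
    ∃ hd : HCond q x (c + Cfsg.hermForm 2 F q w x - Cfsg.hermForm 2 F q x w),
      T.heis hF w cw hw * T.heis hF x c hx * (T.heis hF w cw hw)⁻¹ =
        T.heis hF x (c + Cfsg.hermForm 2 F q w x - Cfsg.hermForm 2 F q x w) hd := by
  have hd : HCond q x (c + Cfsg.hermForm 2 F q w x - Cfsg.hermForm 2 F q x w) := by
    unfold HCond at *
    rw [sub_pow_q hF, add_pow_q hF, ← herm_conj hF w x, ← herm_conj hF x w]
    linear_combination hx
  refine ⟨hd, ?_⟩
  rw [heis_inv hF T hw, T.heis_mul hF hw hx, T.heis_mul hF _ (hcond_neg hF hw)]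
  refine T.heis_congr hF _ _ (by abel) ?_
  unfold HCond at hw
  rw [herm_neg_left, herm_add_right hF]
  linear_combination hw

variable (T : Frame F 2 q) {S : Subgroup ↥(Cfsg.SU (2 + 2) F q)}

local notation "V2" => Fin 2 → F
local notation "H₂[" u "," v "]" => Cfsg.hermForm 2 F q u v
local notation "h[" u "," v "]" => Cfsg.hermForm (2 + 2) F q u v

theorem transv_two_eq {v : V2} (hv : H₂[v, v] = 0) {z : F} (hz : z + z ^ q = 0) (x : F)
    {hp : h[x • T.e + eta v, x • T.e + eta v] = 0} {hc : HCond q ((z * x ^ q) • v) (z * x ^ (q + 1))} :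
    transvSU hF (x • T.e + eta v) z hp hz =
      T.heis hF ((z * x ^ q) • v) (z * x ^ (q + 1)) hc * emb hF T (transvSU hF v z hv hz) := by
  have hzq : z ^ q = -z := eq_neg_of_add_eq_zero_right hz
  refine T.sv_ext_frame hF ?_ ?_ fun y => ?_
  · rw [sv_mul, emb_e, T.sv_heis hF, T.heisLin_e hF, sv_transvSU, herm_add_right hF, herm_smul_right, T.he, T.we hF]
    simp
  · rw [sv_mul, emb_f, T.sv_heis hF, T.heisLin_f hF, sv_transvSU, herm_add_right hF, herm_smul_right, T.hfe hF, T.wf hF,
      eta_smul, pow_succ]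
    match_scalars <;> ring
  · simp only [sv_mul, emb_eta, T.sv_heis hF, T.heisLin_eta hF, map_add, map_smul, sv_transvSU, herm_add_right hF, herm_smul_right,
      T.ew, herm_eta hF, eta_add, eta_smul, herm_add_left, herm_smul_left, hv, mul_pow, pow_q_q hF, hzq]
    match_scalars <;> ring

include hF in
/-- The structure of a transvection-free group of order `q^3` fixing a flag. -/
theorem four_eq (hS : Nat.card S = q ^ 3) (hSe : S ≤ vecStab F 2 q T.e) {v : V2} (hv0 : v ≠ 0)
    (hv : H₂[v, v] = 0) (hfix : ∀ b ∈ kbar hF T S, sv b v = v)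
    (hno : ∀ (x : Fin (2 + 2) → F) (hx : h[x, x] = 0) (c : F) (hc : c + c ^ q = 0), c ≠ 0 → x ≠ 0 →
      transvSU hF x c hx hc ∉ S) :
    q = 2 ∧ Nat.card (rbar hF T S) = q ^ 2 ∧ ∃ r ∈ rbar hF T S, ∃ s ∈ rbar hF T S, D2 r s ≠ 0 ∧
      ∀ x ∈ rbar hF T S, ∃ a b : F, a ^ q = a ∧ b ^ q = b ∧ x = a • r + b • s := by
  have hq := two_le_q hF
  obtain ⟨f, hf, hfv, hD, key⟩ := exists_basis_iso hF hv0 hv
  have hvf : H₂[v, f] = 1 := by rw [herm_conj hF, hfv, one_pow]
  obtain ⟨δ, hδ0, hδ⟩ := exists_trace_zero_ne_zero hF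
  have hδq : δ ^ q = -δ := eq_neg_of_add_eq_zero_right hδ
  have hA0 : ∀ c ∈ aSub hF T S, c = 0 := fun c ⟨hc0, hm⟩ => by
    by_contra h0
    have hc := hcond_zero_iff.1 hc0
    exact hno T.e T.he c hc h0 (T.e_ne_zero hF) ((T.transvSU_e_eq hF hc hc0).symm ▸ hm)
  have huni : ∀ {w : V2} {c c' : F} {hc : HCond q w c} {hc' : HCond q w c'},
      T.heis hF w c hc ∈ S → T.heis hF w c' hc' ∈ S → c = c' := fun h h' =>
    sub_eq_zero.1 (hA0 _ (sub_mem_aSub hF T h h'))
  have hbad : ¬ Good hF S T.e := fun hg => hno T.e T.he δ hδ hδ0 (T.e_ne_zero hF) (hg T.he δ hδ)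
  have hρ := card_rbar_le hF T hbad
  have hκ := card_stab_vec_le hF hv0 hv hfix
  haveI hAs : Subsingleton (aSub hF T S) := ⟨fun a b => Subtype.ext ((hA0 _ a.2).trans (hA0 _ b.2).symm)⟩
  have hprod := card_le_of_le_stab hF T hSe
  rw [hS, Nat.card_unique (α := aSub hF T S), mul_one] at hprod
  have hρ2 : Nat.card (rbar hF T S) = q ^ 2 := le_antisymm hρ (by
    refine Nat.le_of_mul_le_mul_left ?_ (show 0 < q by omega)
    rw [← pow_succ']
    exact hprod.trans (Nat.mul_le_mul_right _ hκ))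
  have hκ2 : q ≤ Nat.card (kbar hF T S) := by
    refine Nat.le_of_mul_le_mul_right (c := q ^ 2) ?_ (pow_pos (by omega) 2)
    rw [← pow_succ']
    exact hprod.trans (le_of_eq (by rw [hρ2]))
  have hτmem : ∀ (z : F) (hz : z + z ^ q = 0), transvSU hF v z hv hz ∈ kbar hF T S := by
    intro z hz
    let H : Subgroup ↥(Cfsg.SU 2 F q) :=
      { carrier := {b | sv b v = v}
        one_mem' := sv_one v
        mul_mem' := fun {a b} ha hb => by show sv (a * b) v = v; rw [sv_mul, hb, ha]
        inv_mem' := fun {a} ha => by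
          show sv a⁻¹ v = v
          conv_lhs => rw [← (show sv a v = v from ha), sv_inv_sv] }
    have hle : kbar hF T S ≤ H := hfix
    have heq := Subgroup.eq_of_le_of_card_ge hle ((card_stab_vec_le hF hv0 hv (H := H) fun _ h => h).trans hκ2)
    rw [heq]
    show sv _ v = v
    rw [sv_transvSU, hv, mul_zero, zero_smul, add_zero]
  have hsym : ∀ r ∈ rbar hF T S, ∀ s ∈ rbar hF T S, H₂[r, s] = H₂[s, r] := fun r hr s hs =>
    sub_eq_zero.1 (hA0 _ (comm_mem_aSub hF T hr hs))
  have hτr : ∀ (z : F) (hz : z + z ^ q = 0) (r : V2), sv (transvSU hF v z hv hz) r = r + (z * H₂[r, v]) • v :=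
    fun z hz r => sv_transvSU hF hv hz r
  have hQ : ∀ r ∈ rbar hF T S, ∀ s ∈ rbar hF T S, H₂[r, v] * H₂[s, v] ^ q + H₂[s, v] * H₂[r, v] ^ q = 0 := by
    intro r hr s hs
    have h1 := hsym r hr _ (kbar_rbar hF T (hτmem δ hδ) hs)
    rw [hτr, herm_add_left, herm_add_right hF, herm_smul_left, herm_smul_right, hsym r hr s hs, mul_pow, hδq] at h1
    have h2 : δ * (H₂[r, v] * H₂[s, v] ^ q + H₂[s, v] * H₂[v, r]) = 0 := by linear_combination -h1
    rw [herm_conj hF r v] at h2
    exact (mul_eq_zero.1 h2).resolve_left hδ0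
  choose cc hcc hccS using fun r : rbar hF T S => r.2
  -- conjugating a radical element by a lift
  have hlift : ∀ (z : F) (hz : z + z ^ q = 0), ∃ (w : V2) (cw : F) (hw : HCond q w cw),
      T.heis hF w cw hw * emb hF T (transvSU hF v z hv hz) ∈ S ∧
      ∀ (r : V2) (c : F) (hc : HCond q r c), T.heis hF r c hc ∈ S →
        ∃ hd, T.heis hF (r + (z * H₂[r, v]) • v)
          (c + H₂[w, r + (z * H₂[r, v]) • v] - H₂[r + (z * H₂[r, v]) • v, w]) hd ∈ S := by
    intro z hz
    obtain ⟨w, cw, hw, hk⟩ := (mem_kbar hF T).1 (hτmem z hz)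
    refine ⟨w, cw, hw, hk, fun r c hc hm => ?_⟩
    obtain ⟨hc1, e1⟩ := emb_conj_heis hF T (transvSU hF v z hv hz) hc
    obtain ⟨hd, e2⟩ := conj_heis_heis hF T hw hc1
    have h := S.mul_mem (S.mul_mem hk hm) (S.inv_mem hk)
    rw [_root_.mul_inv_rev, show T.heis hF w cw hw * emb hF T (transvSU hF v z hv hz) * T.heis hF r c hc *
        ((emb hF T (transvSU hF v z hv hz))⁻¹ * (T.heis hF w cw hw)⁻¹) = T.heis hF w cw hw *
        (emb hF T (transvSU hF v z hv hz) * T.heis hF r c hc * (emb hF T (transvSU hF v z hv hz))⁻¹) *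
        (T.heis hF w cw hw)⁻¹ by group, e1, e2] at h
    have key' : ∀ {x : V2} {d : F} {hd : HCond q x d}, x = r + (z * H₂[r, v]) • v →
        d = c + H₂[w, r + (z * H₂[r, v]) • v] - H₂[r + (z * H₂[r, v]) • v, w] → T.heis hF x d hd ∈ S →
        ∃ hd, T.heis hF (r + (z * H₂[r, v]) • v)
          (c + H₂[w, r + (z * H₂[r, v]) • v] - H₂[r + (z * H₂[r, v]) • v, w]) hd ∈ S := by
      rintro x d hd rfl rfl hm; exact ⟨hd, hm⟩
    exact key' (hτr z hz r) (by rw [hτr z hz r]) h
  by_cases hall : ∀ r ∈ rbar hF T S, H₂[r, v] = 0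
  · -- the image of the radical is the line of `v`
    exfalso
    have hline : ∀ b : F, b • v ∈ rbar hF T S := by
      have hr : ∀ r ∈ rbar hF T S, r = H₂[r, f] • v := fun r hr => by
        conv_lhs => rw [key r, hall r hr, zero_smul, zero_add]
      have hbij : Function.Bijective fun r : rbar hF T S => H₂[r.1, f] := by
        refine Function.Injective.bijective_of_nat_card_le (fun r r' e => Subtype.ext ?_) ?_
        · rw [hr _ r.2, hr _ r'.2, show H₂[r.1, f] = H₂[r'.1, f] from e]
        · rw [hρ2, Nat.card_eq_fintype_card, hF]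
      intro b
      obtain ⟨r, hrb⟩ := hbij.2 b
      rw [← show H₂[r.1, f] = b from hrb, ← hr _ r.2]
      exact r.2
    let ψ : F → F := fun b => cc ⟨b • v, hline b⟩
    have hψm : ∀ (b : F) (hc : HCond q (b • v) (ψ b)), T.heis hF (b • v) (ψ b) hc ∈ S :=
      fun b hc => hccS ⟨b • v, hline b⟩
    have hbv : ∀ b b' : F, H₂[b • v, b' • v] = 0 := fun b b' => by
      rw [herm_smul_left, herm_smul_right, hv, mul_zero, mul_zero]
    have hψC : ∀ b, ψ b + ψ b ^ q = 0 := fun b => by
      have h := hcc ⟨b • v, hline b⟩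
      unfold HCond at h
      rw [hbv, add_zero] at h
      exact h
    have hψadd : ∀ b b', ψ (b + b') = ψ b + ψ b' := fun b b' => by
      have h := S.mul_mem (hccS ⟨b • v, hline b⟩) (hccS ⟨b' • v, hline b'⟩)
      rw [T.heis_mul hF] at h
      have hh : HCond q ((b + b') • v) (ψ b + ψ b') := by
        unfold HCond; rw [hbv, add_pow_q hF]; linear_combination hψC b + hψC b'
      rw [T.heis_congr hF _ hh (add_smul b b' v).symm (c' := ψ b + ψ b') (by rw [hbv, sub_zero])] at h
      exact huni (hccS ⟨(b + b') • v, hline (b + b')⟩) h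
    have hΦ : ∀ (z : F) (hz : z + z ^ q = 0), ∃ (d : F) (hd : HCond q (0 : V2) d),
        T.heis hF 0 d hd * emb hF T (transvSU hF v z hv hz) ∈ S := by
      intro z hz
      obtain ⟨w, cw, hw, hk, hconj⟩ := hlift z hz
      have hwv : ∀ b : F, H₂[w, b • v] = H₂[b • v, w] := fun b => by
        obtain ⟨hd, hm⟩ := hconj _ _ _ (hccS ⟨b • v, hline b⟩)
        have hc' : HCond q (b • v) (ψ b + H₂[w, b • v] - H₂[b • v, w]) := by
          unfold HCond; rw [hbv, sub_pow_q hF, add_pow_q hF, ← herm_conj hF w (b • v), ← herm_conj hF (b • v) w]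
          linear_combination hψC b
        rw [T.heis_congr hF hd hc' (by rw [herm_smul_left, hv, mul_zero, mul_zero, zero_smul, add_zero])
          (c' := ψ b + H₂[w, b • v] - H₂[b • v, w]) (by
            simp only [herm_smul_left b v v, hv, mul_zero, zero_smul, add_zero]; rfl)] at hm
        linear_combination -(huni (hccS ⟨b • v, hline b⟩) hm)
      have hwz : H₂[w, v] = 0 := by
        have h1 := hwv 1
        rw [one_smul] at h1
        obtain ⟨b, -, hb, -⟩ := CfsgLib.AutPSU.exists_not_fixed hF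
        have h2 := hwv b
        rw [herm_smul_left, herm_smul_right, ← h1] at h2
        exact (mul_eq_zero.1 (show (b ^ q - b) * H₂[w, v] = 0 by linear_combination h2)).resolve_left
          (sub_ne_zero.2 hb)
      have hwe : w = H₂[w, f] • v := by conv_lhs => rw [key w, hwz, zero_smul, zero_add]
      obtain ⟨d1, hd1, hm1⟩ : w ∈ rbar hF T S := by rw [hwe]; exact hline _
      have h := S.mul_mem (S.inv_mem hm1) hk
      rw [← mul_assoc, heis_inv hF T hd1, T.heis_mul hF (hcond_neg hF hd1) hw] at h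
      have key' : ∀ {x : V2} {d : F} {hd : HCond q x d}, x = 0 →
          T.heis hF x d hd * emb hF T (transvSU hF v z hv hz) ∈ S →
          ∃ (d : F) (hd : HCond q (0 : V2) d), T.heis hF 0 d hd * emb hF T (transvSU hF v z hv hz) ∈ S := by
        rintro x d hd rfl hm; exact ⟨d, hd, hm⟩
      exact key' (neg_add_cancel w) h
    choose Φ hΦc hΦm using hΦ
    have hΦuni : ∀ (z : F) (hz : z + z ^ q = 0) (d : F) (hd : HCond q (0 : V2) d),
        T.heis hF 0 d hd * emb hF T (transvSU hF v z hv hz) ∈ S → d = Φ z hz := fun z hz d hd hm => by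
      have h := S.mul_mem hm (S.inv_mem (hΦm z hz))
      rw [_root_.mul_inv_rev, mul_assoc, mul_inv_cancel_left, heis_inv hF T, T.heis_mul hF hd] at h
      have hz0 : HCond q (0 : V2) (d - Φ z hz) := hcond_zero_iff.2 (by
        rw [sub_pow_q hF]; linear_combination hcond_zero_iff.1 hd - hcond_zero_iff.1 (hΦc z hz))
      rw [T.heis_congr hF _ hz0 (by simp) (c' := d - Φ z hz) (by
        rw [herm_zero_right hF, sub_zero]; linear_combination hcond_zero_iff.1 (hΦc z hz))] at h
      exact sub_eq_zero.1 (hA0 _ ⟨hz0, h⟩)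
    have hΦadd : ∀ z z' (hz : z + z ^ q = 0) (hz' : z' + z' ^ q = 0) (hzz : z + z' + (z + z') ^ q = 0),
        Φ (z + z') hzz = Φ z hz + Φ z' hz' := fun z z' hz hz' hzz => by
      have h := S.mul_mem (hΦm z hz) (hΦm z' hz')
      have e : T.heis hF 0 (Φ z hz) (hΦc z hz) * emb hF T (transvSU hF v z hv hz) *
          (T.heis hF 0 (Φ z' hz') (hΦc z' hz') * emb hF T (transvSU hF v z' hv hz')) =
          T.heis hF 0 (Φ z hz) (hΦc z hz) * T.heis hF 0 (Φ z' hz') (hΦc z' hz') *
          (emb hF T (transvSU hF v z hv hz) * emb hF T (transvSU hF v z' hv hz')) := by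
        rw [mul_assoc, ← mul_assoc (emb hF T _), ← (ctr_emb_comm hF T (hΦc z' hz') _).eq, mul_assoc, mul_assoc]
      rw [e, ← map_mul, transvSU_mul hF hv hz hz' hzz, T.heis_mul hF] at h
      have hh : HCond q (0 : V2) (Φ z hz + Φ z' hz') := hcond_zero_iff.2 (by
        rw [add_pow_q hF]; linear_combination hcond_zero_iff.1 (hΦc z hz) + hcond_zero_iff.1 (hΦc z' hz'))
      rw [T.heis_congr hF _ hh (zero_add _) (c' := Φ z hz + Φ z' hz') (by rw [herm_zero_left, sub_zero])] at h
      exact (hΦuni _ _ _ _ h).symm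
    -- a transvection in the span
    suffices hex : ∃ (z x : F) (hz : z + z ^ q = 0), z ≠ 0 ∧ ψ (z * x ^ q) + Φ z hz = z * x ^ (q + 1) by
      obtain ⟨z, x, hz, hz0, he⟩ := hex
      have hp : h[x • T.e + eta v, x • T.e + eta v] = 0 := by
        simp [herm_add_left, herm_add_right hF, herm_smul_left, herm_smul_right, T.he, T.ew, T.we hF, herm_eta hF, hv]
      have hp0 : x • T.e + eta v ≠ 0 := fun e => hv0 (by
        have := congrArg proj e
        simpa [proj_add, proj_smul, T.proj_e hF, show proj (0 : Fin (2 + 2) → F) = 0 from rfl] using this)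
      have hc : HCond q ((z * x ^ q) • v) (z * x ^ (q + 1)) := by
        unfold HCond; rw [hbv, mul_pow, norm_pow_q hF]; linear_combination (x ^ (q + 1)) * hz
      refine hno _ hp z hz hz0 hp0 ?_
      rw [transv_two_eq hF T hv hz x (hc := hc)]
      have h := S.mul_mem (hccS ⟨(z * x ^ q) • v, hline _⟩) (hΦm z hz)
      rw [← mul_assoc, T.heis_mul hF] at h
      rwa [T.heis_congr hF _ hc (add_zero _) (c' := z * x ^ (q + 1)) (by
        rw [herm_zero_left, sub_zero]; exact he)] at h
    by_contra hcon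
    push Not at hcon
    let K0 := RingHom.eqLocusField (conjHom hF) (RingHom.id F)
    haveI : Fintype K0 := Fintype.ofFinite _
    have hsz : ∀ s : K0, δ * (s : F) + (δ * (s : F)) ^ q = 0 := fun s => by
      rw [mul_pow, show (s : F) ^ q = s from s.2]; linear_combination (s : F) * hδ
    have hdiv : ∀ c : F, c + c ^ q = 0 → (c / δ) ^ q = c / δ := fun c hc => by
      rw [div_pow, hδq, eq_neg_of_add_eq_zero_right hc, neg_div_neg_eq]
    let A2 : K0 →+ K0 := AddMonoidHom.mk' (fun s => ⟨Φ (δ * s) (hsz s) / δ,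
      hdiv _ (hcond_zero_iff.1 (hΦc _ _))⟩) fun s t => Subtype.ext (by
        show Φ (δ * ((s + t : K0) : F)) _ / δ = Φ (δ * s) _ / δ + Φ (δ * t) _ / δ
        rw [← add_div, ← hΦadd _ _ (hsz s) (hsz t) (by rw [← mul_add]; exact hsz (s + t))]
        congr 2
        rw [Subfield.coe_add, mul_add])
    let A1 : F → (K0 →+ K0) := fun x => AddMonoidHom.mk' (fun s => ⟨ψ (δ * s * x ^ q) / δ, hdiv _ (hψC _)⟩)
      fun s t => Subtype.ext (by
        show ψ (δ * ((s + t : K0) : F) * x ^ q) / δ = ψ _ / δ + ψ _ / δ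
        rw [← add_div, ← hψadd]
        congr 2
        rw [Subfield.coe_add]; ring)
    obtain ⟨ψ0, hψ0⟩ := AddChar.exists_apply_ne_zero.2 (one_ne_zero : (1 : K0) ≠ 0)
    let ι : K0 → AddChar K0 ℂ := fun l => ψ0.mulShift l
    have hι : Function.Bijective ι := by
      refine (Fintype.bijective_iff_injective_and_card ι).2 ⟨fun l l' e => ?_, AddChar.card_eq.symm⟩
      by_contra hne
      have h1 := DFunLike.congr_fun e ((l - l')⁻¹)
      simp only [ι, AddChar.mulShift_apply] at h1
      rw [show l * (l - l')⁻¹ = 1 + l' * (l - l')⁻¹ by field_simp [sub_ne_zero.2 hne]; ring,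
        AddChar.map_add_eq_mul] at h1
      exact hψ0 (mul_eq_right₀ (ψ0.val_isUnit _).ne_zero |>.mp h1)
    have hlx : ∀ x, ∃ l : K0, ι l = ψ0.compAddMonoidHom (A1 x) := fun x => hι.2 _
    choose lx hlx using hlx
    obtain ⟨a, ha⟩ := hι.2 (ψ0.compAddMonoidHom A2)
    have hla : ∀ x y, lx (x + y) = lx x + lx y := fun x y => hι.1 (by
      rw [hlx, show ι (lx x + lx y) = ι (lx x) * ι (lx y) from (AddChar.mulShift_mul ψ0 _ _).symm, hlx, hlx]
      ext s
      show ψ0 (A1 (x + y) s) = ψ0 (A1 x s) * ψ0 (A1 y s)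
      rw [← AddChar.map_add_eq_mul]
      congr 1
      refine Subtype.ext ?_
      show ψ (δ * s * (x + y) ^ q) / δ = ψ _ / δ + ψ _ / δ
      rw [← add_div, ← hψadd, add_pow_q hF]
      congr 2
      ring)
    have hlt : ∀ (t : K0) x, lx ((t : F) * x) = t * lx x := fun t x => hι.1 (by
      ext s
      rw [hlx]
      show ψ0 (A1 ((t : F) * x) s) = ψ0 (t * lx x * s)
      have h := DFunLike.congr_fun (hlx x) (t * s)
      simp only [ι, AddChar.mulShift_apply, AddChar.compAddMonoidHom_apply] at h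
      rw [show t * lx x * s = lx x * (t * s) by ring, h]
      congr 1
      refine Subtype.ext ?_
      show ψ (δ * s * ((t : F) * x) ^ q) / δ = ψ (δ * ((t * s : K0) : F) * x ^ q) / δ
      congr 2
      rw [mul_pow, show (t : F) ^ q = t from t.2, Subfield.coe_mul]; ring)
    obtain ⟨x, hx⟩ := exists_norm_eq_linear hF (AddMonoidHom.mk' (fun x => (lx x : F)) fun x y => by
        rw [hla, Subfield.coe_add]) (fun x => (lx x).2)
      (fun t x ht => congrArg Subtype.val (hlt ⟨t, ht⟩ x)) (show (a : F) ^ q = a from a.2)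
    let N : K0 := ⟨x ^ (q + 1), norm_pow_q hF x⟩
    let D : K0 →+ K0 := A1 x + A2 - AddMonoidHom.mulLeft N
    have hDinj : Function.Injective D := (injective_iff_map_eq_zero D).2 fun s hs => by
      by_contra hs0
      have hs' : ψ (δ * s * x ^ q) / δ + Φ (δ * s) (hsz s) / δ - x ^ (q + 1) * (s : F) = 0 :=
        congrArg Subtype.val hs
      refine hcon (δ * s) x (hsz s) (mul_ne_zero hδ0 fun e => hs0 (Subtype.ext e)) ?_
      field_simp at hs'
      linear_combination hs'
    obtain ⟨s, hs⟩ := (Finite.injective_iff_surjective.1 hDinj) 1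
    have hchar : ψ0 (D s) = 1 := by
      show ψ0 (A1 x s + A2 s - N * s) = 1
      rw [sub_eq_add_neg, AddChar.map_add_eq_mul, AddChar.map_add_eq_mul]
      have e1 := DFunLike.congr_fun (hlx x) s
      have e2 := DFunLike.congr_fun ha s
      simp only [ι, AddChar.mulShift_apply, AddChar.compAddMonoidHom_apply] at e1 e2
      rw [← e1, ← e2, ← AddChar.map_add_eq_mul, ← AddChar.map_add_eq_mul,
        show lx x * s + a * s + -(N * s) = 0 by
          have : N = lx x + a := Subtype.ext hx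
          rw [this]; ring, AddChar.map_zero_eq_one]
    rw [hs] at hchar
    exact hψ0 hchar
  -- otherwise the characteristic is two and the image is a rational plane
  push Not at hall
  obtain ⟨r1, hr1, hα⟩ := hall
  set α := H₂[r1, v]
  have h2 : (2 : F) = 0 := by
    have h := hQ r1 hr1 r1 hr1
    exact (mul_eq_zero.1 (show (2 : F) * (α * α ^ q) = 0 by linear_combination h)).resolve_right
      (mul_ne_zero hα (pow_ne_zero _ hα))
  have hfixC : ∀ z : F, z ^ q = z → z + z ^ q = 0 := fun z hz => by linear_combination hz + z * h2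
  have hCfix : ∀ z : F, z + z ^ q = 0 → z ^ q = z := fun z hz => by linear_combination hz - z * h2
  have hαq : α ^ q ≠ 0 := pow_ne_zero _ hα
  have hrat : ∀ s ∈ rbar hF T S, (H₂[s, v] / α) ^ q = H₂[s, v] / α := fun s hs => by
    rw [div_pow, div_eq_div_iff hαq hα]
    linear_combination hQ r1 hr1 s hs - (H₂[s, v] * α ^ q) * h2
  -- `F_q r1` is contained in the image
  have hker : ∀ s ∈ rbar hF T S, H₂[s, v] = 0 → ∃ b : F, b ^ q = b ∧ s = (b * α) • v := by
    intro s hs h0
    have e : s = H₂[s, f] • v := by conv_lhs => rw [key s, h0, zero_smul, zero_add]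
    have h := hsym r1 hr1 s hs
    rw [e, herm_smul_right, herm_smul_left, herm_conj hF r1 v] at h
    refine ⟨H₂[s, f] / α, ?_, by rw [div_mul_cancel₀ _ hα]; exact e⟩
    rw [div_pow, div_eq_div_iff hαq hα]
    linear_combination h
  let t : rbar hF T S →+ F := AddMonoidHom.mk' (fun s => H₂[s.1, v] / α) fun s s' => by
    rw [AddSubgroup.coe_add, herm_add_left, add_div]
  have hcnt : (∀ z : F, z ^ q = z → ∃ s : rbar hF T S, t s = z) ∧
      ∀ b : F, b ^ q = b → (b * α) • v ∈ rbar hF T S := by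
    let R : Set F := Set.range t
    let B : Set F := {b | b ^ q = b ∧ (b * α) • v ∈ rbar hF T S}
    have hq' : ({z : F | z ^ q = z}).ncard = q := (Nat.card_coe_set_eq _).symm.trans (card_fixed hF)
    have hR : R ⊆ {z : F | z ^ q = z} := by rintro _ ⟨s, rfl⟩; exact hrat s.1 s.2
    have hB : B ⊆ {z : F | z ^ q = z} := fun b hb => hb.1
    have hmul : q * q ≤ R.ncard * B.ncard := by
      rw [← sq, ← hρ2]
      haveI := Fintype.ofFinite (rbar hF T S)
      rw [Nat.card_eq_fintype_card, ← Finset.card_univ, Set.ncard_eq_toFinset_card R (Set.toFinite _), mul_comm]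
      refine Finset.card_le_mul_card_image_of_maps_to (f := fun s => t s) (fun s _ => by simp [R]) _ fun y _ => ?_
      rw [← Fintype.card_subtype, ← Nat.card_eq_fintype_card, ← Nat.card_coe_set_eq]
      rcases isEmpty_or_nonempty {s : rbar hF T S // t s = y} with hE | ⟨s0, hs0⟩
      · rw [Nat.card_of_isEmpty]; exact Nat.zero_le _
      have hz : ∀ s : {s : rbar hF T S // t s = y}, H₂[(s.1 - s0).1, v] = 0 := fun s => by
        have := map_sub t s.1 s0
        rw [s.2, hs0, sub_self] at this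
        exact (div_eq_zero_iff.1 this).resolve_right hα
      choose b hb hbe using fun s => hker _ (s.1 - s0 : rbar hF T S).2 (hz s)
      refine Nat.card_le_card_of_injective (fun s => (⟨b s, hb s, hbe s ▸ (s.1 - s0 : rbar hF T S).2⟩ : B)) ?_
      intro s s' e
      have e' : b s = b s' := congrArg Subtype.val e
      have := hbe s
      rw [e', ← hbe s'] at this
      exact Subtype.ext (sub_left_injective (Subtype.ext this))
    have hRle := (Set.ncard_le_ncard hR (Set.toFinite _)).trans hq'.le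
    have hBle := (Set.ncard_le_ncard hB (Set.toFinite _)).trans hq'.le
    have hR2 : q ≤ R.ncard := Nat.le_of_mul_le_mul_right (hmul.trans (Nat.mul_le_mul_left _ hBle)) (by omega)
    have hB2 : q ≤ B.ncard := Nat.le_of_mul_le_mul_left (hmul.trans (Nat.mul_le_mul_right _ hRle)) (by omega)
    refine ⟨fun z hz => ?_, fun b hb => ?_⟩
    · exact (Set.eq_of_subset_of_ncard_le hR (hq'.le.trans hR2) (Set.toFinite _)).ge hz
    · exact ((Set.eq_of_subset_of_ncard_le hB (hq'.le.trans hB2) (Set.toFinite _)).ge hb).2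
  have hdec : ∀ s ∈ rbar hF T S, ∃ b : F, b ^ q = b ∧ s = (H₂[s, v] / α) • r1 + (b * α) • v := by
    intro s hs
    set τ := H₂[s, v] / α
    have hτ : τ ^ q = τ := hrat s hs
    have h0 : H₂[s - τ • r1, v] = 0 := by
      rw [herm_sub_left, herm_smul_left]; exact sub_eq_zero.2 (div_mul_cancel₀ _ hα).symm
    set d := H₂[s - τ • r1, f]
    have e : s - τ • r1 = d • v := by conv_lhs => rw [key (s - τ • r1), h0, zero_smul, zero_add]
    have hs' : s = τ • r1 + d • v := by rw [← e]; abel
    have h := hsym r1 hr1 s hs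
    rw [hs', herm_add_right hF, herm_add_left, herm_smul_right, herm_smul_right, herm_smul_left, herm_smul_left, hτ,
      herm_conj hF r1 v] at h
    refine ⟨d / α, ?_, by rw [div_mul_cancel₀ _ hα]; exact hs'⟩
    rw [div_pow, div_eq_div_iff hαq hα]
    linear_combination h
  have hline : ∀ τ : F, τ ^ q = τ → τ • r1 ∈ rbar hF T S := by
    intro τ hτ
    obtain ⟨s, hs⟩ := hcnt.1 τ hτ
    obtain ⟨b, hb, e⟩ := hdec s.1 s.2
    have e2 : τ • r1 = s.1 - (b * α) • v := by
      rw [eq_sub_iff_add_eq, e, show H₂[s.1, v] / α = τ from hs]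
    exact e2 ▸ (rbar hF T S).sub_mem s.2 (hcnt.2 b hb)
  refine ⟨?_, hρ2, r1, hr1, α • v, by simpa using hcnt.2 1 (one_pow q), ?_, ?_⟩
  · -- comparing the two expressions of the central parts
    by_contra hq2
    obtain ⟨τ, hτ, hτ0, hτ1⟩ : ∃ τ : F, τ ^ q = τ ∧ τ ≠ 0 ∧ τ ≠ 1 := by
      by_contra hcon
      push Not at hcon
      have hsub : {z : F | z ^ q = z} ⊆ {0, 1} := fun z hz => (eq_or_ne z 0).imp id fun h => hcon z hz h
      have := (Set.ncard_le_ncard hsub (Set.toFinite _)).trans (Set.ncard_insert_le _ _)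
      rw [show ({z : F | z ^ q = z}).ncard = q from (Nat.card_coe_set_eq _).symm.trans (card_fixed hF),
        Set.ncard_singleton] at this
      omega
    have h1 : (1 : F) ^ q = 1 := one_pow q
    choose! Ψ hΨc hΨm using fun u : F => fun (hu : u ^ q = u) =>
      (hcnt.2 u hu : ∃ (c : F) (hc : HCond q ((u * α) • v) c), T.heis hF ((u * α) • v) c hc ∈ S)
    have hvr : H₂[v, r1] = α ^ q := herm_conj hF r1 v
    have keyz : ∀ z : F, z ^ q = z → ∃ m : F, ∀ u : F, u ^ q = u →
        Ψ (z * u) = u * m + z * u ^ 2 * (α * α ^ q) := by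
      intro z hzf
      obtain ⟨w, cw, hw, -, hconj⟩ := hlift z (hfixC z hzf)
      refine ⟨H₂[w, r1 + (z * α) • v] - H₂[r1 + (z * α) • v, w], fun u hu => ?_⟩
      have hzu : (z * u) ^ q = z * u := by rw [mul_pow, hzf, hu]
      obtain ⟨c, hc, hm⟩ := hline u hu
      obtain ⟨hd, hm1⟩ := hconj _ _ _ hm
      have hX : u • r1 + (z * H₂[u • r1, v]) • v = u • r1 + (z * u * α) • v := by
        rw [herm_smul_left, mul_assoc]
      have hm2 := S.mul_mem hm (hΨm _ hzu)
      rw [T.heis_mul hF] at hm2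
      have hd' := hd
      rw [hX] at hd'
      rw [T.heis_congr hF hd hd' hX (by rw [hX])] at hm1
      have h3 := huni hm1 hm2
      simp only [herm_smul_left, herm_smul_right, herm_add_left, herm_add_right hF, hvr, mul_pow, hzf, hu] at h3 ⊢
      linear_combination -h3
    obtain ⟨m1, hm1⟩ := keyz 1 h1
    obtain ⟨mz, hmz⟩ := keyz τ hτ
    have hττ : (τ * τ) ^ q = τ * τ := by rw [mul_pow, hτ]
    have e1 := hm1 τ hτ
    have e2 := hm1 (τ * τ) hττ
    have e3 := hmz 1 h1
    have e4 := hmz τ hτ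
    rw [one_mul] at e1 e2
    rw [mul_one] at e3
    have e : (τ * (τ - 1)) * (τ * (τ - 1)) * (α * α ^ q) = 0 := by
      linear_combination (-1 : F) * e2 + τ * e1 + e4 - τ * e3
    simp [hτ0, sub_ne_zero.2 hτ1, hα, hαq] at e
  · intro e
    rw [key r1] at e
    have e' : -(α * α) * D2 v f = 0 := by
      rw [← e]
      simp only [D2, Pi.add_apply, Pi.smul_apply, smul_eq_mul]
      ring
    exact (mul_eq_zero.1 e').elim (neg_ne_zero.2 (mul_ne_zero hα hα)) hD
  · intro x hx
    obtain ⟨b, hb, e⟩ := hdec x hx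
    exact ⟨_, b, hrat x hx, hb, by rw [smul_smul]; exact e⟩

end CfsgLib.MinIndexPSU
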