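import Cfsg.Agent.MinIndexPSU.FourBound

/-!
`p`-subgroups of `SU_4(q)` fix flags; a subgroup of index in `(q^4 + q^3, q^4 + q^3 + q]` fixes a line.
-/

set_option autoImplicit false
set_option linter.unusedSectionVars false

open scoped Classical

namespace CfsgLib.MinIndexPSU

open Matrix CfsgLib.Unitary CfsgLib.AutPSU CfsgLib.AutPSU.Frame CfsgLib.SchurClassical.Un

variable {F : Type*} [Field F] [Fintype F] {q : ℕ} (hF : Fintype.card F = q ^ 2)

include hF in
theorem exists_prime_pow : ∃ p f : ℕ, p.Prime ∧ 1 ≤ f ∧ q = p ^ f := by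
  obtain ⟨p, k, hp, hk⟩ : ∃ p k : ℕ, p.Prime ∧ Fintype.card F = p ^ k := by
    obtain ⟨⟨k, hk⟩, hp, hcard⟩ := FiniteField.card F (ringChar F)
    exact ⟨ringChar F, k, hp, hcard⟩
  obtain ⟨f, -, hf⟩ := (Nat.dvd_prime_pow hp).1 (show q ∣ p ^ k by rw [← hk, hF]; exact dvd_pow_self q two_ne_zero)
  refine ⟨p, f, hp, ?_, hf⟩
  rcases Nat.eq_zero_or_pos f with rfl | h
  · have := two_le_q hF; simp at hf; omega
  · exact h

include hF in
theorem not_dvd_iso {n p : ℕ} (hp : p.Prime) (hpq : p ∣ q) (hn : 2 ≤ n) : ¬ p ∣ iso F n q := by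
  intro hdvd
  have h := iso_eq hF n
  obtain ⟨j, rfl⟩ : ∃ j, n = j + 2 := ⟨n - 2, by omega⟩
  have hq : (q : ℤ) ≠ 0 := by have := two_le_q hF; exact_mod_cast (show q ≠ 0 by omega)
  have h1 : (iso F (j + 2) q : ℤ) + 1 =
      (q : ℤ) * ((q : ℤ) ^ j * ((q : ℤ) ^ (j + 2) + (q - 1) * (-1) ^ (j + 2))) :=
    mul_left_cancel₀ hq (by rw [h]; ring)
  have h2 : (p : ℤ) ∣ (iso F (j + 2) q : ℤ) + 1 :=
    h1 ▸ Dvd.dvd.mul_right (Int.natCast_dvd_natCast.2 hpq) _
  have h3 : (p : ℤ) ∣ 1 := (Int.dvd_add_right (Int.natCast_dvd_natCast.2 hdvd)).1 h2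
  exact hp.not_dvd_one (by exact_mod_cast h3)

include hF in
/-- A `p`-group fixes a non-zero isotropic vector. -/
theorem exists_fixed_iso {n p : ℕ} (hp : p.Prime) (hpq : p ∣ q) (hn : 2 ≤ n) {H : Subgroup ↥(Cfsg.SU n F q)}
    (hH : IsPGroup p H) :
    ∃ v : Fin n → F, v ≠ 0 ∧ Cfsg.hermForm n F q v v = 0 ∧ ∀ g ∈ H, sv g v = v := by
  letI act : MulAction H {v : Fin n → F // v ≠ 0 ∧ Cfsg.hermForm n F q v v = 0} :=
    { smul := fun g v => ⟨sv g.1 v.1, fun e => v.2.1 (by
        rw [← sv_inv_sv g.1 v.1, e]; exact Matrix.mulVec_zero _), herm_sv_self_eq_zero _ v.2.2⟩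
      one_smul := fun v => Subtype.ext (sv_one v.1)
      mul_smul := fun a b v => Subtype.ext (sv_mul a.1 b.1 v.1) }
  haveI : Fact p.Prime := ⟨hp⟩
  obtain ⟨v, hv⟩ := hH.nonempty_fixed_point_of_prime_not_dvd_card
    {v : Fin n → F // v ≠ 0 ∧ Cfsg.hermForm n F q v v = 0} (by rw [card_isoVec hF]; exact not_dvd_iso hF hp hpq hn)
  exact ⟨v.1, v.2.1, v.2.2, fun g hg => congrArg Subtype.val (hv ⟨g, hg⟩)⟩

include hF in
/-- A `p`-subgroup of order `q^a` inside `K`, moved to fix `e`. -/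
theorem exists_pgroup_fix (T : Frame F 2 q) {K : Subgroup ↥(Cfsg.SU (2 + 2) F q)} {a : ℕ}
    (hdvd : q ^ a ∣ Nat.card K) :
    ∃ (g : ↥(Cfsg.SU (2 + 2) F q)) (S : Subgroup ↥(Cfsg.SU (2 + 2) F q)), S ≤ conjSub g K ∧
      Nat.card S = q ^ a ∧ S ≤ vecStab F 2 q T.e ∧
      ∃ v : Fin 2 → F, v ≠ 0 ∧ Cfsg.hermForm 2 F q v v = 0 ∧ ∀ b ∈ kbar hF T S, sv b v = v := by
  obtain ⟨p, f, hp, hf, rfl⟩ := exists_prime_pow hF
  haveI : Fact p.Prime := ⟨hp⟩
  obtain ⟨S0, hS0⟩ := Sylow.exists_subgroup_card_pow_prime p (n := f * a) (G := K) (by rwa [pow_mul])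
  let S1 : Subgroup ↥(Cfsg.SU (2 + 2) F (p ^ f)) := S0.map K.subtype
  have hS1 : Nat.card S1 = p ^ (f * a) := by
    rw [← hS0]
    exact (Nat.card_congr (S0.equivMapOfInjective _ K.subtype_injective).toEquiv).symm
  have hp1 : IsPGroup p S1 := IsPGroup.of_card hS1
  have hpq : p ∣ p ^ f := dvd_pow_self p (by omega)
  obtain ⟨x, hx0, hx, hfix⟩ := exists_fixed_iso hF hp hpq (by norm_num) hp1
  obtain ⟨g, hg⟩ := exists_SU_map_isotropic hF (by norm_num) hx0 (T.e_ne_zero hF) hx T.he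
  set S := conjSub g S1
  have hSK : S ≤ conjSub g K := fun y hy => by
    rw [mem_conjSub] at hy ⊢
    obtain ⟨z, -, e⟩ := hy
    exact e ▸ z.2
  have hScard : Nat.card S = (p ^ f) ^ a := by
    rw [← pow_mul, ← hS1]
    exact (Nat.card_congr (S1.equivMapOfInjective _ (MulAut.conj g).injective).toEquiv).symm
  have hSe : S ≤ vecStab F 2 (p ^ f) T.e := fun y hy => by
    rw [mem_conjSub] at hy
    have := hfix _ hy
    rw [sv_mul, sv_mul, hg] at this
    rw [AutPSU.mem_vecStab]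
    conv_rhs => rw [← hg, ← this, sv_sv_inv]
  have hpS : IsPGroup p S := IsPGroup.of_card (hScard.trans (pow_mul p f a).symm)
  have hpk : IsPGroup p (kbar hF T S) :=
    (hpS.comap_of_injective (vecStab F 2 (p ^ f) T.e).subtype (Subgroup.subtype_injective _)).map _
  obtain ⟨v, hv0, hv, hvfix⟩ := exists_fixed_iso hF hp hpq le_rfl hpk
  exact ⟨g, S, hSK, hScard, hSe, v, hv0, hv, hvfix⟩

include hF in
theorem card_stab_vec_le {v : Fin 2 → F} (hv0 : v ≠ 0) (hv : Cfsg.hermForm 2 F q v v = 0)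
    {H : Subgroup ↥(Cfsg.SU 2 F q)} (hH : ∀ b ∈ H, sv b v = v) : Nat.card H ≤ q := by
  have h := card_le_iso hF H hv0 hv {v} fun b hb => hH b hb
  rwa [Nat.card_coe_set_eq, Set.ncard_singleton, one_mul] at h

include hF in
theorem card_le_of_le_stab (T : Frame F 2 q) {H : Subgroup ↥(Cfsg.SU (2 + 2) F q)}
    (hH : H ≤ vecStab F 2 q T.e) :
    Nat.card H ≤ Nat.card (kbar hF T H) * (Nat.card (rbar hF T H) * Nat.card (aSub hF T H)) :=
  le_trans (le_of_eq (Nat.card_congr (Subgroup.subgroupOfEquivOfLe hH).toEquiv).symm) (card_inf_vecStab_le hF T)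

include hF in
theorem rbar_mono (T : Frame F 2 q) {H K : Subgroup ↥(Cfsg.SU (2 + 2) F q)} (h : H ≤ K) :
    rbar hF T H ≤ rbar hF T K := fun _ ⟨c, hc, hm⟩ => ⟨c, hc, h hm⟩

include hF in
theorem aSub_mono (T : Frame F 2 q) {H K : Subgroup ↥(Cfsg.SU (2 + 2) F q)} (h : H ≤ K) :
    aSub hF T H ≤ aSub hF T K := fun _ ⟨hc, hm⟩ => ⟨hc, h hm⟩

include hF in
theorem card_goodSet_conj (g : ↥(Cfsg.SU (2 + 2) F q)) (K : Subgroup ↥(Cfsg.SU (2 + 2) F q)) :
    (goodSet hF K).ncard ≤ (goodSet hF (conjSub g K)).ncard :=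
  Set.ncard_le_ncard_of_injOn (sv g)
    (fun v hv => ⟨fun e => hv.1 (by rw [← sv_inv_sv g v, e]; exact Matrix.mulVec_zero _),
      herm_sv_self_eq_zero g hv.2.1, (good_conjSub hF).2 hv.2.2⟩)
    (fun a _ b _ e => by rw [← sv_inv_sv g a, e, sv_inv_sv])

include hF in
/-- The good vectors lie on fewer than `q^2` points. -/
theorem good_few_four {K : Subgroup ↥(Cfsg.SU (2 + 2) F q)} (hK : K ≠ ⊤) (hN : K.index ≤ q ^ 4 + q ^ 3 + q) :
    (goodSet hF K).ncard < q ^ 2 * ((q - 1) * (q + 1)) := by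
  obtain ⟨T⟩ := exists_frame (F := F) (m := 2) hF
  obtain ⟨v, hv0, hv, hbad⟩ := exists_bad hF (fun h => by omega) K hK
  obtain ⟨a, ha⟩ := exists_SU_map_isotropic hF (by norm_num) hv0 (T.e_ne_zero hF) hv T.he
  refine (card_goodSet_conj hF a K).trans_lt ?_
  have hbad' : ¬ Good hF (conjSub a K) T.e := fun h => hbad ((good_conjSub hF).1 (ha ▸ h))
  have h := good_few_four_frame hF T hbad' (by rwa [index_conjSub])
  refine Nat.lt_of_mul_lt_mul_right (a := q ^ 4 + q ^ 3) (h.trans_lt ?_)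
  rw [iso_four hF]
  have hq := two_le_q hF
  obtain ⟨p, rfl⟩ : ∃ p, q = p + 2 := ⟨q - 2, by omega⟩
  have e4 : (p + 2) ^ 4 - 1 = (p + 2 - 1) * (p + 2 + 1) * ((p + 2) ^ 2 + 1) := by
    have h1 : p + 2 - 1 = p + 1 := by omega
    rw [h1]
    refine Nat.sub_eq_of_eq_add ?_
    ring
  rw [e4]
  calc (p + 2 - 1) * (p + 2 + 1) * ((p + 2) ^ 2 + 1) * ((p + 2) ^ 3 + 1) * (p + 2)
      = (p + 2 - 1) * (p + 2 + 1) * ((((p + 2) ^ 2 + 1) * ((p + 2) ^ 3 + 1)) * (p + 2)) := by ring
    _ < (p + 2 - 1) * (p + 2 + 1) * (((p + 2) ^ 2 * ((p + 2) ^ 4 + (p + 2) ^ 3))) := by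
      refine Nat.mul_lt_mul_of_pos_left ?_ (Nat.mul_pos (by omega) (by omega))
      rw [show (p + 2) ^ 2 * ((p + 2) ^ 4 + (p + 2) ^ 3) =
          ((p + 2) ^ 2 + 1) * ((p + 2) ^ 3 + 1) * (p + 2) +
            ((p + 2) * (p ^ 4 + 7 * p ^ 3 + 17 * p ^ 2 + 16 * p + 3)) by ring]
      exact Nat.lt_add_of_pos_right (by positivity)
    _ = _ := by ring

variable (T : Frame F 2 q)

local notation "V4" => Fin (2 + 2) → F
local notation "h[" u "," v "]" => Cfsg.hermForm (2 + 2) F q u v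
local notation "H₂[" u "," v "]" => Cfsg.hermForm 2 F q u v

include hF in
/-- A subgroup with a large `p`-part and few good vectors fixes a line. -/
theorem fix_line {K : Subgroup ↥(Cfsg.SU (2 + 2) F q)} {S : Subgroup ↥(Cfsg.SU (2 + 2) F q)} (hSK : S ≤ K)
    (hS : Nat.card S = q ^ 5) (hSe : S ≤ vecStab F 2 q T.e) {v : Fin 2 → F} (hv0 : v ≠ 0) (hv : H₂[v, v] = 0)
    (hfix : ∀ b ∈ kbar hF T S, sv b v = v) (hfew : (goodSet hF K).ncard < q ^ 2 * ((q - 1) * (q + 1)))
    (hnp : ∃ k ∈ K, ∀ μ : F, sv k T.e ≠ μ • T.e) :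
    ∀ g ∈ K, ∀ x ∈ Submodule.span F ({T.e, eta v} : Set V4), sv g x ∈ Submodule.span F ({T.e, eta v} : Set V4) := by
  have hq := two_le_q hF
  have hκ := card_stab_vec_le hF hv0 hv hfix
  have hgood : Good hF K T.e := by
    by_contra hbad
    have h1 := card_le_of_le_stab hF T hSe
    have h2 : Nat.card (rbar hF T S) ≤ q ^ 2 :=
      (Nat.card_le_card_of_injective _ (AddSubgroup.inclusion_injective (rbar_mono hF T hSK))).trans
        (card_rbar_le hF T hbad)
    have h3 : Nat.card (aSub hF T S) ≤ q := by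
      refine (Nat.card_le_card_of_injective _ (AddSubgroup.inclusion_injective (aSub_mono hF T hSK))).trans ?_
      have := card_norm_scal_le hF T hbad
      exact le_trans (Nat.le_mul_of_pos_left _ (Nat.succ_pos _)) this
    have h4 := hS ▸ h1.trans (Nat.mul_le_mul hκ (Nat.mul_le_mul h2 h3))
    have h5 : q * (q ^ 2 * q) < q ^ 5 := by
      rw [show q * (q ^ 2 * q) = q ^ 4 by ring]; exact Nat.pow_lt_pow_right (by omega) (by norm_num)
    omega
  -- orbits of `S` on good vectors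
  have key : ∀ y : V4, y ≠ 0 → h[y, y] = 0 → Good hF K y → y ∈ Submodule.span F ({T.e, eta v} : Set V4) := by
    intro y hy0 hy hgy
    have hSgood : ∀ g ∈ S, sv g y ∈ goodSet hF K := fun g hg =>
      ⟨fun e => hy0 (by rw [← sv_inv_sv g y, e]; exact Matrix.mulVec_zero _), herm_sv_self_eq_zero g hy,
        hgy.map hF (hSK hg)⟩
    let H : Subgroup ↥(Cfsg.SU (2 + 2) F q) := S ⊓ vecStab F 2 q y
    have hHe : H ≤ vecStab F 2 q T.e := inf_le_left.trans hSe
    have hHk : kbar hF T H ≤ kbar hF T S := Subgroup.map_mono fun x hx => (hx : (x : ↥(Cfsg.SU (2 + 2) F q)) ∈ H).1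
    have hfib : ∀ g0 ∈ S, Nat.card {g : S // sv g.1 y = sv g0 y} ≤ Nat.card H := fun g0 hg0 =>
      card_fibre_le S (vecStab F 2 q y) (fun g => sv g y) (fun g g' e => by
        show sv (g'⁻¹ * g) y = y
        rw [sv_mul, e, sv_inv_sv]) g0 hg0
    have hSH : ∀ (X : Set V4), (∀ g ∈ S, sv g y ∈ X) → q ^ 5 ≤ X.ncard * Nat.card H := fun X hX =>
      hS ▸ card_le_orbit_mul S (fun g => sv g y) _ hfib hX
    have hHcard := card_le_of_le_stab hF T hHe
    have hκH : Nat.card (kbar hF T H) ≤ q :=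
      card_stab_vec_le hF hv0 hv fun b hb => hfix b (hHk hb)
    by_cases hye : h[y, T.e] = 0
    · have hyd := T.eq_of_perp_e hF hye
      set u := proj y
      set a := h[y, T.f]
      have huu : H₂[u, u] = 0 := by
        have h := hy
        rw [hyd] at h
        simp only [herm_add_left, herm_add_right hF, herm_smul_left, herm_smul_right, T.he, T.ew, T.we hF,
          herm_eta hF] at h
        linear_combination h
      by_cases huv : H₂[u, v] = 0
      · obtain ⟨f, hf, hfr, hD, hkey⟩ := exists_basis_iso hF hv0 hv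
        have e := hkey u
        rw [huv, zero_smul, zero_add] at e
        rw [hyd, e, eta_smul]
        exact Submodule.add_mem _ (Submodule.smul_mem _ _ (Submodule.subset_span (by simp)))
          (Submodule.smul_mem _ _ (Submodule.subset_span (by simp)))
      · exfalso
        have hu0 : u ≠ 0 := fun e => huv (by rw [e, herm_zero_left])
        obtain ⟨f, hf, hfr, hD, hkey⟩ := exists_basis_iso hF hv0 hv
        have hκ1 : Nat.card (kbar hF T H) ≤ 1 := by
          refine Finite.card_le_one_iff_subsingleton.2 ⟨fun b b' => Subtype.ext ?_⟩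
          have hb : ∀ b ∈ kbar hF T H, sv b u = u := by
            rintro _ ⟨k, hk, rfl⟩
            have hk' : sv (k : ↥(Cfsg.SU (2 + 2) F q)) y = y := (hk : (k : ↥(Cfsg.SU (2 + 2) F q)) ∈ H).2
            rw [hyd, sv_add, sv_smul, AutPSU.mem_vecStab.1 k.2] at hk'
            rw [piHom_apply, add_left_cancel hk', AutPSU.proj_eta]
          refine sv_ext fun x => ?_
          have hx : ∀ x : Fin 2 → F, ∃ s t : F, x = s • v + t • u := by
            intro x
            refine ⟨H₂[x, f] - H₂[x, v] * (H₂[u, v])⁻¹ * H₂[u, f], H₂[x, v] * (H₂[u, v])⁻¹, ?_⟩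
            conv_lhs => rw [hkey x]
            conv_rhs => arg 2; arg 2; rw [hkey u]
            match_scalars <;> field_simp <;> ring
          obtain ⟨s, t, rfl⟩ := hx x
          rw [sv_add, sv_add, sv_smul, sv_smul, sv_smul, sv_smul, hfix _ (hHk b.2), hfix _ (hHk b'.2),
            hb _ b.2, hb _ b'.2]
        have hρ : Nat.card (rbar hF T H) ≤ q ^ 2 := by
          obtain ⟨f', hf', hfr', hD', hkey'⟩ := exists_basis_iso hF hu0 huu
          have hr : ∀ r ∈ rbar hF T H, r = H₂[r, f'] • u := by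
            rintro r ⟨c, hc, hm⟩
            have h1 : sv (T.heis hF r c hc) y = y := (hm : T.heis hF r c hc ∈ H).2
            rw [hyd, sv_add, sv_smul, T.sv_heis hF, T.heisLin_e hF, T.sv_heis hF, T.heisLin_eta hF,
              add_right_inj, sub_eq_self, smul_eq_zero] at h1
            have h2 := h1.resolve_right (T.e_ne_zero hF)
            conv_lhs => rw [hkey' r, herm_eq_zero_comm hF h2, zero_smul, zero_add]
          rw [show q ^ 2 = Nat.card F by rw [Nat.card_eq_fintype_card, hF]]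
          refine Nat.card_le_card_of_injective (fun r : rbar hF T H => H₂[r.1, f']) fun r r' e => Subtype.ext ?_
          rw [hr _ r.2, hr _ r'.2, show H₂[r.1, f'] = H₂[r'.1, f'] from e]
        have hα : Nat.card (aSub hF T H) ≤ q :=
          (Nat.card_le_card_of_injective _ (AddSubgroup.inclusion_injective (aSub_le hF T))).trans (card_traceKer hF).le
        -- the orbit
        let O : Set V4 := Set.range fun g : S => sv g.1 y
        have hO := hSH O fun g hg => ⟨⟨g, hg⟩, rfl⟩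
        have hH3 : Nat.card H ≤ q ^ 3 := hHcard.trans ((Nat.mul_le_mul hκ1 (Nat.mul_le_mul hρ hα)).trans
          (le_of_eq (by ring)))
        have hO2 : q ^ 2 ≤ O.ncard := by
          refine Nat.le_of_mul_le_mul_right (c := q ^ 3) ?_ (pow_pos (by omega) 3)
          rw [← pow_add]; exact hO.trans (Nat.mul_le_mul_left _ hH3)
        have hcount : (q - 1) * (q + 1) * O.ncard ≤ (goodSet hF K).ncard := by
          rw [← card_units_eq hF, ← Nat.card_coe_set_eq, ← Nat.card_prod, ← Nat.card_coe_set_eq]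
          refine Nat.card_le_card_of_injective (fun p : Fˣ × O => (⟨(p.1 : F) • p.2.1, ?_⟩ : goodSet hF K)) ?_
          · obtain ⟨⟨g, hg⟩, e⟩ := p.2.2
            rw [← e]
            obtain ⟨h1, h2, h3⟩ := hSgood g hg
            exact ⟨smul_ne_zero p.1.ne_zero h1, by rw [herm_self_smul, h2, mul_zero], h3.smul hF _⟩
          · have hpv : ∀ g : S, H₂[proj (sv g.1 y), v] = H₂[u, v] := fun g => by
              have hmem : piHom hF T ⟨g.1, hSe g.2⟩ ∈ kbar hF T S := ⟨⟨g.1, hSe g.2⟩, g.2, rfl⟩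
              have e : proj (sv g.1 y) = sv (piHom hF T ⟨g.1, hSe g.2⟩) u := by
                rw [piHom_apply]
                show _ = proj (sv g.1 (eta u))
                conv_lhs => rw [hyd, sv_add, sv_smul, AutPSU.mem_vecStab.1 (hSe g.2)]
                rw [proj_add, proj_smul, T.proj_e hF, smul_zero, zero_add]
              rw [e]
              conv_lhs => rw [← hfix _ hmem, sv_herm]
            rintro ⟨μ, ⟨_, g, rfl⟩⟩ ⟨μ', ⟨_, g', rfl⟩⟩ e
            have e1 : (μ : F) • sv g.1 y = (μ' : F) • sv g'.1 y := congrArg Subtype.val e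
            have e2 := congrArg (fun x => H₂[proj x, v]) e1
            simp only [proj_smul, herm_smul_left, hpv] at e2
            have hμ : μ = μ' := Units.ext (mul_right_cancel₀ huv e2)
            subst hμ
            exact Prod.ext rfl (Subtype.ext (smul_right_injective _ μ.ne_zero e1))
        have := Nat.mul_le_mul_left ((q - 1) * (q + 1)) hO2
        rw [mul_comm (q ^ 2)] at hfew
        omega
    · exfalso
      have hr0 : ∀ r ∈ rbar hF T H, ∀ (c : F) (hc : HCond q r c), T.heis hF r c hc ∈ H → r = 0 ∧ c = 0 := by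
        intro r _ c hc hm
        have h1 : sv (T.heis hF r c hc) y = y := hm.2
        have hd := T.decomp hF y
        set a := h[y, T.f]
        set b := h[y, T.e]
        rw [hd] at h1
        simp only [T.sv_heis hF, map_add, map_smul, T.heisLin_e hF, T.heisLin_f hF, T.heisLin_eta hF, sub_eq_add_neg,
          ← neg_smul] at h1
        have h2 := congrArg proj h1
        simp only [proj_add, proj_smul, AutPSU.proj_eta, T.proj_e hF, T.proj_f hF, smul_zero, add_zero,
          zero_add] at h2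
        have hr : r = 0 := (smul_eq_zero.1 (add_eq_right.1 h2)).resolve_left hye
        refine ⟨hr, ?_⟩
        subst hr
        have h3 := congrArg (fun x => h[x, T.f]) h1
        simp [herm_add_left, herm_smul_left, T.hef, T.hf, eta_zero, herm_zero_left, herm_zero_right hF] at h3
        exact h3.resolve_left hye
      have hρ : Nat.card (rbar hF T H) ≤ 1 := Finite.card_le_one_iff_subsingleton.2 ⟨fun r r' => Subtype.ext (by
        obtain ⟨c, hc, hm⟩ := r.2
        obtain ⟨c', hc', hm'⟩ := r'.2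
        rw [(hr0 _ r.2 c hc hm).1, (hr0 _ r'.2 c' hc' hm').1])⟩
      have hα : Nat.card (aSub hF T H) ≤ 1 := Finite.card_le_one_iff_subsingleton.2 ⟨fun r r' => Subtype.ext (by
        obtain ⟨hc, hm⟩ := r.2
        obtain ⟨hc', hm'⟩ := r'.2
        rw [(hr0 _ (rbar hF T H).zero_mem _ hc hm).2, (hr0 _ (rbar hF T H).zero_mem _ hc' hm').2])⟩
      have h1 : Nat.card H ≤ q := hHcard.trans ((Nat.mul_le_mul hκH (Nat.mul_le_mul hρ hα)).trans (by simp))
      have h2 := (hSH _ hSgood).trans (Nat.mul_le_mul_left _ h1)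
      have h4 : q ^ 4 ≤ (goodSet hF K).ncard :=
        Nat.le_of_mul_le_mul_right (by rwa [← pow_succ]) (show 0 < q by omega)
      have h5 : q ^ 2 * ((q - 1) * (q + 1)) ≤ q ^ 4 := by
        rw [show q ^ 4 = q ^ 2 * (q * q) by ring]
        exact Nat.mul_le_mul_left _ (by
          obtain ⟨p, rfl⟩ : ∃ p, q = p + 1 := ⟨q - 1, by omega⟩
          rw [Nat.add_sub_cancel]; nlinarith)
      omega
  -- the span of the good vectors
  obtain ⟨k, hk, hkne⟩ := hnp
  have he0 := T.e_ne_zero hF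
  have hkey : ∀ g ∈ K, sv g T.e ∈ Submodule.span F ({T.e, eta v} : Set V4) := fun g hg =>
    key _ (fun e => he0 (by rw [← sv_inv_sv g T.e, e]; exact Matrix.mulVec_zero _))
      (herm_sv_self_eq_zero g T.he) (hgood.map hF hg)
  obtain ⟨a, b, hab⟩ := Submodule.mem_span_pair.1 (hkey k hk)
  have hb : b ≠ 0 := fun e => hkne a (by rw [← hab, e, zero_smul, add_zero])
  have heta : eta v = b⁻¹ • sv k T.e - (b⁻¹ * a) • T.e := by
    rw [← hab, smul_add, smul_smul, smul_smul, inv_mul_cancel₀ hb, one_smul, add_sub_cancel_left]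
  intro g hg x hx
  obtain ⟨s, t, rfl⟩ := Submodule.mem_span_pair.1 hx
  have e : sv g (eta v) = b⁻¹ • sv (g * k) T.e + (-(b⁻¹ * a)) • sv g T.e := by
    rw [heta, sub_eq_add_neg, ← neg_smul, sv_add, sv_smul, sv_smul, sv_mul]
  rw [sv_add, sv_smul, sv_smul, e]
  exact Submodule.add_mem _ (Submodule.smul_mem _ _ (hkey g hg))
    (Submodule.smul_mem _ _ (Submodule.add_mem _ (Submodule.smul_mem _ _ (hkey _ (K.mul_mem hg hk)))
      (Submodule.smul_mem _ _ (hkey g hg))))

end CfsgLib.MinIndexPSU
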