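import Cfsg.Agent.MinIndexPSU.FourTwo
import Cfsg.Agent.S0829

/-!
The minimal index of `PSU_4(q)`.
-/

set_option autoImplicit false
set_option linter.unusedSectionVars false

open scoped Classical

namespace CfsgLib.MinIndexPSU

open Matrix CfsgLib.Unitary CfsgLib.AutPSU CfsgLib.AutPSU.Frame CfsgLib.SchurClassical.Un

variable {F : Type*} [Field F] [Fintype F] {q : ℕ} (hF : Fintype.card F = q ^ 2)

local notation "V4" => Fin (2 + 2) → F

include hF in
/-- `SU_n` is transitive on totally isotropic subspaces of a given dimension. -/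
theorem exists_SU_map_TI {n k : ℕ} (hn : 1 ≤ n) {W W' : Submodule F (Fin n → F)}
    (hW2 : Module.finrank F W = k) (hW : ∀ u ∈ W, ∀ v ∈ W, Cfsg.hermForm n F q u v = 0)
    (hW'2 : Module.finrank F W' = k) (hW' : ∀ u ∈ W', ∀ v ∈ W', Cfsg.hermForm n F q u v = 0) :
    ∃ A : ↥(Cfsg.SU n F q), ∀ u ∈ W, sv A u ∈ W' := by
  let b := Module.finBasisOfFinrankEq F W hW2
  let b' := Module.finBasisOfFinrankEq F W' hW'2
  have hli : LinearIndependent F fun i => (b i : Fin n → F) :=
    LinearIndependent.map' (v := fun i => b i) b.linearIndependent W.subtype W.ker_subtype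
  have hli' : LinearIndependent F fun i => (b' i : Fin n → F) :=
    LinearIndependent.map' (v := fun i => b' i) b'.linearIndependent W'.subtype W'.ker_subtype
  let e₀ : TIFrame n k q F := ⟨fun i => (b i : Fin n → F), hli, fun i j => hW _ (b i).2 _ (b j).2⟩
  let e₁ : TIFrame n k q F := ⟨fun i => (b' i : Fin n → F), hli', fun i j => hW' _ (b' i).2 _ (b' j).2⟩
  obtain ⟨g, hg, hge⟩ := exists_GU_map_TI hF e₀ e₁
  set d := ((g : GL (Fin n) F) : Matrix (Fin n) (Fin n) F).det
  have hd : d ^ (q + 1) = 1 := det_pow_succ_eq_one hF hg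
  have hd0 : d ≠ 0 := fun e => by rw [e, zero_pow (Nat.succ_ne_zero q)] at hd; exact zero_ne_one hd
  obtain ⟨s, hs, hsd, hsW⟩ := exists_det_stab hF hn (W := W) (fun u hu v hv => hW u hu v hv)
    (t := d⁻¹) (by rw [inv_pow, hd, inv_one])
  let A : ↥(Cfsg.SU n F q) :=
    ⟨⟨((g * s : GL (Fin n) F) : Matrix (Fin n) (Fin n) F), by
      rw [Units.val_mul, Matrix.det_mul, hsd]; exact mul_inv_cancel₀ hd0⟩,
      mem_SU.2 (mem_GU.1 ((Cfsg.GU n F q).mul_mem hg hs))⟩
  refine ⟨A, fun u hu => ?_⟩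
  show ((g * s : GL (Fin n) F) : Matrix (Fin n) (Fin n) F) *ᵥ u ∈ W'
  rw [Units.val_mul, ← Matrix.mulVec_mulVec]
  have hu' := (hsW u).1 hu
  generalize ((s : GL (Fin n) F) : Matrix (Fin n) (Fin n) F) *ᵥ u = y at hu'
  have hy : y = ∑ i, b.repr (⟨y, hu'⟩ : W) i • (b i : Fin n → F) := eq_sum_repr_coe b hu'
  rw [hy, Matrix.mulVec_sum]
  refine Submodule.sum_mem _ fun i _ => ?_
  rw [Matrix.mulVec_smul, hge i]
  exact Submodule.smul_mem _ _ (b' i).2

variable (F q) in
/-- The totally isotropic lines. -/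
def TILine : Type _ :=
  {W : Submodule F (Fin (2 + 2) → F) //
    Module.finrank F W = 2 ∧ ∀ u ∈ W, ∀ v ∈ W, Cfsg.hermForm (2 + 2) F q u v = 0}

/-- The stabiliser of a line. -/
def lineStabU (W : Submodule F V4) : Subgroup ↥(Cfsg.SU (2 + 2) F q) where
  carrier := {g | ∀ v, v ∈ W ↔ sv g v ∈ W}
  one_mem' := fun v => by rw [sv_one]
  mul_mem' := fun {a b} ha hb v => by rw [sv_mul, ← ha, ← hb]
  inv_mem' := fun {a} ha v => by
    conv_rhs => rw [ha, sv_sv_inv]

include hF in
theorem card_TILine : Nat.card (TILine F q) = (q + 1) * (q ^ 3 + 1) :=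
  Cfsg.Agent.S0829.result hF

include hF in
theorem index_lineStabU {W : Submodule F V4} (hW2 : Module.finrank F W = 2)
    (hW : ∀ u ∈ W, ∀ v ∈ W, Cfsg.hermForm (2 + 2) F q u v = 0) :
    (lineStabU (q := q) W).index = (q + 1) * (q ^ 3 + 1) := by
  haveI : Finite (TILine F q) := Subtype.finite
  let L : ↥(Cfsg.SU (2 + 2) F q) → (V4 →ₗ[F] V4) := fun g =>
    Matrix.mulVecLin ((g : Matrix.SpecialLinearGroup (Fin (2 + 2)) F) : Matrix (Fin (2 + 2)) (Fin (2 + 2)) F)
  have hL : ∀ g x, L g x = sv g x := fun _ _ => rfl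
  have hinj : ∀ g, Function.Injective (L g) := fun g x y e => by
    rw [hL, hL] at e; rw [← sv_inv_sv g x, e, sv_inv_sv]
  let f : ↥(Cfsg.SU (2 + 2) F q) → TILine F q := fun g => ⟨W.map (L g), by
    rw [← (Submodule.equivMapOfInjective _ (hinj g) W).finrank_eq, hW2], by
    rintro _ ⟨u, hu, rfl⟩ _ ⟨v, hv, rfl⟩
    rw [hL, hL, sv_herm]; exact hW u hu v hv⟩
  have hmem : ∀ (g : ↥(Cfsg.SU (2 + 2) F q)) x, x ∈ W.map (L g) ↔ sv g⁻¹ x ∈ W := fun g x => by
    constructor
    · rintro ⟨u, hu, rfl⟩; rwa [hL, sv_inv_sv]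
    · intro h; exact ⟨_, h, by rw [hL, sv_sv_inv]⟩
  have hs : Function.Surjective f := by
    rintro ⟨W', hW'2, hW'⟩
    obtain ⟨A, hA⟩ := exists_SU_map_TI hF (by norm_num) hW2 hW hW'2 hW'
    refine ⟨A, Subtype.ext ?_⟩
    show W.map (L A) = W'
    refine Submodule.eq_of_le_of_finrank_eq ?_ (by
      rw [← (Submodule.equivMapOfInjective _ (hinj A) W).finrank_eq, hW2, hW'2])
    rintro _ ⟨u, hu, rfl⟩
    exact hA u hu
  have hf : ∀ a c, f a = f c ↔ a⁻¹ * c ∈ lineStabU W := by
    intro a c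
    refine Subtype.ext_iff.trans ⟨fun (h : W.map (L a) = W.map (L c)) v => ?_, fun h => Submodule.ext fun x => ?_⟩
    · rw [sv_mul, ← hmem, h, hmem, sv_inv_sv]
    · change x ∈ W.map (L a) ↔ x ∈ W.map (L c)
      rw [hmem, hmem, h (sv c⁻¹ x), sv_mul, sv_sv_inv]
  have h := card_eq_card_mul_of_surjective (lineStabU W) f hs hf
  rw [card_TILine hF, ← (lineStabU W).index_mul_card] at h
  exact Nat.eq_of_mul_eq_mul_right Nat.card_pos h

include hF in
theorem center_le_lineStabU (W : Submodule F V4) :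
    Subgroup.center ↥(Cfsg.SU (2 + 2) F q) ≤ lineStabU W := by
  intro g hg v
  obtain ⟨c, hc⟩ := (mem_center_SU_iff hF (by norm_num) g).1 hg
  have e : sv g v = c • v := by
    show ((g : Matrix.SpecialLinearGroup (Fin (2 + 2)) F) : Matrix (Fin (2 + 2)) (Fin (2 + 2)) F) *ᵥ v = _
    rw [hc, Matrix.scalar_apply, ← Matrix.smul_one_eq_diagonal, Matrix.smul_mulVec, Matrix.one_mulVec]
  rw [e]
  refine ⟨fun h => W.smul_mem _ h, fun h => ?_⟩
  rcases eq_or_ne v 0 with rfl | hv0
  · exact W.zero_mem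
  · have hc0 : c ≠ 0 := fun e0 => hv0 (by
      rw [← sv_inv_sv g v, e, e0, zero_smul]; exact Matrix.mulVec_zero _)
    exact (inv_smul_smul₀ hc0 v) ▸ W.smul_mem c⁻¹ h

include hF in
theorem pow_six_dvd : q ^ 6 ∣ Nat.card ↥(Cfsg.SU (2 + 2) F q) := by
  obtain ⟨p, f, hp, hf, hqp⟩ := exists_prime_pow hF
  have h := card_SU hF (2 + 2) (by norm_num)
  have hcop : Nat.Coprime (q ^ 6) (q + 1) :=
    ((Nat.coprime_self_add_right).2 (Nat.coprime_one_right q)).pow_left 6
  refine hcop.dvd_of_dvd_mul_left ?_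
  rw [h]
  exact Dvd.dvd.mul_right (pow_dvd_pow q (by norm_num)) _

include hF in
/-- The lower bound in `SU_4(q)`. -/
theorem four_le_index (K : Subgroup ↥(Cfsg.SU (2 + 2) F q)) (hK : K ≠ ⊤) :
    (q + 1) * (q ^ 3 + 1) ≤ K.index := by
  by_contra hlt
  push Not at hlt
  have hq := two_le_q hF
  obtain ⟨T⟩ := exists_frame (F := F) (m := 2) hF
  have hlt' : K.index ≤ q ^ 4 + q ^ 3 + q := by
    rw [show (q + 1) * (q ^ 3 + 1) = q ^ 4 + q ^ 3 + q + 1 by ring] at hlt
    omega
  have hge : q ^ 4 + q ^ 3 ≤ K.index := by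
    obtain ⟨K', hidx, -, hbad⟩ := exists_bad_conj hF (by norm_num) T (fun h => by omega) K hK
    rw [← hidx]; exact index_ge_four hF T hbad
  have hdvdG : q ^ 6 ∣ K.index * Nat.card K := by rw [K.index_mul_card]; exact pow_six_dvd hF
  rcases Nat.eq_or_lt_of_le hge with hN | hN
  · -- no transvections
    have h3 : q ^ 3 ∣ Nat.card K := by
      have hcop : Nat.Coprime (q ^ 3) (q + 1) :=
        ((Nat.coprime_self_add_right).2 (Nat.coprime_one_right q)).pow_left 3
      refine hcop.dvd_of_dvd_mul_left ((Nat.mul_dvd_mul_iff_left (pow_pos (show 0 < q by omega) 3)).1 ?_)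
      rw [← pow_add, ← mul_assoc, show q ^ 3 * (q + 1) = K.index by rw [← hN]; ring]
      exact hdvdG
    obtain ⟨g, S, hSK, hS, hSe, v, hv0, hv, hfix⟩ := exists_pgroup_fix hF T h3
    set K' := conjSub g K
    have hK' : K' ≠ ⊤ := conjSub_ne_top g hK
    have hidx : K'.index ≤ q ^ 4 + q ^ 3 := by rw [index_conjSub]; exact hN.ge
    -- no point is good and no root element lies in the subgroup
    have hnogood : ∀ x : V4, x ≠ 0 → Cfsg.hermForm (2 + 2) F q x x = 0 → ¬ Good hF K' x := by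
      intro x hx0 hx hg
      obtain ⟨b, hb0, hb, hbad⟩ := exists_bad hF (fun h => by omega) K' hK'
      obtain ⟨a, ha⟩ := exists_SU_map_isotropic hF (by norm_num) hb0 (T.e_ne_zero hF) hb T.he
      have hbad' : ¬ Good hF (conjSub a K') T.e := fun h => hbad ((good_conjSub hF).1 (ha ▸ h))
      have h0 := (four_tight hF T hbad' (by rwa [index_conjSub])).2.1
      have := card_goodSet_conj hF a K'
      have h1 : 0 < (goodSet hF K').ncard := (Set.ncard_pos (Set.toFinite _)).2 ⟨x, hx0, hx, hg⟩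
      omega
    have hno : ∀ (x : V4) (hx : Cfsg.hermForm (2 + 2) F q x x = 0) (c : F) (hc : c + c ^ q = 0),
        c ≠ 0 → x ≠ 0 → transvSU hF x c hx hc ∉ K' := by
      intro x hx c hc hc0 hx0 hmem
      obtain ⟨a, ha⟩ := exists_SU_map_isotropic hF (by norm_num) hx0 (T.e_ne_zero hF) hx T.he
      have hbad' : ¬ Good hF (conjSub a K') T.e := fun h => hnogood x hx0 hx ((good_conjSub hF).1 (ha ▸ h))
      obtain ⟨hsub, -⟩ := Nat.card_eq_one_iff_unique.1 (four_tight hF T hbad' (by rwa [index_conjSub])).1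
      have h0 : HCond q (0 : Fin 2 → F) c := hcond_zero_iff.2 hc
      have h : T.heis hF 0 c h0 ∈ conjSub a K' := by
        rw [← T.transvSU_e_eq hF hc h0, mem_conjSub]
        have e := conj_transvSU hF a⁻¹ T.he hc
        rw [inv_inv] at e
        rw [e, transvSU_congr hF _ hc hx hc fun y => by rw [← ha, sv_inv_sv]]
        exact hmem
      exact hc0 (congrArg Subtype.val (Subsingleton.elim (⟨c, h0, h⟩ : aSub hF T (conjSub a K')) 0))
    obtain ⟨hq2, hρ, r, hr, s, hs, hD, hspan⟩ :=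
      four_eq hF T hS hSe hv0 hv hfix fun x hx c hc hc0 hx0 hm => hno x hx c hc hc0 hx0 (hSK hm)
    subst hq2
    have hbad : ¬ Good hF K' T.e := hnogood _ (T.e_ne_zero hF) T.he
    have heq : ∀ y ∈ rbar hF T K', y ∈ rbar hF T S := by
      have hle := rbar_mono hF T hSK
      have h1 : Nat.card (rbar hF T K') ≤ Nat.card (rbar hF T S) := hρ ▸ card_rbar_le hF T hbad
      intro y hy
      have hb := (Function.Injective.bijective_of_nat_card_le (AddSubgroup.inclusion_injective hle) h1).2 ⟨y, hy⟩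
      obtain ⟨z, hz⟩ := hb
      have e : (z : Fin 2 → F) = y := congrArg Subtype.val hz
      rw [← e]; exact z.2
    have hscal : ∀ μ ∈ scal T K', μ = (1 : Fˣ) := fun μ hμ => by
      have h := scal_rational hF T (two_zero hF) (rbar_mono hF T hSK hr) (rbar_mono hF T hSK hs) hD
        (fun y hy => hspan y (heq y hy)) hμ
      exact Units.ext ((mem_prime_of_fixed hF h).resolve_left μ.ne_zero)
    have h27 : 27 ∣ Nat.card K' := by
      have h1 : Nat.card ↥(Cfsg.SU (2 + 2) F 2) = 25920 := by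
        have h := card_SU hF (2 + 2) (by norm_num)
        simp only [Finset.prod_range_succ, Finset.prod_range_zero, Nat.even_iff] at h
        norm_num at h
        rw [Nat.card_eq_fintype_card]
        omega
      have h2 := K'.index_mul_card
      have h3 : K'.index = 24 := by rw [show K'.index = K.index from index_conjSub g K, ← hN]; norm_num
      rw [h1, h3] at h2
      exact ⟨40, by omega⟩
    obtain ⟨k, hk, x, l, hx0, hx, hl, hkx⟩ := exists_eigen_iso hF K' h27
    obtain ⟨μ, _, ⟨k0, rfl⟩, rfl⟩ := (four_tight hF T hbad hidx).2.2 x hx0 hx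
    have hl0 : l ≠ 0 := fun e => by
      rw [e, zero_smul] at hkx
      exact hx0 (by rw [← sv_inv_sv k ((μ : F) • sv k0.1 T.e), hkx]; exact Matrix.mulVec_zero _)
    have hmem : Units.mk0 l hl0 ∈ scal T K' := by
      refine ⟨k0.1⁻¹ * k * k0.1, K'.mul_mem (K'.mul_mem (K'.inv_mem k0.2) hk) k0.2, ?_⟩
      rw [sv_smul, smul_comm] at hkx
      rw [sv_mul, sv_mul, smul_right_injective _ μ.ne_zero hkx, sv_smul, sv_inv_sv, Units.val_mk0]
    exact hl (congrArg Units.val (hscal _ hmem))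
  · -- a large `p`-part
    obtain ⟨p, f, hp, hf, hqp⟩ := exists_prime_pow hF
    have h5 : q ^ 5 ∣ Nat.card K := by
      obtain ⟨b, N', hN', hb⟩ := Nat.exists_eq_pow_mul_and_not_dvd
        (show K.index ≠ 0 from Subgroup.index_ne_zero_of_finite) p hp.ne_one
      have hbf : b ≤ f := by
        by_contra hcon
        push Not at hcon
        have hd : p ^ (f + 1) ∣ K.index := hb ▸ Dvd.dvd.mul_right (pow_dvd_pow p hcon) _
        have hqd : q ∣ K.index := (hqp ▸ pow_dvd_pow p (Nat.le_succ f)).trans hd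
        obtain ⟨j, hj, hjq⟩ : ∃ j, K.index = q ^ 4 + q ^ 3 + j ∧ j ≤ q := ⟨K.index - (q ^ 4 + q ^ 3), by omega⟩
        have hdj : q ∣ j := (Nat.dvd_add_right (dvd_add (dvd_pow_self q (by norm_num)) (dvd_pow_self q (by norm_num)))).1
          (hj ▸ hqd)
        have hjq' : j = q := le_antisymm hjq (Nat.le_of_dvd (by omega) hdj)
        rw [hj, hjq', pow_succ, ← hqp, show q ^ 4 + q ^ 3 + q = q * (q ^ 3 + q ^ 2 + 1) by ring,
          Nat.mul_dvd_mul_iff_left (by omega)] at hd
        have hp1 : p ∣ 1 := by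
          refine (Nat.dvd_add_right ?_).1 hd
          have : p ∣ q := hqp ▸ dvd_pow_self p (by omega)
          exact dvd_add (this.trans (dvd_pow_self q (by norm_num))) (this.trans (dvd_pow_self q (by norm_num)))
        exact hp.not_dvd_one hp1
      have hdvd' : p ^ (f * 6) ∣ K.index * Nat.card K := by rw [pow_mul, ← hqp]; exact hdvdG
      suffices hgoal : p ^ (f * 5) ∣ Nat.card K by rwa [pow_mul, ← hqp] at hgoal
      have hcop : Nat.Coprime (p ^ (f * 5)) N' := ((Nat.Prime.coprime_iff_not_dvd hp).2 hN').pow_left _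
      refine hcop.dvd_of_dvd_mul_left ((Nat.mul_dvd_mul_iff_left (pow_pos hp.pos b)).1 ?_)
      rw [← pow_add, ← mul_assoc, ← hb]
      exact (pow_dvd_pow p (by omega)).trans hdvd'
    obtain ⟨g, S, hSK, hS, hSe, v, hv0, hv, hfix⟩ := exists_pgroup_fix hF T h5
    set K' := conjSub g K
    have hfew := good_few_four hF (conjSub_ne_top g hK) (by rwa [index_conjSub] : K'.index ≤ q ^ 4 + q ^ 3 + q)
    have hidx : K'.index < (q + 1) * (q ^ 3 + 1) := by rwa [index_conjSub]
    have hnp : ∃ k ∈ K', ∀ μ : F, sv k T.e ≠ μ • T.e := by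
      by_contra hcon
      push Not at hcon
      have hle : K' ≤ pointStab T := fun k hk => by
        obtain ⟨μ, hμ⟩ := hcon k hk
        have hμ0 : μ ≠ 0 := fun e => T.e_ne_zero hF (by
          rw [← sv_inv_sv k T.e, hμ, e, zero_smul]; exact Matrix.mulVec_zero _)
        exact ⟨Units.mk0 μ hμ0, hμ⟩
      have h1 := Nat.le_of_dvd (Nat.pos_of_ne_zero Subgroup.index_ne_zero_of_finite) (Subgroup.index_dvd_of_le hle)
      have h2 := index_pointStab hF T (by norm_num)
      rw [iso_four hF] at h2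
      obtain ⟨j, rfl⟩ : ∃ j, q = j + 1 := ⟨q - 1, by omega⟩
      rw [Nat.add_sub_cancel, show (j + 1) ^ 4 - 1 = j * (j + 1 + 1) * ((j + 1) ^ 2 + 1) from
        Nat.sub_eq_of_eq_add (by ring), mul_assoc (j * (j + 1 + 1))] at h2
      have h3 := Nat.eq_of_mul_eq_mul_left (Nat.mul_pos (by omega) (by omega)) h2
      have h4 : (j + 1 + 1) * ((j + 1) ^ 3 + 1) ≤ ((j + 1) ^ 2 + 1) * ((j + 1) ^ 3 + 1) :=
        Nat.mul_le_mul_right _ (by nlinarith)
      omega
    have hline := fix_line hF T hSK hS hSe hv0 hv hfix hfew hnp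
    set W := Submodule.span F ({T.e, eta v} : Set V4)
    have hli : LinearIndependent F ![T.e, (eta v : V4)] := by
      rw [LinearIndependent.pair_iff]
      intro a b hab
      have h1 := congrArg proj hab
      rw [proj_add, proj_smul, proj_smul, T.proj_e hF, AutPSU.proj_eta, smul_zero, zero_add,
        show proj (0 : V4) = (0 : Fin 2 → F) from rfl] at h1
      have hb := (smul_eq_zero.1 h1).resolve_right hv0
      rw [hb, zero_smul, add_zero] at hab
      exact ⟨(smul_eq_zero.1 hab).resolve_right (T.e_ne_zero hF), hb⟩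
    have hW2 : Module.finrank F W = 2 := by
      have h := finrank_span_eq_card hli
      rwa [Fintype.card_fin, Matrix.range_cons, Matrix.range_cons, Matrix.range_empty, Set.union_empty,
        Set.singleton_union] at h
    have hW : ∀ u ∈ W, ∀ w ∈ W, Cfsg.hermForm (2 + 2) F q u w = 0 := by
      intro u hu w hw
      obtain ⟨a, b, rfl⟩ := Submodule.mem_span_pair.1 hu
      obtain ⟨c, d, rfl⟩ := Submodule.mem_span_pair.1 hw
      simp [herm_add_left, herm_add_right hF, herm_smul_left, herm_smul_right, T.he, T.ew, T.we hF, herm_eta hF, hv]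
    have hle : K' ≤ lineStabU W := fun k hk x =>
      ⟨hline k hk x, fun h => sv_inv_sv k x ▸ hline _ (K'.inv_mem hk) _ h⟩
    have h1 := Nat.le_of_dvd (Nat.pos_of_ne_zero Subgroup.index_ne_zero_of_finite) (Subgroup.index_dvd_of_le hle)
    rw [index_lineStabU hF hW2 hW] at h1
    omega

include hF in
theorem psu_four_min_index :
    (∀ H : Subgroup (Cfsg.PSU (2 + 2) F q), H ≠ ⊤ → (q + 1) * (q ^ 3 + 1) ≤ H.index) ∧
      ∃ H : Subgroup (Cfsg.PSU (2 + 2) F q), H.index = (q + 1) * (q ^ 3 + 1) := by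
  have hsurj := QuotientGroup.mk'_surjective (Subgroup.center ↥(Cfsg.SU (2 + 2) F q))
  refine ⟨fun H hH => ?_, ?_⟩
  · rw [← Subgroup.index_comap_of_surjective H hsurj]
    refine four_le_index hF _ fun h' => hH (Subgroup.comap_injective hsurj ?_)
    rw [h', Subgroup.comap_top]
  · haveI : Nonempty (TILine F q) := (Nat.card_pos_iff.mp (by rw [card_TILine hF]; positivity)).1
    obtain ⟨W, hW2, hW⟩ := Classical.arbitrary (TILine F q)
    refine ⟨(lineStabU W).map (QuotientGroup.mk' _), ?_⟩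
    rw [Subgroup.index_map_eq _ hsurj (by rw [QuotientGroup.ker_mk']; exact center_le_lineStabU hF W)]
    exact index_lineStabU hF hW2 hW

end CfsgLib.MinIndexPSU
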