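import Cfsg.Agent.MinIndexPSU.FourEq

/-!
A subgroup of `SU_4(2)` of index dividing `64 * 5 * 3` has an element fixing an isotropic point with a non-trivial
eigenvalue.
-/

set_option autoImplicit false
set_option linter.unusedSectionVars false

open scoped Classical

namespace CfsgLib.MinIndexPSU

open Matrix CfsgLib.Unitary CfsgLib.AutPSU CfsgLib.AutPSU.Frame CfsgLib.SchurClassical.Un

/-- The four exponents of a diagonal element. -/
def expo (a : Fin 3 → ZMod 3) : Fin 4 → ZMod 3 := ![a 0, a 1, a 2, -(a 0 + a 1 + a 2)]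

/-- Two equal non-zero exponents. -/
def HasPair (a : Fin 3 → ZMod 3) : Prop := ∃ i j : Fin 4, i ≠ j ∧ expo a i = expo a j ∧ expo a i ≠ 0

theorem pair_of_two : ∀ a b : Fin 3 → ZMod 3, a ≠ 0 → b ≠ 0 → b ≠ a → b ≠ -a →
    HasPair a ∨ HasPair b ∨ HasPair (a + b) ∨ HasPair (a - b) := by
  unfold HasPair
  decide +kernel

theorem expo_add (a b : Fin 3 → ZMod 3) (i : Fin 4) : expo (a + b) i = expo a i + expo b i := by
  fin_cases i <;> simp [expo] <;> ring

variable {F : Type*} [Field F] [Fintype F] (hF : Fintype.card F = 2 ^ 2)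

include hF in
theorem exists_eigen_iso (K : Subgroup ↥(Cfsg.SU (2 + 2) F 2)) (hK : 27 ∣ Nat.card K) :
    ∃ k ∈ K, ∃ (x : Fin (2 + 2) → F) (l : F), x ≠ 0 ∧ Cfsg.hermForm (2 + 2) F 2 x x = 0 ∧ l ≠ 1 ∧
      sv k x = l • x := by
  haveI : Fact (Nat.Prime 3) := ⟨Nat.prime_three⟩
  obtain ⟨z, hz, -, hz1⟩ := CfsgLib.AutPSU.exists_not_fixed hF
  have hz3 : z ^ 3 = 1 := hz
  let w : ZMod 3 → F := fun c => z ^ c.val
  have hw : ∀ c d, w (c + d) = w c * w d := fun c d => by
    simp only [w]; rw [← pow_add, ZMod.val_add, ← pow_eq_pow_mod _ hz3]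
  have hw0 : w 0 = 1 := by simp [w]
  have hwinj : ∀ c, w c = 1 → c = 0 := by
    intro c hc
    by_contra h0
    have hv : c.val = 1 ∨ c.val = 2 := by
      have h1 := ZMod.val_lt c
      have h2 : c.val ≠ 0 := fun e => h0 ((ZMod.val_eq_zero c).1 e)
      omega
    simp only [w] at hc
    rcases hv with e | e <;> rw [e] at hc
    · exact hz1 (by simpa using hc)
    · exact hz1 (by linear_combination hz3 - z * hc)
  have hw3 : ∀ c, w c ^ (2 + 1) = 1 := fun c => by
    simp only [w]; rw [← pow_mul, mul_comm, pow_mul, show z ^ (2 + 1) = 1 from hz, one_pow]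
  have hdet : ∀ a : Fin 3 → ZMod 3, (Matrix.diagonal fun i => w (expo a i)).det = 1 := fun a => by
    rw [Matrix.det_diagonal, Fin.prod_univ_four, ← hw, ← hw, ← hw]
    convert hw0 using 2
    simp [expo]
  let d : (Fin 3 → ZMod 3) → ↥(Cfsg.SU (2 + 2) F 2) := fun a =>
    ⟨⟨Matrix.diagonal fun i => w (expo a i), hdet a⟩, mem_SU.2 (diagonal_preserves _ fun i => hw3 _)⟩
  have hd : ∀ a x i, sv (d a) x i = w (expo a i) * x i := fun a x i => Matrix.mulVec_diagonal _ _ _
  let δ : Multiplicative (Fin 3 → ZMod 3) →* ↥(Cfsg.SU (2 + 2) F 2) :=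
    MonoidHom.mk' (fun a => d a.toAdd) fun a b => sv_ext fun x => funext fun i => by
      rw [sv_mul, hd, hd, hd, toAdd_mul, expo_add, hw, mul_assoc]
  have hδ : Function.Injective δ := by
    refine (injective_iff_map_eq_one δ).2 fun a ha => ?_
    refine toAdd_eq_zero.1 (funext fun i => ?_)
    have h := congrArg (fun g => sv g (fun _ => (1 : F)) (Fin.castSucc i)) ha
    simp only [sv_one] at h
    rw [show δ a = d a.toAdd from rfl, hd, mul_one] at h
    have := hwinj _ h
    fin_cases i <;> simpa [expo] using this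
  set D := δ.range
  have hDcard : Nat.card D = 3 ^ 3 := by
    rw [← Nat.card_congr (MonoidHom.ofInjective hδ).toEquiv]
    simp [Nat.card_eq_fintype_card]
  obtain ⟨P, hDP⟩ := (IsPGroup.of_card hDcard).exists_le_sylow
  have hG : Nat.card ↥(Cfsg.SU (2 + 2) F 2) = 3 ^ 4 * 320 := by
    have h := card_SU hF (2 + 2) (by norm_num)
    simp only [Finset.prod_range_succ, Finset.prod_range_zero, Nat.even_iff] at h
    norm_num at h
    rw [Nat.card_eq_fintype_card]
    omega
  have hP : Nat.card (P : Subgroup ↥(Cfsg.SU (2 + 2) F 2)) = 3 ^ 4 := by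
    rw [Sylow.card_eq_multiplicity, hG, Nat.factorization_mul (by norm_num) (by norm_num), Finsupp.add_apply,
      Nat.Prime.factorization_pow Nat.prime_three, Finsupp.single_eq_same,
      Nat.factorization_eq_zero_of_not_dvd (by norm_num : ¬ 3 ∣ 320), add_zero]
  obtain ⟨S0, hS0⟩ := Sylow.exists_subgroup_card_pow_prime 3 (n := 3) (G := K) (by simpa using hK)
  let S : Subgroup ↥(Cfsg.SU (2 + 2) F 2) := S0.map K.subtype
  have hS : Nat.card S = 3 ^ 3 := by
    rw [← hS0]; exact (Nat.card_congr (S0.equivMapOfInjective _ K.subtype_injective).toEquiv).symm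
  obtain ⟨P', hSP⟩ := (IsPGroup.of_card hS).exists_le_sylow
  obtain ⟨a, ha⟩ := MulAction.exists_smul_eq ↥(Cfsg.SU (2 + 2) F 2) P' P
  let A := conjSub a S
  have hA : Nat.card A = 3 ^ 3 := by
    rw [← hS]; exact (Nat.card_congr (S.equivMapOfInjective _ (MulAut.conj a).injective).toEquiv).symm
  have hAP : A ≤ (P : Subgroup ↥(Cfsg.SU (2 + 2) F 2)) := by
    rw [← ha, Sylow.coe_subgroup_smul]
    exact Subgroup.map_mono hSP
  have hcap : 9 ≤ Nat.card ↥(D ⊓ A) := by
    have h1 : D.relIndex A ≤ D.relIndex (P : Subgroup ↥(Cfsg.SU (2 + 2) F 2)) :=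
      Subgroup.relIndex_le_of_le_right hAP Subgroup.index_ne_zero_of_finite
    have h2 : Nat.card (D.subgroupOf (P : Subgroup ↥(Cfsg.SU (2 + 2) F 2))) *
        D.relIndex (P : Subgroup ↥(Cfsg.SU (2 + 2) F 2)) = 3 ^ 4 :=
      (Subgroup.card_mul_index _).trans hP
    rw [Nat.card_congr (Subgroup.subgroupOfEquivOfLe hDP).toEquiv, hDcard] at h2
    have h3 : Nat.card ((D ⊓ A).subgroupOf A) * (D ⊓ A).relIndex A = 3 ^ 3 := (Subgroup.card_mul_index _).trans hA
    rw [Nat.card_congr (Subgroup.subgroupOfEquivOfLe (inf_le_right : D ⊓ A ≤ A)).toEquiv,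
      Subgroup.inf_relIndex_right] at h3
    have h4 : D.relIndex A ≤ 3 := by omega
    have := Nat.mul_le_mul_left (Nat.card ↥(D ⊓ A)) h4
    omega
  -- two independent exponent vectors
  let X : Set (Fin 3 → ZMod 3) := {c | δ (Multiplicative.ofAdd c) ∈ A}
  have hX : 9 ≤ X.ncard := by
    rw [← Nat.card_coe_set_eq]
    refine hcap.trans ?_
    choose pre hpre using fun g : ↥(D ⊓ A) => MonoidHom.mem_range.1 g.2.1
    refine Nat.card_le_card_of_injective (fun g => (⟨(pre g).toAdd, by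
      show δ (Multiplicative.ofAdd (pre g).toAdd) ∈ A
      rw [ofAdd_toAdd, hpre]; exact g.2.2⟩ : X)) fun g g' e => Subtype.ext ?_
    rw [← hpre g, ← hpre g', show pre g = pre g' from Multiplicative.toAdd.injective (congrArg Subtype.val e)]
  have pick : ∀ t : Set (Fin 3 → ZMod 3), t.ncard < 9 → ∃ c ∈ X, c ∉ t := fun t ht =>
    Set.exists_mem_notMem_of_ncard_lt_ncard (lt_of_lt_of_le ht hX) (Set.toFinite _)
  obtain ⟨c1, hc1, hc10⟩ := pick {0} (by rw [Set.ncard_singleton]; norm_num)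
  obtain ⟨c2, hc2, hc20⟩ := pick {0, c1, -c1} (by
    have h1 := Set.ncard_insert_le (0 : Fin 3 → ZMod 3) {c1, -c1}
    have h2 := Set.ncard_insert_le c1 ({-c1} : Set (Fin 3 → ZMod 3))
    rw [Set.ncard_singleton] at h2
    omega)
  simp only [Set.mem_singleton_iff, Set.mem_insert_iff, not_or] at hc10 hc20
  obtain ⟨c, hc, hpair⟩ : ∃ c ∈ X, HasPair c := by
    rcases pair_of_two c1 c2 hc10 hc20.1 hc20.2.1 hc20.2.2 with h | h | h | h
    · exact ⟨c1, hc1, h⟩
    · exact ⟨c2, hc2, h⟩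
    · refine ⟨_, ?_, h⟩
      show δ (Multiplicative.ofAdd c1 * Multiplicative.ofAdd c2) ∈ A
      rw [map_mul]; exact A.mul_mem hc1 hc2
    · refine ⟨_, ?_, h⟩
      show δ (Multiplicative.ofAdd c1 / Multiplicative.ofAdd c2) ∈ A
      rw [map_div]; exact A.div_mem hc1 hc2
  obtain ⟨i, j, hij, he, hne⟩ := hpair
  set x : Fin (2 + 2) → F := Pi.single i 1 + Pi.single j 1
  have hk : a⁻¹ * d c * a ∈ K := by
    obtain ⟨s, -, hs⟩ := mem_conjSub.1 hc
    have hs' : ((s : K) : ↥(Cfsg.SU (2 + 2) F 2)) = a⁻¹ * d c * a := hs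
    exact hs' ▸ s.2
  refine ⟨_, hk, sv a⁻¹ x, w (expo c i), fun e => ?_, ?_, fun e => hne (hwinj _ e), ?_⟩
  · have h := congrArg (fun y => sv a y i) e
    rw [sv_sv_inv] at h
    simp [x, hij.symm, show sv a (0 : Fin (2 + 2) → F) = 0 from Matrix.mulVec_zero _] at h
  · rw [sv_herm]
    simp only [x, herm_add_left, herm_add_right hF, herm_single_single hF, if_neg hij, if_neg hij.symm, if_true]
    linear_combination two_zero hF
  · rw [sv_mul, sv_mul, sv_sv_inv, ← sv_smul]
    congr 1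
    funext k
    rw [hd, Pi.smul_apply, smul_eq_mul]
    rcases eq_or_ne k i with rfl | hki
    · rfl
    rcases eq_or_ne k j with rfl | hkj
    · rw [← he]
    simp [x, hki, hkj]

end CfsgLib.MinIndexPSU
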