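import Cfsg.Agent.MinIndexPSU.Count
import Cfsg.Agent.SchurClassical.UnitDefining
import Cfsg.Agent.SchurClassical.UnitGeom

/-!
At a bad point of a subgroup of small index the whole of `SU_m` lifts into a conjugate of the subgroup.
-/

set_option autoImplicit false
set_option linter.unusedSectionVars false

open scoped Classical

namespace CfsgLib.MinIndexPSU

open Matrix CfsgLib.Unitary CfsgLib.AutPSU CfsgLib.AutPSU.Frame CfsgLib.SchurClassical.Un
open scoped commutatorElement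

variable {F : Type*} [Field F] [Fintype F] {n m q : ℕ} (hF : Fintype.card F = q ^ 2)

include hF in
/-- A vector orthogonal to all isotropic vectors vanishes. -/
theorem eq_zero_of_perp_iso (hn : 2 ≤ n) {x : Fin n → F}
    (h : ∀ y, Cfsg.hermForm n F q y y = 0 → Cfsg.hermForm n F q y x = 0) : x = 0 := by
  by_contra hx0
  by_cases hx : Cfsg.hermForm n F q x x = 0
  · obtain ⟨f, -, hf, hxf⟩ := exists_partner hF (isNondeg_top hF) trivial hx0 hx
    exact one_ne_zero (hxf.symm.trans (herm_eq_zero_comm hF (h f hf)))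
  obtain ⟨l, hl⟩ := exists_norm_eq hF (herm_self_fixed hF x)
  have hl0 : l ≠ 0 := fun e => hx (by rw [← hl, e, zero_pow (Nat.succ_ne_zero q)])
  have hu : Cfsg.hermForm n F q (l⁻¹ • x) (l⁻¹ • x) = 1 := by
    rw [herm_self_smul, inv_pow, hl, inv_mul_cancel₀ hx]
  set W := perpIn q (⊤ : Submodule F (Fin n → F)) (l⁻¹ • x)
  have hfr : Module.finrank F W + 1 = Module.finrank F (⊤ : Submodule F (Fin n → F)) :=
    finrank_perpIn hF (Submodule.mem_top) hu
  rw [finrank_top, Module.finrank_fintype_fun_eq_card, Fintype.card_fin] at hfr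
  have hWpos : 0 < Module.finrank F W := by omega
  obtain ⟨w, hw, hw1, -⟩ := exists_orthonorm_next hF (W := W) (isNondeg_perpIn hF (isNondeg_top hF) Submodule.mem_top hu)
    (f := fun i : Fin 0 => Fin.elim0 i) (fun i => Fin.elim0 i) (fun i => Fin.elim0 i) hWpos
  have hwx : Cfsg.hermForm n F q w x = 0 := by
    have hw' := (mem_perpIn.1 hw).2
    rw [herm_smul_right] at hw'
    exact (mul_eq_zero.1 hw').resolve_left (pow_ne_zero _ (inv_ne_zero hl0))
  obtain ⟨s, hs⟩ := exists_iso_add hF (show Cfsg.hermForm n F q w w ≠ 0 by rw [hw1]; exact one_ne_zero) x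
  have := h _ hs
  rw [herm_add_left, herm_smul_left, hwx, mul_zero, add_zero] at this
  exact hx this

variable (T : Frame F m q)

local notation "Vm" => Fin m → F
local notation "Vn" => Fin (m + 2) → F
set_option quotPrecheck false in
local notation "SUm" => ↥(Cfsg.SU m F q)

variable {K : Subgroup ↥(Cfsg.SU (m + 2) F q)}

theorem ctr_emb_comm {z : F} (hz : HCond q (0 : Vm) z) (a : SUm) :
    Commute (T.heis hF 0 z hz) (emb hF T a) := by
  obtain ⟨hc', e⟩ := emb_conj_heis hF T a hz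
  rw [mul_inv_eq_iff_eq_mul] at e
  show _ = _
  rw [e, T.heis_congr hF hc' hz (Matrix.mulVec_zero _) rfl]

theorem heis_emb_mul {w w' : Vm} {c c' : F} (hc : HCond q w c) (hc' : HCond q w' c') (a b : SUm) :
    ∃ (d : F) (hd : HCond q (w + sv a w') d),
      T.heis hF w c hc * emb hF T a * (T.heis hF w' c' hc' * emb hF T b) =
        T.heis hF (w + sv a w') d hd * emb hF T (a * b) := by
  obtain ⟨hc'', e⟩ := emb_conj_heis hF T a hc'
  rw [mul_inv_eq_iff_eq_mul] at e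
  refine ⟨_, hcond_mul hF hc hc'', ?_⟩
  rw [map_mul, ← T.heis_mul hF hc hc'', mul_assoc, ← mul_assoc (emb hF T a), e]
  group

include hF in
theorem w_unique (hr0 : ∀ r ∈ rbar hF T K, r = 0) {w w' : Vm} {c c' : F} {hc : HCond q w c}
    {hc' : HCond q w' c'} {g : ↥(Cfsg.SU (m + 2) F q)} (h : T.heis hF w c hc * g ∈ K)
    (h' : T.heis hF w' c' hc' * g ∈ K) : w = w' := by
  have hx := K.mul_mem h (K.inv_mem h')
  rw [_root_.mul_inv_rev, mul_assoc, mul_inv_cancel_left, heis_inv hF T hc', T.heis_mul hF hc (hcond_neg hF hc')] at hx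
  exact add_neg_eq_zero.1 (hr0 _ ⟨_, _, hx⟩)

include hF in
theorem exists_rep (htop : kbar hF T K = ⊤) (a : SUm) :
    ∃ (w : Vm) (c : F) (hc : HCond q w c), T.heis hF w c hc * emb hF T a ∈ K :=
  (mem_kbar hF T).1 (htop ▸ trivial)

theorem commutator_of_central {H : Type*} [Group H] {a b x y : H} (hab : Commute a b) (hax : Commute a x)
    (hay : Commute a y) (hbx : Commute b x) (hby : Commute b y) :
    a * x * (b * y) * (a * x)⁻¹ * (b * y)⁻¹ = x * y * x⁻¹ * y⁻¹ := by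
  have hc : Commute a (b * (x * y * x⁻¹)) := hab.mul_right ((hax.mul_right hay).mul_right hax.inv_right)
  have hd : Commute b (x * y * x⁻¹ * y⁻¹) := ((hbx.mul_right hby).mul_right hbx.inv_right).mul_right hby.inv_right
  calc a * x * (b * y) * (a * x)⁻¹ * (b * y)⁻¹
      = a * ((x * b) * y * x⁻¹) * a⁻¹ * (y⁻¹ * b⁻¹) := by group
    _ = a * (b * (x * y * x⁻¹)) * a⁻¹ * (y⁻¹ * b⁻¹) := by rw [← hbx.eq]; group
    _ = b * (x * y * x⁻¹) * a * a⁻¹ * (y⁻¹ * b⁻¹) := by rw [hc.eq]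
    _ = b * (x * y * x⁻¹ * y⁻¹) * b⁻¹ := by group
    _ = _ := by rw [hd.eq, mul_inv_cancel_right]

include hF in
/-- A perfect small group lifts once it lifts modulo the root group. -/
theorem emb_mem_of_ctr (hm : 3 ≤ m) (h32 : ¬ (m = 3 ∧ q = 2))
    (h : ∀ a : SUm, ∃ (c : F) (hc : HCond q (0 : Vm) c), T.heis hF 0 c hc * emb hF T a ∈ K) (a : SUm) :
    emb hF T a ∈ K := by
  suffices hle : commutator SUm ≤ K.comap (emb hF T) from
    hle (commutator_SU_eq_top hF hm h32 ▸ Subgroup.mem_top a)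
  refine Subgroup.commutator_le.2 fun x _ y _ => ?_
  obtain ⟨c, hc, hx⟩ := h x
  obtain ⟨d, hd, hy⟩ := h y
  rw [Subgroup.mem_comap, map_commutatorElement, commutatorElement_def,
    ← commutator_of_central (a := T.heis hF 0 c hc) (b := T.heis hF 0 d hd) ?_
      (ctr_emb_comm hF T hc x) (ctr_emb_comm hF T hc y) (ctr_emb_comm hF T hd x) (ctr_emb_comm hF T hd y)]
  · exact K.mul_mem (K.mul_mem (K.mul_mem hx hy) (K.inv_mem hx)) (K.inv_mem hy)
  · show _ = _
    rw [T.heis_mul hF, T.heis_mul hF]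
    exact T.heis_congr hF _ _ rfl (by ring)

/-- The whole of `SU_m` lifts into `K` up to root elements at `e`. -/
def CtrLift (K : Subgroup ↥(Cfsg.SU (m + 2) F q)) : Prop :=
  ∀ a : SUm, ∃ (c : F) (hc : HCond q (0 : Vm) c), T.heis hF 0 c hc * emb hF T a ∈ K

include hF in
/-- A transvection of `SU_3(2)` is a square. -/
theorem exists_sq_transv (h32 : m = 3 ∧ q = 2) {v : Vm} {c : F} (hv : Cfsg.hermForm m F q v v = 0)
    (hc : c + c ^ q = 0) : ∃ g : SUm, g * g = transvSU hF v c hv hc := by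
  obtain ⟨rfl, rfl⟩ := h32
  rcases eq_or_ne c 0 with hc0 | hc0
  · exact ⟨1, by rw [transvSU_eq_one hF hv hc (Or.inl hc0), one_mul]⟩
  rcases eq_or_ne v 0 with hv0 | hv0
  · exact ⟨1, by rw [transvSU_eq_one hF hv hc (Or.inr hv0), one_mul]⟩
  have h2 : (2 : F) = 0 := two_zero hF
  have hc1 : c = 1 := (mem_prime_of_fixed hF (show c ^ 2 = c by linear_combination hc - c * h2)).resolve_left hc0
  subst hc1
  obtain ⟨T1⟩ := exists_frame (F := F) (m := 1) (q := 2) hF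
  obtain ⟨A, hA⟩ := exists_SU_map_isotropic (n := 3) hF le_rfl (T1.e_ne_zero hF) hv0 T1.he hv
  obtain ⟨w, hw⟩ : ∃ w : Fin 1 → F, w = fun _ => 1 := ⟨_, rfl⟩
  obtain ⟨cw, hcw⟩ := exists_hcond hF w
  have hww : Cfsg.hermForm 1 F 2 w w = 1 := by simp [hw, Cfsg.hermForm]
  have hw2 : w + w = 0 := by rw [← two_smul F w, h2, zero_smul]
  refine ⟨A * T1.heis hF w cw hcw * A⁻¹, ?_⟩
  have h1 : HCond 2 (0 : Fin 1 → F) (1 : F) := hcond_zero_iff.2 hc
  have e : T1.heis hF w cw hcw * T1.heis hF w cw hcw = transvSU hF T1.e 1 T1.he hc := by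
    rw [T1.heis_mul hF hcw hcw, T1.transvSU_e_eq hF hc h1]
    exact T1.heis_congr hF _ _ hw2 (by rw [hww]; linear_combination (cw - 1) * h2)
  show A * T1.heis hF w cw hcw * A⁻¹ * (A * T1.heis hF w cw hcw * A⁻¹) = _
  rw [show A * T1.heis hF w cw hcw * A⁻¹ * (A * T1.heis hF w cw hcw * A⁻¹) =
    A * (T1.heis hF w cw hcw * T1.heis hF w cw hcw) * A⁻¹ by group, e, conj_transvSU]
  exact transvSU_congr hF _ hc hv hc fun x => by rw [hA]

include hF in
theorem transv_mem_of_ctr (hm : 3 ≤ m) (h : CtrLift hF T K) {v : Vm} {c : F} (hv : Cfsg.hermForm m F q v v = 0)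
    (hc : c + c ^ q = 0) : emb hF T (transvSU hF v c hv hc) ∈ K := by
  by_cases h32 : m = 3 ∧ q = 2
  · obtain ⟨g, hg⟩ := exists_sq_transv hF h32 hv hc
    obtain ⟨z, hz, hk⟩ := h g
    rw [← hg, map_mul]
    have hh := K.mul_mem hk hk
    have hcomm := (ctr_emb_comm hF T hz g).eq
    have hz1 : T.heis hF 0 z hz * T.heis hF 0 z hz = 1 := by
      have h2 : (2 : F) = 0 := by obtain ⟨-, rfl⟩ := h32; exact two_zero hF
      rw [T.heis_mul hF hz hz, T.heis_congr hF _ (hcond_zero_iff.2 (by rw [zero_add, zero_pow_q hF]))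
        (add_zero (0 : Vm)) (c' := 0) (by rw [herm_zero_left]; linear_combination z * h2)]
      exact heis_zero hF T _ rfl
    rwa [show T.heis hF 0 z hz * emb hF T g * (T.heis hF 0 z hz * emb hF T g) =
      T.heis hF 0 z hz * (emb hF T g * T.heis hF 0 z hz) * emb hF T g by group, ← hcomm, ← mul_assoc, hz1, one_mul] at hh
  · exact emb_mem_of_ctr hF T hm h32 h _

theorem tor_mul_emb {l : F} {R : Matrix (Fin m) (Fin m) F} (h : Adm q l R) (a : SUm) :
    ∃ h', T.tor hF h * emb hF T a =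
      T.tor hF (l := l) (R := R * ((a : Matrix.SpecialLinearGroup (Fin m) F) : Matrix (Fin m) (Fin m) F)) h' := by
  have h' : Adm q l (R * ((a : Matrix.SpecialLinearGroup (Fin m) F) : Matrix (Fin m) (Fin m) F)) := by
    refine ⟨h.1, fun u v => ?_, ?_⟩
    · rw [← Matrix.mulVec_mulVec, ← Matrix.mulVec_mulVec, h.2.1]; exact a.2 u v
    · rw [Matrix.det_mul, a.1.2, mul_one]; exact h.2.2
  refine ⟨h', ?_⟩
  have hM : ∀ w, sv a w = ((a : Matrix.SpecialLinearGroup (Fin m) F) : Matrix (Fin m) (Fin m) F) *ᵥ w := fun _ => rfl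
  revert h' hM
  generalize ((a : Matrix.SpecialLinearGroup (Fin m) F) : Matrix (Fin m) (Fin m) F) = M
  intro h' hM
  refine T.sv_ext_frame hF ?_ ?_ fun w => ?_
  · rw [sv_mul, emb_e, T.sv_tor hF, T.sv_tor hF, T.lin_e hF, T.lin_e hF]
  · rw [sv_mul, emb_f, T.sv_tor hF, T.sv_tor hF, T.lin_f hF, T.lin_f hF]
  · rw [sv_mul, emb_eta, T.sv_tor hF, T.sv_tor hF, T.lin_eta, T.lin_eta, ← Matrix.mulVec_mulVec, hM]

theorem tor_comm_scalar {l l' ρ : F} {R : Matrix (Fin m) (Fin m) F} (h0 : Adm q l (ρ • (1 : Matrix (Fin m) (Fin m) F)))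
    (h : Adm q l' R) : T.tor hF h0 * T.tor hF h = T.tor hF h * T.tor hF h0 := by
  refine T.sv_ext_frame hF ?_ ?_ fun w => ?_ <;> simp only [sv_mul, T.sv_tor hF]
  · simp only [T.lin_e hF, map_smul, smul_smul, mul_comm]
  · simp only [T.lin_f hF, map_smul, smul_smul, mul_comm]
  · simp only [T.lin_eta, Matrix.smul_mulVec, Matrix.one_mulVec, Matrix.mulVec_smul]

include hF in
/-- A scalar element without radical part forces all radical parts to vanish. -/
theorem w_eq_zero_of_scalar (hr0 : ∀ r ∈ rbar hF T K, r = 0) {l ρ c0 : F} {hc0 : HCond q (0 : Vm) c0}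
    {hA : Adm q l (ρ • (1 : Matrix (Fin m) (Fin m) F))} (hne : l ^ q * ρ ≠ 1)
    (hk0 : T.heis hF 0 c0 hc0 * T.tor hF hA ∈ K) {l' : F} {R : Matrix (Fin m) (Fin m) F} {h : Adm q l' R}
    {w : Vm} {c : F} {hc : HCond q w c} (hk : T.heis hF w c hc * T.tor hF h ∈ K) : w = 0 := by
  have hx := K.mul_mem (K.mul_mem (K.mul_mem hk0 hk) (K.inv_mem hk0)) (K.inv_mem hk)
  obtain ⟨h1, e1⟩ : ∃ h1, T.tor hF hA * T.heis hF w c hc * (T.tor hF hA)⁻¹ =
      T.heis hF (act q l (ρ • (1 : Matrix (Fin m) (Fin m) F)) w) (l ^ (q + 1) * c) h1 := ⟨_, T.conj_tor_heis hF hA hc⟩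
  obtain ⟨h2, e2⟩ : ∃ h2, T.tor hF h * T.heis hF 0 c0 hc0 * (T.tor hF h)⁻¹ =
      T.heis hF (act q l' R (0 : Vm)) (l' ^ (q + 1) * c0) h2 := ⟨_, T.conj_tor_heis hF h hc0⟩
  set Ht := T.tor hF h
  set H0 := T.tor hF hA
  set z := T.heis hF 0 c0 hc0
  set u := T.heis hF w c hc
  have hcomm : H0 * Ht = Ht * H0 := tor_comm_scalar hF T hA h
  rw [show z * H0 * (u * Ht) * (z * H0)⁻¹ * (u * Ht)⁻¹ =
      z * (H0 * u * H0⁻¹) * ((H0 * Ht) * H0⁻¹ * z⁻¹ * Ht⁻¹) * u⁻¹ by group, hcomm, mul_inv_cancel_right,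
    show Ht * z⁻¹ * Ht⁻¹ = (Ht * z * Ht⁻¹)⁻¹ by group, e1, e2] at hx
  simp only [z, u] at hx
  rw [heis_inv hF T h2, heis_inv hF T hc, T.heis_mul hF hc0 h1, T.heis_mul hF _ (hcond_neg hF h2),
    T.heis_mul hF _ (hcond_neg hF hc)] at hx
  have e := hr0 _ ⟨_, _, hx⟩
  have hw : (l ^ q * ρ - 1) • w = 0 := by
    rw [sub_smul, one_smul, ← e]
    simp only [act, Matrix.smul_mulVec, Matrix.one_mulVec, Matrix.mulVec_zero, smul_zero, smul_smul]
    abel
  exact (smul_eq_zero.1 hw).resolve_left (sub_ne_zero.2 hne)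

include hF in
theorem emb_eq_tor (a : SUm) : emb hF T a = T.tor hF (adm_smat hF a) := rfl

include hF in
/-- Conjugating by a radical element shifts the radical part. -/
theorem shift_mem {x w : Vm} {cx c : F} {hx : HCond q x cx} {hc : HCond q w c} {l : F}
    {R : Matrix (Fin m) (Fin m) F} {h : Adm q l R} (hk : T.heis hF w c hc * T.tor hF h ∈ K) :
    ∃ (d : F) (hd : HCond q (x + w - act q l R x) d),
      T.heis hF (x + w - act q l R x) d hd * T.tor hF h ∈ conjSub (T.heis hF x cx hx) K := by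
  obtain ⟨h1, e1⟩ : ∃ h1, T.tor hF h * T.heis hF (-x) (cx ^ q) (hcond_neg hF hx) * (T.tor hF h)⁻¹ =
      T.heis hF (act q l R (-x)) (l ^ (q + 1) * cx ^ q) h1 := ⟨_, T.conj_tor_heis hF h (hcond_neg hF hx)⟩
  have hmem : T.heis hF x cx hx * (T.heis hF w c hc * T.tor hF h) * (T.heis hF x cx hx)⁻¹ ∈
      conjSub (T.heis hF x cx hx) K := by
    rw [mem_conjSub]; simpa [mul_assoc] using hk
  rw [heis_inv hF T hx, show T.heis hF x cx hx * (T.heis hF w c hc * T.tor hF h) *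
      T.heis hF (-x) (cx ^ q) (hcond_neg hF hx) = T.heis hF x cx hx * T.heis hF w c hc *
      (T.tor hF h * T.heis hF (-x) (cx ^ q) (hcond_neg hF hx) * (T.tor hF h)⁻¹) * T.tor hF h by group,
    e1, T.heis_mul hF hx hc, T.heis_mul hF _ h1] at hmem
  have key : ∀ {y : Vm} {d : F} {hd : HCond q y d}, y = x + w - act q l R x →
      T.heis hF y d hd * T.tor hF h ∈ conjSub (T.heis hF x cx hx) K →
      ∃ (d : F) (hd : HCond q (x + w - act q l R x) d),
        T.heis hF (x + w - act q l R x) d hd * T.tor hF h ∈ conjSub (T.heis hF x cx hx) K := by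
    rintro y d hd rfl hh
    exact ⟨d, hd, hh⟩
  refine key ?_ hmem
  rw [act, act, Matrix.mulVec_neg, smul_neg]
  abel

theorem bad_conjSub_heis {x : Vm} {cx : F} (hx : HCond q x cx) (hbad : ¬ Good hF K T.e) :
    ¬ Good hF (conjSub (T.heis hF x cx hx) K) T.e := fun h => hbad ((good_conjSub hF).1 (by
  have e : sv (T.heis hF x cx hx) T.e = T.e := by rw [T.sv_heis hF, T.heisLin_e hF]
  exact e.symm ▸ h))

include hF in
/-- The lift when a scalar torus element moves the radical. -/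
theorem exists_lifted_scalar (hm : 3 ≤ m) (hq : 3 ≤ q ∨ m % 3 ≠ 1) (h42 : ¬ (m = 4 ∧ q = 2))
    (hbad : ¬ Good hF K T.e) (hs : Small K) :
    ∃ K', Small K' ∧ ¬ Good hF K' T.e ∧ CtrLift hF T K' ∧
      ∀ (l : F) (R : Matrix (Fin m) (Fin m) F) (h : Adm q l R) (w : Vm) (c : F) (hc : HCond q w c),
        T.heis hF w c hc * T.tor hF h ∈ K' → w = 0 := by
  obtain ⟨l, ρ, hA, hne⟩ := exists_scalar (m := m) hF hq
  obtain ⟨k, hk, hke⟩ := (scal_eq_top hF T hm h42 hbad hs).2 (Units.mk0 l hA.1)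
  obtain ⟨w, c, hc, R, hR, e⟩ := exists_line_form hF T hA.1 hke
  subst e
  -- correct the linear part
  obtain ⟨a, ha⟩ : ∃ a : SUm, R * ((a : Matrix.SpecialLinearGroup (Fin m) F) : Matrix (Fin m) (Fin m) F) =
      ρ • (1 : Matrix (Fin m) (Fin m) F) := by
    have hρ : ρ ^ m = R.det := by
      have h1 := hA.2.2
      rw [Matrix.det_smul, Fintype.card_fin, Matrix.det_one, mul_one] at h1
      exact mul_left_cancel₀ (left_ne_zero_of_mul_eq_one h1) (h1.trans hR.2.2.symm)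
    have hd0 : R.det ≠ 0 := right_ne_zero_of_mul_eq_one hR.2.2
    have hRi : R * R⁻¹ = 1 := Matrix.mul_nonsing_inv R (isUnit_iff_ne_zero.2 hd0)
    have hP : ∀ u v, Cfsg.hermForm m F q (R⁻¹ *ᵥ u) (R⁻¹ *ᵥ v) = Cfsg.hermForm m F q u v := fun u v => by
      conv_rhs => rw [show u = R *ᵥ (R⁻¹ *ᵥ u) by rw [Matrix.mulVec_mulVec, hRi, Matrix.one_mulVec],
        show v = R *ᵥ (R⁻¹ *ᵥ v) by rw [Matrix.mulVec_mulVec, hRi, Matrix.one_mulVec]]
      rw [hR.2.1]
    refine ⟨⟨⟨ρ • R⁻¹, ?_⟩, mem_SU.2 fun u v => ?_⟩, ?_⟩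
    · rw [Matrix.det_smul, Fintype.card_fin, hρ, Matrix.det_nonsing_inv, Ring.inverse_eq_inv', mul_inv_cancel₀ hd0]
    · have h1 := hA.2.1 (R⁻¹ *ᵥ u) (R⁻¹ *ᵥ v)
      rw [hP] at h1
      refine Eq.trans ?_ h1
      simp only [Matrix.smul_mulVec, Matrix.one_mulVec]
    · show R * (ρ • R⁻¹) = _
      rw [Matrix.mul_smul, hRi]
  have htop := kbar_eq_top hF T hm h42 hbad hs
  obtain ⟨w2, c2, hc2, hk2⟩ := exists_rep hF T htop a
  obtain ⟨h', he'⟩ := tor_mul_emb hF T hR a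
  have hk' := K.mul_mem hk hk2
  obtain ⟨h3, e3⟩ : ∃ h3, T.tor hF hR * T.heis hF w2 c2 hc2 * (T.tor hF hR)⁻¹ =
      T.heis hF (act q l R w2) (l ^ (q + 1) * c2) h3 := ⟨_, T.conj_tor_heis hF hR hc2⟩
  rw [show T.heis hF w c hc * T.tor hF hR * (T.heis hF w2 c2 hc2 * emb hF T a) =
    T.heis hF w c hc * (T.tor hF hR * T.heis hF w2 c2 hc2 * (T.tor hF hR)⁻¹) * (T.tor hF hR * emb hF T a) by group,
    e3, he', T.heis_mul hF hc h3] at hk'
  set w0 := w + act q l R w2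
  obtain ⟨cx, hcx⟩ := exists_hcond hF ((l ^ q * ρ - 1)⁻¹ • w0)
  have hA' : Adm q l (R * ((a : Matrix.SpecialLinearGroup (Fin m) F) : Matrix (Fin m) (Fin m) F)) := h'
  obtain ⟨d, hd, hk0⟩ := shift_mem hF T (hx := hcx) hk'
  set K' := conjSub (T.heis hF ((l ^ q * ρ - 1)⁻¹ • w0) cx hcx) K
  have hne' : l ^ q * ρ - 1 ≠ 0 := sub_ne_zero.2 hne
  have hzero : (l ^ q * ρ - 1)⁻¹ • w0 + w0 -
      act q l (R * ((a : Matrix.SpecialLinearGroup (Fin m) F) : Matrix (Fin m) (Fin m) F))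
        ((l ^ q * ρ - 1)⁻¹ • w0) = 0 := by
    rw [ha, act, Matrix.smul_mulVec, Matrix.one_mulVec]
    match_scalars
    all_goals linear_combination -(inv_mul_cancel₀ hne')
  have hbad' : ¬ Good hF K' T.e := bad_conjSub_heis hF T hcx hbad
  have hs' : Small K' := hs.conjSub _
  have key : ∀ {y : Vm} {R' : Matrix (Fin m) (Fin m) F} {hd : HCond q y d} {hR' : Adm q l R'}, y = 0 →
      R' = ρ • (1 : Matrix (Fin m) (Fin m) F) → T.heis hF y d hd * T.tor hF hR' ∈ K' →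
      ∃ hd0 : HCond q (0 : Vm) d, T.heis hF 0 d hd0 * T.tor hF hA ∈ K' := by
    rintro y R' hd hR' rfl rfl hh
    exact ⟨hd, hh⟩
  obtain ⟨hd0, hk00⟩ := key hzero ha hk0
  have hr0 := rbar_eq_zero hF T hm h42 hbad' hs'
  have hw : ∀ (l : F) (R : Matrix (Fin m) (Fin m) F) (h : Adm q l R) (w : Vm) (c : F) (hc : HCond q w c),
      T.heis hF w c hc * T.tor hF h ∈ K' → w = 0 := fun _ _ _ _ _ _ hh => w_eq_zero_of_scalar hF T hr0 hne hk00 hh
  refine ⟨K', hs', hbad', fun x => ?_, hw⟩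
  obtain ⟨wx, c', hc', hx⟩ := exists_rep hF T (kbar_eq_top hF T hm h42 hbad' hs') x
  have hwx := hw _ _ _ _ _ _ (emb_eq_tor hF T x ▸ hx)
  subst hwx
  exact ⟨c', hc', hx⟩

end CfsgLib.MinIndexPSU
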