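import Cfsg.Agent.MinIndexPSU.Lift

/-!
The lift of `SU_m(2)` when no scalar torus element moves the radical (`m ≡ 1` mod 3, `m ≥ 7`).
-/

set_option autoImplicit false
set_option linter.unusedSectionVars false

open scoped Classical

namespace CfsgLib.MinIndexPSU

open Matrix CfsgLib.Unitary CfsgLib.AutPSU CfsgLib.AutPSU.Frame CfsgLib.SchurClassical.Un

section Rep

variable {F : Type*} [Field F] [Fintype F] {m q : ℕ} (hF : Fintype.card F = q ^ 2) (T : Frame F m q)

local notation "Vm" => Fin m → F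
set_option quotPrecheck false in
local notation "SUm" => ↥(Cfsg.SU m F q)

/-- `a` lifts into `K` with radical part `w`. -/
def Rep (K : Subgroup ↥(Cfsg.SU (m + 2) F q)) (a : SUm) (w : Vm) : Prop :=
  ∃ (c : F) (hc : HCond q w c), T.heis hF w c hc * emb hF T a ∈ K

variable {hF T} {K : Subgroup ↥(Cfsg.SU (m + 2) F q)}

theorem Rep.mul {a b : SUm} {w w' : Vm} (h : Rep hF T K a w) (h' : Rep hF T K b w') :
    Rep hF T K (a * b) (w + sv a w') := by
  obtain ⟨c, hc, h⟩ := h
  obtain ⟨c', hc', h'⟩ := h'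
  obtain ⟨d, hd, e⟩ := heis_emb_mul hF T hc hc' a b
  exact ⟨d, hd, e ▸ K.mul_mem h h'⟩

theorem Rep.one : Rep hF T K 1 0 :=
  ⟨0, hcond_zero_iff.2 (by rw [zero_add, zero_pow_q hF]), by
    rw [map_one, mul_one, heis_zero hF T _ rfl]; exact K.one_mem⟩

theorem Rep.uniq (hr0 : ∀ r ∈ rbar hF T K, r = 0) {a : SUm} {w w' : Vm} (h : Rep hF T K a w)
    (h' : Rep hF T K a w') : w = w' := by
  obtain ⟨c, hc, h⟩ := h
  obtain ⟨c', hc', h'⟩ := h'
  exact w_unique hF T hr0 h h'

theorem Rep.inv (hr0 : ∀ r ∈ rbar hF T K, r = 0) {a : SUm} (h : Rep hF T K a 0) : Rep hF T K a⁻¹ 0 := by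
  obtain ⟨c, hc, h⟩ := h
  refine ⟨c ^ q, (neg_zero (G := Vm)) ▸ hcond_neg hF hc, ?_⟩
  have h' := K.inv_mem h
  obtain ⟨hc'', e⟩ := emb_conj_heis hF T a⁻¹ (hcond_neg hF hc)
  rw [_root_.mul_inv_rev, heis_inv hF T hc, ← map_inv] at h'
  rw [show emb hF T a⁻¹ * T.heis hF (-0) (c ^ q) (hcond_neg hF hc) =
    emb hF T a⁻¹ * T.heis hF (-0) (c ^ q) (hcond_neg hF hc) * (emb hF T a⁻¹)⁻¹ * emb hF T a⁻¹ by group, e,
    T.heis_congr hF hc'' ((neg_zero (G := Vm)) ▸ hcond_neg hF hc) (by rw [neg_zero]; exact Matrix.mulVec_zero _) rfl] at h'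
  exact h'

theorem Rep.shift {a : SUm} {w x : Vm} {cx : F} {hx : HCond q x cx} (h : Rep hF T K a w) :
    Rep hF T (conjSub (T.heis hF x cx hx) K) a (x + w - sv a x) := by
  obtain ⟨c, hc, h⟩ := h
  obtain ⟨d, hd, h'⟩ := shift_mem hF T (hx := hx) (show T.heis hF w c hc * T.tor hF (adm_smat hF a) ∈ K from h)
  have e : act q (1 : F) ((a : Matrix.SpecialLinearGroup (Fin m) F) : Matrix (Fin m) (Fin m) F) x = sv a x := by
    rw [act, one_pow, one_smul]; rfl
  have key : ∀ {y : Vm} {d : F} {hd : HCond q y d}, y = x + w - sv a x →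
      T.heis hF y d hd * emb hF T a ∈ conjSub (T.heis hF x cx hx) K →
      Rep hF T (conjSub (T.heis hF x cx hx) K) a (x + w - sv a x) := by
    rintro y d hd rfl hh
    exact ⟨d, hd, hh⟩
  exact key (by rw [e]) h'

/-- Elements lifting without radical part. -/
def repSub (hr0 : ∀ r ∈ rbar hF T K, r = 0) : Subgroup SUm where
  carrier := {a | Rep hF T K a 0}
  one_mem' := Rep.one
  mul_mem' := fun {a b} ha hb => by
    have h := ha.mul hb
    rwa [show sv a (0 : Vm) = 0 from Matrix.mulVec_zero _, add_zero] at h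
  inv_mem' := fun ha => ha.inv hr0

end Rep

section Two

variable {F : Type*} [Field F] [Fintype F] (hF : Fintype.card F = 2 ^ 2) {k : ℕ}

local notation "H[" u "," v "]" => Cfsg.hermForm _ F 2 u v

include hF in
theorem two_eq_zero : (2 : F) = 0 := by
  have h : ((Fintype.card F : ℕ) : F) = 0 := FiniteField.cast_card_eq_zero F
  rw [hF] at h
  push_cast at h
  exact eq_zero_of_pow_eq_zero (n := 2) (by linear_combination h)

include hF in
theorem cube_eq_one {l : F} (hl : l ≠ 0) : l ^ 3 = 1 := by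
  have := FiniteField.pow_card_sub_one_eq_one l hl
  rwa [hF] at this

include hF in
theorem one_trace : (1 : F) + 1 ^ 2 = 0 := by rw [one_pow, one_add_one_eq_two, two_eq_zero hF]

/-- The transvection of centre `v`. -/
abbrev tau {n : ℕ} (v : Fin n → F) (hv : H[v, v] = 0) : ↥(Cfsg.SU n F 2) := transvSU hF v 1 hv (one_trace hF)

theorem sv_tau {n : ℕ} (v : Fin n → F) (hv : H[v, v] = 0) (x : Fin n → F) :
    sv (tau hF v hv) x = x + H[x, v] • v := by rw [sv_transvSU, one_mul]

theorem tau_congr {n : ℕ} {v v' : Fin n → F} {hv : H[v, v] = 0} (hv' : H[v', v'] = 0) (h : v = v') :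
    tau hF v hv = tau hF v' hv' := by subst h; rfl

theorem tau_smul {n : ℕ} {v : Fin n → F} (hv : H[v, v] = 0) {l : F} (hl : l ≠ 0) (hlv : H[l • v, l • v] = 0) :
    tau hF (l • v) hlv = tau hF v hv := by
  refine sv_ext fun x => ?_
  rw [sv_tau, sv_tau, herm_smul_right, smul_smul, show l ^ 2 * H[x, v] * l = H[x, v] * l ^ 3 by ring,
    cube_eq_one hF hl, mul_one]

theorem tau_sq {n : ℕ} (v : Fin n → F) (hv : H[v, v] = 0) : tau hF v hv * tau hF v hv = 1 := by
  refine sv_ext fun x => ?_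
  rw [sv_mul, sv_tau, sv_tau, sv_one, herm_add_left, herm_smul_left, hv, mul_zero, add_zero, add_assoc,
    ← two_smul F (H[x, v] • v), two_eq_zero hF, zero_smul, add_zero]

theorem tau_conj {n : ℕ} {v u : Fin n → F} (hv : H[v, v] = 0) (hu : H[u, u] = 0) (h : H[v, u] = 1) :
    ∃ hs, tau hF v hv * tau hF u hu * tau hF v hv = tau hF (u + v) hs := by
  have hs : H[u + v, u + v] = 0 := by
    rw [herm_add_left, herm_add_right hF, herm_add_right hF, hu, hv, h, herm_conj hF, h, one_pow, add_zero,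
      zero_add, one_add_one_eq_two, two_eq_zero hF]
  refine ⟨hs, ?_⟩
  have e : (tau hF v hv)⁻¹ = tau hF v hv := inv_eq_of_mul_eq_one_right (tau_sq hF v hv)
  conv_lhs => arg 2; rw [← e]
  rw [conj_transvSU]
  exact tau_congr hF hs (by rw [sv_tau, herm_conj hF, h, one_pow, one_smul])

variable (T : Frame F (k + 2) 2) {K : Subgroup ↥(Cfsg.SU (k + 2 + 2) F 2)}

local notation "Vm" => Fin (k + 2) → F
local notation "xv" => (Pi.single 0 1 : Fin (k + 2) → F)
local notation "uv" => (Pi.single 1 1 : Fin (k + 2) → F)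

theorem herm_xv_right (v : Vm) : H[v, xv] = v 0 := by
  rw [herm_single_right _ _ (by norm_num)]

include hF in
theorem herm_xv_left (v : Vm) : H[xv, v] = v 0 ^ 2 := by
  rw [herm_conj hF, herm_xv_right]

include hF in
/-- A transvection orthogonal to `x` lifts with radical part on the line of `x`. -/
theorem exists_kappa (hr0 : ∀ r ∈ rbar hF T K, r = 0) (htop : kbar hF T K = ⊤) {z : F} (hz : z ^ 3 = 1) (hz1 : z ≠ 1)
    {g0 : ↥(Cfsg.SU (k + 2) F 2)} (hg0 : ∀ v : Vm, sv g0 v = z • v + ((1 - z) * v 0) • xv)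
    (hk0 : Rep hF T K g0 0) {v : Vm} (hv : H[v, v] = 0) (hv0 : v 0 = 0) :
    ∃ t : F, Rep hF T K (tau hF v hv) (t • xv) := by
  obtain ⟨w, c, hc, h⟩ := exists_rep hF T htop (tau hF v hv)
  have hw : Rep hF T K (tau hF v hv) w := ⟨c, hc, h⟩
  have hcomm : g0 * tau hF v hv = tau hF v hv * g0 := by
    refine sv_ext fun y => ?_
    rw [sv_mul, sv_mul, hg0, hg0, sv_tau, sv_tau, herm_add_left, herm_smul_left, herm_smul_left, herm_xv_left hF, hv0]
    simp only [Pi.add_apply, Pi.smul_apply, hv0, smul_eq_mul]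
    match_scalars <;> ring
  have h1 := hk0.mul hw
  have h2 := hw.mul hk0
  rw [hcomm, zero_add] at h1
  rw [show sv (tau hF v hv) (0 : Vm) = 0 from Matrix.mulVec_zero _, add_zero] at h2
  have e := h1.uniq hr0 h2
  rw [hg0] at e
  refine ⟨w 0, ?_⟩
  have e' : (z - 1) • (w - w 0 • xv) = 0 := by linear_combination (norm := module) e
  rwa [← sub_eq_zero.1 ((smul_eq_zero.1 e').resolve_left (sub_ne_zero.2 hz1))]

include hF in
/-- Transvections orthogonal to `x` lift without radical part. -/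
theorem rep_tau_perp (hk : 3 ≤ k) (hr0 : ∀ r ∈ rbar hF T K, r = 0) (htop : kbar hF T K = ⊤) {z : F} (hz : z ^ 3 = 1)
    (hz1 : z ≠ 1) {g0 : ↥(Cfsg.SU (k + 2) F 2)} (hg0 : ∀ v : Vm, sv g0 v = z • v + ((1 - z) * v 0) • xv)
    (hk0 : Rep hF T K g0 0) {v : Vm} (hv : H[v, v] = 0) (hv0 : v 0 = 0) :
    Rep hF T K (tau hF v hv) 0 := by
  choose κ hκ using fun (v : {v : Vm // H[v, v] = 0 ∧ v 0 = 0}) =>
    exists_kappa hF T hr0 htop hz hz1 hg0 hk0 v.2.1 v.2.2
  have huniq : ∀ (v : {v : Vm // H[v, v] = 0 ∧ v 0 = 0}) (t : F), Rep hF T K (tau hF v.1 v.2.1) (t • xv) → t = κ v := by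
    intro v t ht
    have := congrFun (ht.uniq hr0 (hκ v)) 0
    simpa using this
  have hfix : ∀ (v : {v : Vm // H[v, v] = 0 ∧ v 0 = 0}) (t : F), sv (tau hF v.1 v.2.1) (t • xv) = t • xv := by
    intro v t
    rw [sv_tau, herm_smul_left, herm_xv_left hF, v.2.2, zero_pow (by norm_num), mul_zero, zero_smul, add_zero]
  have hc2 : ∀ a : F, a + a = 0 := fun a => by rw [← two_mul, two_eq_zero hF, zero_mul]
  have hne : ∀ a b : {v : Vm // H[v, v] = 0 ∧ v 0 = 0}, H[a.1, b.1] ≠ 0 → κ a = κ b := by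
    intro a b hab
    set l := H[a.1, b.1]
    have hl : l ^ 3 = 1 := cube_eq_one hF hab
    have hb' : H[l • b.1, l • b.1] = 0 := by rw [herm_self_smul, b.2.1, mul_zero]
    set b' : {v : Vm // H[v, v] = 0 ∧ v 0 = 0} := ⟨l • b.1, hb', by simp [b.2.2]⟩
    have hbb : κ b' = κ b := huniq b _ (tau_smul hF b.2.1 hab hb' ▸ hκ b')
    have h1 : H[a.1, b'.1] = 1 := by
      show H[a.1, l • b.1] = 1
      rw [herm_smul_right, ← pow_succ, hl]
    have h1' : H[b'.1, a.1] = 1 := by rw [herm_conj hF, h1, one_pow]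
    obtain ⟨hs, e⟩ := tau_conj hF a.2.1 b'.2.1 h1
    obtain ⟨hs', e'⟩ := tau_conj hF b'.2.1 a.2.1 h1'
    set s : {v : Vm // H[v, v] = 0 ∧ v 0 = 0} := ⟨b'.1 + a.1, hs, by simp [a.2.2, b'.2.2]⟩
    have r1 := ((hκ a).mul (hκ b')).mul (hκ a)
    have r2 := ((hκ b').mul (hκ a)).mul (hκ b')
    rw [e, sv_mul, hfix, hfix, hfix, ← add_smul, ← add_smul] at r1
    rw [e', sv_mul, hfix, hfix, hfix, ← add_smul, ← add_smul, tau_congr hF hs (add_comm a.1 b'.1)] at r2
    have u1 := huniq s _ r1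
    have u2 := huniq s _ r2
    rw [← hbb]
    linear_combination u2 - u1 + hc2 (κ a) - hc2 (κ b')
  have hall : ∀ a b : {v : Vm // H[v, v] = 0 ∧ v 0 = 0}, a.1 ≠ 0 → b.1 ≠ 0 → κ a = κ b := by
    intro a b ha hb
    have key : ∀ c : {v : Vm // H[v, v] = 0 ∧ v 0 = 0}, c.1 ≠ 0 →
        Fin.tail c.1 ≠ 0 ∧ Cfsg.hermForm (k + 1) F 2 (Fin.tail c.1) (Fin.tail c.1) = 0 := by
      intro c hc
      constructor
      · intro e
        refine hc (funext fun i => ?_)
        refine Fin.cases c.2.2 (fun i => ?_) i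
        exact congrFun e i
      · have := c.2.1
        rw [← Fin.cons_self_tail c.1, herm_cons_cons, c.2.2, zero_mul, zero_add] at this
        exact this
    obtain ⟨y, hy, hay, hby⟩ := exists_isotropic_not_perp hF (key a ha).1 (key b hb).1 (key a ha).2 (key b hb).2
    let c : {v : Vm // H[v, v] = 0 ∧ v 0 = 0} := ⟨Fin.cons 0 y, by rw [herm_cons_cons, hy]; simp, rfl⟩
    have e : ∀ d : {v : Vm // H[v, v] = 0 ∧ v 0 = 0}, H[d.1, c.1] = Cfsg.hermForm (k + 1) F 2 (Fin.tail d.1) y := fun d => by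
      conv_lhs => rw [← Fin.cons_self_tail d.1]
      rw [herm_cons_cons, d.2.2, zero_mul, zero_add]
    exact (hne a c (by rw [e]; exact hay)).trans (hne b c (by rw [e]; exact hby)).symm
  -- five transvections of a totally isotropic plane
  let i1 : Fin (k + 2) := ⟨1, by omega⟩
  let i2 : Fin (k + 2) := ⟨2, by omega⟩
  let i3 : Fin (k + 2) := ⟨3, by omega⟩
  let i4 : Fin (k + 2) := ⟨4, by omega⟩
  set p : Vm := Pi.single i1 1 + Pi.single i2 1
  set r : Vm := Pi.single i3 1 + Pi.single i4 1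
  have h12 : i1 ≠ i2 := by simp [i1, i2, Fin.ext_iff]
  have h34 : i3 ≠ i4 := by simp [i3, i4, Fin.ext_iff]
  have hp : H[p, p] = 0 := by
    simp only [p, herm_add_left, herm_add_right hF, herm_single_single hF, if_neg h12, if_neg h12.symm, if_true]
    linear_combination two_eq_zero hF
  have hr : H[r, r] = 0 := by
    simp only [r, herm_add_left, herm_add_right hF, herm_single_single hF, if_neg h34, if_neg h34.symm, if_true]
    linear_combination two_eq_zero hF
  have hpr : H[p, r] = 0 := by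
    simp [p, r, herm_add_left, herm_add_right hF, herm_single_single hF, i1, i2, i3, i4, Fin.ext_iff]
  have hrp : H[r, p] = 0 := herm_eq_zero_comm hF hpr
  have hp0 : p 0 = 0 := by simp [p, i1, i2, Pi.single_apply, Fin.ext_iff]
  have hr0' : r 0 = 0 := by simp [r, i3, i4, Pi.single_apply, Fin.ext_iff]
  have hline : ∀ a : F, H[p + a • r, p + a • r] = 0 := fun a => by
    simp [herm_add_left, herm_add_right hF, herm_smul_left, herm_smul_right, hp, hr, hpr, hrp]
  let P : F → {v : Vm // H[v, v] = 0 ∧ v 0 = 0} := fun a => ⟨p + a • r, hline a, by simp [hp0, hr0']⟩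
  let R : {v : Vm // H[v, v] = 0 ∧ v 0 = 0} := ⟨r, hr, hr0'⟩
  have hP0 : ∀ a, (P a).1 ≠ 0 := fun a e => by
    have := congrFun e i1
    simp [P, p, r, i1, i2, i3, i4, Pi.single_apply, Fin.ext_iff] at this
  have hrel : tau hF (P 0).1 (P 0).2.1 * tau hF R.1 R.2.1 = tau hF (P 1).1 (P 1).2.1 * tau hF (P z).1 (P z).2.1 *
      tau hF (P (z ^ 2)).1 (P (z ^ 2)).2.1 := by
    refine sv_ext fun y => ?_
    have h2 := two_eq_zero hF
    have hsum : z ^ 2 + z + 1 = 0 := by
      have : (z - 1) * (z ^ 2 + z + 1) = 0 := by linear_combination hz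
      exact (mul_eq_zero.1 this).resolve_left (sub_ne_zero.2 hz1)
    simp only [P, R, sv_mul, sv_tau, herm_add_left, herm_add_right hF, herm_smul_left, herm_smul_right, hp, hr, hpr,
      hrp]
    match_scalars <;> simp only [mul_zero, zero_mul, add_zero, zero_add, mul_one, one_mul, one_pow]
    all_goals first
      | linear_combination -(H[y, p]) * hsum - H[y, r] * h2 - H[y, r] * (z ^ 3 + 2) * hz
      | linear_combination -(H[y, p]) * h2 - H[y, r] * hsum - H[y, r] * z * hz
  have hkey : κ (P 0) = 0 := by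
    have h1 := (hκ (P 0)).mul (hκ R)
    have h2 := ((hκ (P 1)).mul (hκ (P z))).mul (hκ (P (z ^ 2)))
    rw [hfix, ← add_smul, hrel] at h1
    rw [sv_mul, hfix, hfix, hfix, ← add_smul, ← add_smul] at h2
    have h3 := congrFun (h1.uniq hr0 h2) 0
    have hR : R.1 ≠ 0 := fun e => by
      have := congrFun e i3
      simp [R, r, i3, i4, Pi.single_apply, Fin.ext_iff] at this
    rw [hall R (P 0) hR (hP0 0), hall (P 1) (P 0) (hP0 _) (hP0 0), hall (P z) (P 0) (hP0 _) (hP0 0),
      hall (P (z ^ 2)) (P 0) (hP0 _) (hP0 0)] at h3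
    simp at h3
    linear_combination hc2 (κ (P 0)) - h3
  rcases eq_or_ne v 0 with hz0 | hne0
  · have : tau hF v hv = 1 := transvSU_eq_one hF _ _ (Or.inr hz0)
    rw [this]; exact Rep.one
  · have h := hκ ⟨v, hv, hv0⟩
    rwa [hall ⟨v, hv, hv0⟩ (P 0) hne0 (hP0 0), hkey, zero_smul] at h

include hF in
theorem exists_lifted_two (hk : 3 ≤ k) (hk3 : (k + 2) % 3 = 1) (hbad : ¬ Good hF K T.e) (hs : Small K) :
    ∃ K', Small K' ∧ ¬ Good hF K' T.e ∧ ∀ a : ↥(Cfsg.SU (k + 2) F 2), emb hF T a ∈ K' := by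
  have hm4 : 3 ≤ k + 2 := by omega
  have h42 : ¬ (k + 2 = 4 ∧ 2 = 2) := by omega
  have htop : ∀ {K : Subgroup ↥(Cfsg.SU (k + 2 + 2) F 2)}, ¬ Good hF K T.e → Small K → kbar hF T K = ⊤ :=
    fun hb hs => kbar_eq_top hF T hm4 h42 hb hs
  have hr : ∀ {K : Subgroup ↥(Cfsg.SU (k + 2 + 2) F 2)}, ¬ Good hF K T.e → Small K → ∀ r ∈ rbar hF T K, r = 0 :=
    fun hb hs => rbar_eq_zero hF T hm4 h42 hb hs
  obtain ⟨z, hz, -, hz1⟩ := CfsgLib.AutPSU.exists_not_fixed hF
  have hz0 : z ≠ 0 := fun e => by rw [e, zero_pow (by norm_num)] at hz; exact zero_ne_one hz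
  have hh2 := two_eq_zero hF
  -- the element fixing `x` and scalar on its orthogonal complement
  let d : Vm := Function.update (fun _ => z) 0 1
  have hd : ∀ i, d i ^ (2 + 1) = 1 := fun i => by
    by_cases h : i = 0
    · simp [d, h]
    · simp [d, Function.update_of_ne h]; exact hz
  have hdet : (Matrix.diagonal d).det = 1 := by
    rw [Matrix.det_diagonal, Finset.prod_update_of_mem (Finset.mem_univ _), one_mul, Finset.prod_const,
      Finset.card_sdiff_of_subset (by simp), Finset.card_univ, Fintype.card_fin, Finset.card_singleton]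
    obtain ⟨j, hj⟩ : 3 ∣ k + 2 - 1 := Nat.dvd_of_mod_eq_zero (by omega)
    rw [hj, pow_mul, hz, one_pow]
  let g0 : ↥(Cfsg.SU (k + 2) F 2) := ⟨⟨Matrix.diagonal d, hdet⟩, mem_SU.2 (diagonal_preserves d hd)⟩
  have hg0 : ∀ v : Vm, sv g0 v = z • v + ((1 - z) * v 0) • xv := fun v => by
    funext i
    show (Matrix.diagonal d *ᵥ v) i = _
    rw [Matrix.mulVec_diagonal]
    by_cases h : i = 0
    · subst h; simp [d]; ring
    · simp [d, Function.update_of_ne h, Pi.single_apply, h]
  -- normalise the radical part of `g0`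
  obtain ⟨w, c, hc, hw⟩ := exists_rep hF T (htop hbad hs) g0
  obtain ⟨cx, hcx⟩ := exists_hcond hF ((z - 1)⁻¹ • (w - w 0 • xv))
  set K1 := conjSub (T.heis hF ((z - 1)⁻¹ • (w - w 0 • xv)) cx hcx) K
  have hs1 : Small K1 := hs.conjSub _
  have hb1 : ¬ Good hF K1 T.e := bad_conjSub_heis hF T hcx hbad
  have r1 : Rep hF T K1 g0 (w 0 • xv) := by
    have h := (show Rep hF T K g0 w from ⟨c, hc, hw⟩).shift (hx := hcx)
    convert h using 1
    rw [hg0]
    simp only [Pi.smul_apply, Pi.sub_apply, Pi.single_eq_same, smul_eq_mul, mul_one, sub_self, mul_zero, zero_smul,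
      add_zero]
    have hne : z - 1 ≠ 0 := sub_ne_zero.2 hz1
    match_scalars
    all_goals field_simp
    all_goals ring
  have hg03 : g0 * g0 * g0 = 1 := sv_ext fun v => by
    funext i
    show sv (g0 * g0 * g0) v i = _
    rw [sv_mul, sv_mul, sv_one]
    show (Matrix.diagonal d *ᵥ (Matrix.diagonal d *ᵥ (Matrix.diagonal d *ᵥ v))) i = v i
    rw [Matrix.mulVec_diagonal, Matrix.mulVec_diagonal, Matrix.mulVec_diagonal, ← mul_assoc, ← mul_assoc]
    rw [show d i * d i * d i = d i ^ (2 + 1) by ring, hd, one_mul]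
  have hgx : ∀ t : F, sv g0 (t • xv) = t • xv := fun t => by
    rw [hg0, Pi.smul_apply, Pi.single_eq_same, smul_eq_mul, mul_one]; module
  have hw0 : w 0 = 0 := by
    have h3 := (r1.mul r1).mul r1
    rw [hg03, sv_mul, hgx, hgx] at h3
    have := congrFun (h3.uniq (hr hb1 hs1) Rep.one) 0
    simp only [Pi.add_apply, Pi.smul_apply, Pi.single_eq_same, smul_eq_mul, mul_one, Pi.zero_apply] at this
    linear_combination this - w 0 * hh2
  rw [hw0, zero_smul] at r1
  -- transvections orthogonal to `x`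
  have hperp1 : ∀ (v : Vm) (hv : H[v, v] = 0), v 0 = 0 → Rep hF T K1 (tau hF v hv) 0 := fun v hv hv0 =>
    rep_tau_perp hF T hk (hr hb1 hs1) (htop hb1 hs1) hz hz1 hg0 r1 hv hv0
  -- one further transvection
  set v1 : Vm := xv + uv
  have h01 : (0 : Fin (k + 2)) ≠ 1 := by simp
  have hv1 : H[v1, v1] = 0 := by
    simp only [v1, herm_add_left, herm_add_right hF, herm_single_single hF, if_neg h01, if_neg h01.symm, if_true]
    linear_combination hh2
  obtain ⟨y, cy, hcy, hy⟩ := exists_rep hF T (htop hb1 hs1) (tau hF v1 hv1)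
  have ry : Rep hF T K1 (tau hF v1 hv1) y := ⟨cy, hcy, hy⟩
  have hproj : proj y = 0 := by
    refine eq_zero_of_perp_iso hF (show 2 ≤ k by omega) fun t ht => ?_
    have hs' : H[eta t, eta t] = 0 := by rw [herm_eta hF]; exact ht
    have hsv : H[eta t, v1] = 0 := by
      simp [v1, herm_add_right hF, herm_single_right, eta]
    have hcomm : tau hF (eta t) hs' * tau hF v1 hv1 = tau hF v1 hv1 * tau hF (eta t) hs' := by
      refine sv_ext fun u => ?_
      rw [sv_mul, sv_mul, sv_tau, sv_tau, sv_tau, sv_tau, herm_add_left, herm_add_left, herm_smul_left, herm_smul_left,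
        hsv, herm_eq_zero_comm hF hsv, mul_zero, mul_zero, add_zero, add_zero]
      abel
    have e1 := (hperp1 (eta t) hs' (by simp [eta])).mul ry
    have e2 := ry.mul (hperp1 (eta t) hs' (by simp [eta]))
    rw [hcomm, zero_add] at e1
    rw [show sv (tau hF v1 hv1) (0 : Vm) = 0 from Matrix.mulVec_zero _, add_zero] at e2
    have e := e1.uniq (hr hb1 hs1) e2
    rw [sv_tau, add_eq_left, smul_eq_zero] at e
    rcases e with e | e
    · refine herm_eq_zero_comm hF ?_
      rw [← e]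
      simp [Cfsg.hermForm, Fin.sum_univ_succ, eta, proj]
    · rw [show t = 0 from eta_injective (e.trans eta_zero.symm), herm_zero_left]
  have hy1 : y 1 = y 0 := by
    have h2 := (ry.mul ry).uniq (hr hb1 hs1) (by rw [tau_sq]; exact Rep.one)
    rw [sv_tau, ← add_assoc, ← two_smul F y, hh2, zero_smul, zero_add, smul_eq_zero] at h2
    rcases h2 with h2 | h2
    · simp [v1, herm_add_right hF, herm_single_right] at h2
      linear_combination h2 - y 0 * hh2
    · exact absurd (congrFun h2 0) (by simp [v1])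
  have hyv : y = y 0 • v1 := by
    funext i
    refine Fin.cases (by simp [v1]) (fun i => ?_) i
    refine Fin.cases ?_ (fun i => ?_) i
    · rw [Fin.succ_zero_eq_one, hy1]; simp [v1]
    · have := congrFun hproj i
      simp only [proj, Pi.zero_apply] at this
      rw [this]; simp [v1, Fin.ext_iff]
  obtain ⟨cb, hcb⟩ := exists_hcond hF (y 0 • xv)
  set K2 := conjSub (T.heis hF (y 0 • xv) cb hcb) K1
  have hs2 : Small K2 := hs1.conjSub _
  have hb2 : ¬ Good hF K2 T.e := bad_conjSub_heis hF T hcb hb1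
  let S := repSub (hr hb2 hs2)
  have hperp2 : ∀ (v : Vm) (hv : H[v, v] = 0), v 0 = 0 → tau hF v hv ∈ S := fun v hv hv0 => by
    have h := (hperp1 v hv hv0).shift (hx := hcb)
    rwa [add_zero, sv_tau, herm_smul_left, herm_xv_left hF, hv0, zero_pow (by norm_num), mul_zero, zero_smul,
      add_zero, sub_self] at h
  have hS1 : tau hF v1 hv1 ∈ S := by
    have h := ry.shift (hx := hcb)
    rw [sv_tau, herm_smul_left, show H[xv, v1] = 1 by simp [v1, herm_xv_left hF],
      mul_one] at h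
    have e : y 0 • xv + y - (y 0 • xv + y 0 • v1) = 0 := by rw [← hyv]; abel
    rw [e] at h
    exact h
  refine ⟨K2, hs2, hb2, emb_mem_of_ctr hF T (by omega) (by omega) fun a => ?_⟩
  suffices hSt : S = ⊤ from (hSt ▸ Subgroup.mem_top a : a ∈ S)
  -- moving inside the transvections with centre not orthogonal to `x`
  have step : ∀ u u' : Vm, u 0 = 0 → u' 0 = 0 → H[u, u] = 1 → H[u', u'] = 1 → H[u, u'] = 0 →
      ∀ (h : H[xv + u, xv + u] = 0) (h' : H[xv + u', xv + u'] = 0), tau hF _ h ∈ S → tau hF _ h' ∈ S := by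
    intro u u' hu0 hu'0 hu hu' huu h h' hmem
    have hs' : H[u + u', u + u'] = 0 := by
      rw [herm_add_left, herm_add_right hF, herm_add_right hF, hu, hu', huu, herm_eq_zero_comm hF huu]
      linear_combination hh2
    have h1 : H[u + u', xv + u] = 1 := by
      rw [herm_add_left, herm_add_right hF, herm_add_right hF, herm_xv_right, herm_xv_right, hu0, hu'0, hu,
        herm_eq_zero_comm hF huu]
      ring
    obtain ⟨hsum, e⟩ := tau_conj hF hs' h h1
    have hm' := S.mul_mem (S.mul_mem (hperp2 _ hs' (by simp [hu0, hu'0])) hmem) (hperp2 _ hs' (by simp [hu0, hu'0]))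
    rw [e, tau_congr hF h' (v' := xv + u') (by
      have : u + u = 0 := by rw [← two_smul F u, hh2, zero_smul]
      calc xv + u + (u + u') = xv + u' + (u + u) := by abel
        _ = _ := by rw [this, add_zero])] at hm'
    exact hm'
  refine top_le_iff.1 ?_
  rw [← transvGroup_eq_top hF (n := k + 2) (by omega), transvGroup, Subgroup.closure_le]
  rintro A ⟨v, c', hv, hA⟩
  obtain ⟨c'', hc'', rfl, -⟩ := eq_transvSU_of_matrix_eq hF hv hA
  rcases eq_or_ne c'' 0 with hc0 | hc0
  · rw [transvSU_eq_one hF hv hc'' (Or.inl hc0)]; exact S.one_mem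
  have hc1 : c'' = 1 := by
    have h2 : c'' * (c'' - 1) = 0 := by linear_combination hc'' - c'' * hh2
    exact sub_eq_zero.1 ((mul_eq_zero.1 h2).resolve_left hc0)
  subst hc1
  show tau hF v hv ∈ S
  by_cases hv0 : v 0 = 0
  · exact hperp2 v hv hv0
  obtain ⟨v', hv'def⟩ : ∃ v', v' = (v 0)⁻¹ • v := ⟨_, rfl⟩
  have hvv : H[v', v'] = 0 := by rw [hv'def, herm_self_smul, hv, mul_zero]
  rw [show tau hF v hv = tau hF v' hvv by
    subst hv'def; exact (tau_smul hF hv (inv_ne_zero hv0) hvv).symm]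
  obtain ⟨u, hu⟩ : ∃ u, u = v' - xv := ⟨_, rfl⟩
  have hv'x : v' = xv + u := by rw [hu]; abel
  have hu0 : u 0 = 0 := by rw [hu, hv'def]; simp [inv_mul_cancel₀ hv0]
  have huu : H[u, u] = 1 := by
    have h := hvv
    rw [hv'x, herm_add_left, herm_add_right hF, herm_add_right hF, herm_xv_left hF, herm_xv_right, herm_xv_left hF,
      Pi.single_eq_same, hu0] at h
    linear_combination h - hh2
  have h' : H[xv + u, xv + u] = 0 := hv'x ▸ hvv
  rw [tau_congr hF h' hv'x]
  -- a common neighbour of `u` and the starting vector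
  obtain ⟨u', hu'0, hu'1, hu'u, hu'v⟩ : ∃ u' : Vm, u' 0 = 0 ∧ H[u', u'] = 1 ∧ H[u', u] = 0 ∧ H[u', uv] = 0 := by
    set U := Submodule.span F ({xv, u, uv} : Set Vm)
    have hUle : Module.finrank F U ≤ 3 := by
      have h := finrank_span_finset_le_card (R := F) ({xv, u, uv} : Finset Vm)
      rw [show ((↑({xv, u, uv} : Finset Vm)) : Set Vm) = {xv, u, uv} by simp] at h
      exact le_trans h Finset.card_le_three
    have hP := finrank_perp_add hF U
    obtain ⟨a, ha, b, hb, hab⟩ : ∃ a ∈ perp 2 U, ∃ b ∈ perp 2 U, H[a, b] ≠ 0 := by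
      by_contra hcon
      push Not at hcon
      have hle : perp 2 U ≤ perp 2 (perp 2 U) := fun a ha b hb => hcon a ha b hb
      have := Submodule.finrank_mono hle
      have h2 := finrank_perp_add hF (perp 2 U)
      omega
    obtain ⟨u', hu'U, hu'1⟩ := exists_norm_one_mem hF ⟨a, ha, b, hb, hab⟩
    refine ⟨u', ?_, hu'1, hu'U _ (Submodule.subset_span (by simp)), hu'U _ (Submodule.subset_span (by simp))⟩
    rw [← herm_xv_right u']
    exact hu'U _ (Submodule.subset_span (by simp))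
  have hu1 : H[uv, uv] = 1 := by rw [herm_single_single hF, if_pos rfl]
  have h'' : H[xv + u', xv + u'] = 0 := by
    rw [herm_add_left, herm_add_right hF, herm_add_right hF, herm_xv_left hF, herm_xv_right, herm_xv_left hF,
      Pi.single_eq_same, hu'0, hu'1]
    linear_combination hh2
  exact step u' u hu'0 hu0 hu'1 huu hu'u h'' h'
    (step uv u' (by simp) hu'0 hu1 hu'1 (herm_eq_zero_comm hF hu'v) hv1 h'' hS1)

end Two

end CfsgLib.MinIndexPSU
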