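import Cfsg.Agent.MinIndexPSU.LiftTwo

/-!
Every proper subgroup of `SU_n(q)`, `n ≥ 6`, (`q ≥ 3` or `n` odd) has index at least the number of isotropic points.
-/

set_option autoImplicit false
set_option linter.unusedSectionVars false

open scoped Classical

namespace CfsgLib.MinIndexPSU

open Matrix CfsgLib.Unitary CfsgLib.AutPSU CfsgLib.AutPSU.Frame CfsgLib.SchurClassical.Un

variable {F : Type*} [Field F] [Fintype F] {n m q : ℕ} (hF : Fintype.card F = q ^ 2)

include hF in
theorem card_isoVec : Nat.card {v : Fin n → F // v ≠ 0 ∧ Cfsg.hermForm n F q v v = 0} = iso F n q := by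
  rw [iso, normCount, Nat.card_eq_fintype_card, Nat.card_eq_fintype_card, Fintype.card_subtype, Fintype.card_subtype]
  have hset : (Finset.univ.filter fun x : Fin n → F => x ≠ 0 ∧ Cfsg.hermForm n F q x x = 0) =
      (Finset.univ.filter fun x : Fin n → F => Cfsg.hermForm n F q x x = 0).erase 0 := by ext x; simp
  rw [hset]
  exact Finset.card_erase_of_mem (by simp [herm_zero_left])

variable (T : Frame F m q)

local notation "Vm" => Fin m → F
local notation "Vn" => Fin (m + 2) → F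
local notation "h[" u "," v "]" => Cfsg.hermForm (m + 2) F q u v
local notation "hm[" u "," v "]" => Cfsg.hermForm m F q u v

variable {K : Subgroup ↥(Cfsg.SU (m + 2) F q)}

include hF in
theorem index_vecStab_eq (hm : 1 ≤ m) : (vecStab F m q T.e).index = iso F (m + 2) q := by
  have h := index_vecStab hF hm (T.e_ne_zero hF) T.he
  rw [iso, ← h, Nat.add_sub_cancel]

/-- The good non-zero isotropic vectors. -/
def goodSet (K : Subgroup ↥(Cfsg.SU (m + 2) F q)) : Set Vn := {v | v ≠ 0 ∧ h[v, v] = 0 ∧ Good hF K v}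

/-- The orbit of `e`. -/
def orbitE (K : Subgroup ↥(Cfsg.SU (m + 2) F q)) : Set Vn := Set.range fun k : K => sv k.1 T.e

include hF in
theorem orbit_big (hm : 3 ≤ m) (h42 : ¬ (m = 4 ∧ q = 2)) (hbad : ¬ Good hF K T.e) (hs : Small K) :
    (q - 1) * (q + 1) * q ^ (2 * m + 1) < (orbitE T K).ncard := by
  have hq := two_le_q hF
  have hα := (scal_eq_top hF T hm h42 hbad hs).1
  have htop := kbar_eq_top hF T hm h42 hbad hs
  haveI : Subsingleton (rbar hF T K) :=
    ⟨fun a b => Subtype.ext ((rbar_eq_zero hF T hm h42 hbad hs _ a.2).trans (rbar_eq_zero hF T hm h42 hbad hs _ b.2).symm)⟩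
  have hS : Nat.card (K.subgroupOf (vecStab F m q T.e)) ≤ Nat.card ↥(Cfsg.SU m F q) := by
    have h := card_inf_vecStab_le hF T (K := K)
    rwa [Nat.card_unique (α := rbar hF T K), hα, one_mul, mul_one, htop,
      Nat.card_congr Subgroup.topEquiv.toEquiv] at h
  choose rep hrep using fun o : orbitE T K => o.2
  have hK : Nat.card K ≤ (orbitE T K).ncard * Nat.card (K.subgroupOf (vecStab F m q T.e)) := by
    rw [← Nat.card_coe_set_eq, ← Nat.card_prod]
    refine Nat.card_le_card_of_injective (fun k : K => ((⟨sv k.1 T.e, k, rfl⟩ : orbitE T K),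
      (⟨⟨(rep ⟨sv k.1 T.e, k, rfl⟩).1⁻¹ * k.1, by
        have e : sv (rep ⟨sv k.1 T.e, k, rfl⟩).1 T.e = sv k.1 T.e := hrep ⟨sv k.1 T.e, k, rfl⟩
        rw [AutPSU.mem_vecStab, sv_mul]
        exact (congrArg (sv _⁻¹) e.symm).trans (sv_inv_sv _ _)⟩,
        Subgroup.mem_subgroupOf.2 (K.mul_mem (K.inv_mem (rep _).2) k.2)⟩ : K.subgroupOf (vecStab F m q T.e)))) ?_
    intro k k' h
    obtain ⟨h1, h2⟩ := Prod.mk.injEq _ _ _ _ ▸ h
    have h2' := congrArg (fun x => x.1.1) h2
    dsimp only at h2'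
    rw [h1] at h2'
    exact Subtype.ext (mul_left_cancel h2')
  have hG : iso F (m + 2) q * Nat.card (vecStab F m q T.e) = K.index * Nat.card K := by
    rw [← index_vecStab_eq hF T (by omega), mul_comm, (vecStab F m q T.e).card_mul_index, mul_comm,
      K.card_mul_index]
  have h1 : (q - 1) * (q + 1) * Nat.card (vecStab F m q T.e) < Nat.card K := by
    refine Nat.lt_of_mul_lt_mul_left (a := iso F (m + 2) q) ?_
    calc iso F (m + 2) q * ((q - 1) * (q + 1) * Nat.card (vecStab F m q T.e))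
        = (q - 1) * (q + 1) * K.index * Nat.card K := by rw [mul_left_comm, hG]; ring
      _ < _ := Nat.mul_lt_mul_of_pos_right hs Nat.card_pos
  by_contra hle
  push Not at hle
  refine lt_irrefl _ (h1.trans_le (hK.trans ((Nat.mul_le_mul hle hS).trans ?_)))
  calc (q - 1) * (q + 1) * q ^ (2 * m + 1) * Nat.card ↥(Cfsg.SU m F q)
      = (q - 1) * (q + 1) * (q * (q ^ (2 * m) * Nat.card ↥(Cfsg.SU m F q))) := by ring
    _ ≤ _ := Nat.mul_le_mul_left _ (card_vecStab_ge hF T)

include hF in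
theorem good_few (hm : 3 ≤ m) (h42 : ¬ (m = 4 ∧ q = 2)) (hbad : ¬ Good hF K T.e) (hs : Small K) :
    (goodSet hF K).ncard < (q - 1) * (q + 1) + q ^ 2 * iso F m q := by
  have h1 := orbit_big hF T hm h42 hbad hs
  have hdisj : Disjoint (goodSet hF K) (orbitE T K) := by
    rw [Set.disjoint_left]
    rintro v hv ⟨k, rfl⟩
    have := hv.2.2.map hF (K.inv_mem k.2)
    rw [sv_inv_sv] at this
    exact hbad this
  have h2 : (goodSet hF K ∪ orbitE T K).ncard ≤ iso F (m + 2) q := by
    rw [← card_isoVec (n := m + 2) hF, show Nat.card {v : Vn // v ≠ 0 ∧ h[v, v] = 0} =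
      ({v : Vn | v ≠ 0 ∧ h[v, v] = 0}).ncard from Nat.card_coe_set_eq _]
    refine Set.ncard_le_ncard ?_ (Set.toFinite _)
    rintro v (hv | ⟨k, rfl⟩)
    · exact ⟨hv.1, hv.2.1⟩
    · exact ⟨fun e => T.e_ne_zero hF (by rw [← sv_inv_sv k.1 T.e, show sv k.1 T.e = 0 from e]; exact Matrix.mulVec_zero _),
        herm_sv_self_eq_zero _ T.he⟩
  rw [Set.ncard_union_eq hdisj (Set.toFinite _) (Set.toFinite _), iso_rec' hF, Nat.mul_add, mul_one] at h2
  omega

include hF in
/-- No two good vectors differ by a bad vector orthogonal to them. -/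
theorem no_twin (hm : 3 ≤ m) (h42 : ¬ (m = 4 ∧ q = 2)) (hs : Small K) {p u : Vn} (hp0 : p ≠ 0) (hp : h[p, p] = 0)
    (hbad : ¬ Good hF K p) (hup : h[u, p] = 0) (hu : h[u, u] = 0) (hgu : Good hF K u) (hgup : Good hF K (u + p)) :
    False := by
  obtain ⟨T⟩ := exists_frame (F := F) (m := m) hF
  obtain ⟨a, ha⟩ := exists_SU_map_isotropic hF (by omega) hp0 (T.e_ne_zero hF) hp T.he
  set K' := conjSub a K
  have hbad' : ¬ Good hF K' T.e := fun h => hbad ((good_conjSub hF).1 (ha ▸ h))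
  set u' := sv a u
  have hg1 : Good hF K' u' := (good_conjSub hF).2 hgu
  have hg2 : Good hF K' (u' + T.e) := by rw [← ha, ← sv_add]; exact (good_conjSub hF).2 hgup
  have hu'e : h[u', T.e] = 0 := by rw [← ha, sv_herm, hup]
  have heu' : h[T.e, u'] = 0 := herm_eq_zero_comm hF hu'e
  have hu' : h[u', u'] = 0 := herm_sv_self_eq_zero a hu
  have hu'2 : h[u' + T.e, u' + T.e] = 0 := by
    rw [herm_add_left, herm_add_right hF, herm_add_right hF, hu', hu'e, heu', T.he]; ring
  obtain ⟨c, hc0, hc⟩ := exists_trace_zero_ne_zero hF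
  have h1 := hg1 hu' c hc
  have h2 := hg2 hu'2 c hc
  set T1 := transvSU hF (u' + T.e) c hu'2 hc
  set T2 := transvSU hF u' c hu' hc
  have hT1 : T1 ∈ vecStab F m q T.e := by
    rw [AutPSU.mem_vecStab, sv_transvSU, herm_add_right hF, heu', T.he]; simp
  have hT2 : T2 ∈ vecStab F m q T.e := by rw [AutPSU.mem_vecStab, sv_transvSU, heu']; simp
  obtain ⟨t, ht⟩ : ∃ t, t = h[u', T.f] := ⟨_, rfl⟩
  obtain ⟨y, hy⟩ : ∃ y, y = proj u' := ⟨_, rfl⟩
  have hu'eq : u' = t • T.e + eta y := by rw [ht, hy]; exact T.eq_of_perp_e hF hu'e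
  have hpi : piHom hF T ⟨T1, hT1⟩ = piHom hF T ⟨T2, hT2⟩ := by
    refine sv_ext fun v => ?_
    rw [piHom_apply, piHom_apply, sv_transvSU, sv_transvSU, herm_add_right hF, T.ew, add_zero, proj_add, proj_add,
      proj_smul, proj_smul, proj_add, T.proj_e hF, add_zero]
  obtain ⟨w1, c1, hc1, e1⟩ := exists_normal_form hF T ⟨T1, hT1⟩
  obtain ⟨w2, c2, hc2, e2⟩ := exists_normal_form hF T ⟨T2, hT2⟩
  dsimp only at e1 e2
  rw [hpi] at e1
  have hw := w_unique hF T (rbar_eq_zero hF T hm h42 hbad' (hs.conjSub a)) (e1 ▸ h2) (e2 ▸ h1)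
  have f1 := congrArg (fun s => proj (sv s T.f)) e1
  have f2 := congrArg (fun s => proj (sv s T.f)) e2
  simp only [T1, T2, sv_mul, sv_transvSU, emb_f, T.sv_heis hF, T.heisLin_f hF, proj_add, proj_smul, AutPSU.proj_eta,
    T.proj_e hF, T.proj_f hF, smul_zero, add_zero, zero_add, herm_add_right hF, T.hfe hF, ← hy] at f1 f2
  have hy0 : y = 0 := by
    have : c • y = 0 := by linear_combination (norm := module) f1 - f2 + hw
    exact (smul_eq_zero.1 this).resolve_left hc0
  rw [hy0, eta_zero, add_zero] at hu'eq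
  by_cases ht0 : t = 0
  · rw [ht0, zero_smul] at hu'eq
    rw [hu'eq, zero_add] at hg2
    exact hbad' hg2
  · have := hg1.smul hF t⁻¹
    rw [hu'eq, inv_smul_smul₀ ht0] at this
    exact hbad' this

include hF in
theorem good_eta (hm : 3 ≤ m) (hemb : CtrLift hF T K) {y : Vm} (hy : hm[y, y] = 0) : Good hF K (eta y) := by
  intro hv c hc
  have e : transvSU hF (eta y) c hv hc = emb hF T (transvSU hF y c hy hc) := by
    refine T.sv_ext_frame hF ?_ ?_ fun w => ?_
    · rw [emb_e, sv_transvSU, T.we hF, mul_zero, zero_smul, add_zero]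
    · rw [emb_f, sv_transvSU, T.wf hF, mul_zero, zero_smul, add_zero]
    · rw [emb_eta, sv_transvSU, sv_transvSU, herm_eta hF, eta_add, eta_smul]
  exact e ▸ transv_mem_of_ctr hF T hm hemb _ _

include hF in
theorem exists_mixed (hm : 3 ≤ m) (h42 : ¬ (m = 4 ∧ q = 2)) (hbad : ¬ Good hF K T.e) (hs : Small K)
    (hemb : CtrLift hF T K) :
    ∃ s, s ∈ goodSet hF K ∧ proj s ≠ 0 ∧ (h[s, T.f] ≠ 0 ∨ h[s, T.e] ≠ 0) := by
  have hq := two_le_q hF
  by_contra hcon
  push Not at hcon
  -- the images of `eta` isotropic vectors stay in one of the two summands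
  have key : ∀ k ∈ K, proj (sv k T.e) = 0 := by
    intro k hk
    have hkinv := K.inv_mem hk
    have himg : ∀ y : Vm, y ≠ 0 → hm[y, y] = 0 → proj (sv k⁻¹ (eta y)) = 0 ∨
        (h[sv k⁻¹ (eta y), T.f] = 0 ∧ h[sv k⁻¹ (eta y), T.e] = 0) := by
      intro y hy0 hy
      refine or_iff_not_imp_left.2 fun hp => hcon _ ⟨?_, ?_, (good_eta hF T (by omega) hemb hy).map hF hkinv⟩ hp
      · exact fun e => hy0 (eta_injective (by
          rw [eta_zero, ← sv_sv_inv k (eta y), e]; exact Matrix.mulVec_zero _))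
      · exact herm_sv_self_eq_zero _ (by rw [herm_eta hF, hy])
    by_cases hout : ∀ y : Vm, hm[y, y] = 0 → h[sv k⁻¹ (eta y), T.e] = 0
    · refine eq_zero_of_perp_iso hF (show 2 ≤ m by omega) fun y hy => ?_
      have h1 := hout y hy
      rw [← sv_herm k, sv_sv_inv, T.decomp hF (sv k T.e)] at h1
      simpa [herm_add_right hF, herm_smul_right, T.ew, T.fw, herm_eta hF] using h1
    · exfalso
      push Not at hout
      obtain ⟨y0, hy0, hne⟩ := hout
      have hy00 : y0 ≠ 0 := fun e => hne (by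
        rw [e, eta_zero, show sv k⁻¹ (0 : Vn) = 0 from Matrix.mulVec_zero _, herm_zero_left])
      have hp0 : proj (sv k⁻¹ (eta y0)) = 0 := (himg y0 hy00 hy0).resolve_right fun h => hne h.2
      have hcross : ∀ y y' : Vm, y' ≠ 0 → hm[y, y] = 0 → hm[y', y'] = 0 → proj (sv k⁻¹ (eta y)) = 0 → hm[y, y'] ≠ 0 →
          proj (sv k⁻¹ (eta y')) = 0 := by
        intro y y' hy' hy hy'' hp hyy'
        rcases himg y' hy' hy'' with h | ⟨h1, h2⟩
        · exact h
        · exfalso
          apply hyy'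
          rw [← herm_eta hF, ← sv_herm k⁻¹, T.herm_coords hF, h1, h2, hp, herm_zero_left, zero_pow_q hF]
          ring
      have hall : ∀ y : Vm, hm[y, y] = 0 → proj (sv k⁻¹ (eta y)) = 0 := by
        intro y hy
        rcases eq_or_ne y 0 with rfl | hy'
        · rw [eta_zero, show sv k⁻¹ (0 : Vn) = 0 from Matrix.mulVec_zero _]; rfl
        obtain ⟨z, hz, h1, h2⟩ := exists_isotropic_not_perp hF hy00 hy' hy0 hy
        have hz0 : z ≠ 0 := fun e => h1 (by rw [e, herm_zero_right hF])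
        exact hcross z y hy' hz hy (hcross y0 z hz0 hy0 hz hp0 h1) fun e => h2 (herm_eq_zero_comm hF e)
      -- so `eta` is mapped into a plane
      have hz : ∀ v : Vm, proj (sv k (eta v)) = 0 := fun v => by
        refine eq_zero_of_perp_iso hF (show 2 ≤ m by omega) fun y hy => ?_
        have h1 : h[sv k⁻¹ (eta y), eta v] = 0 := by
          rw [T.decomp hF (sv k⁻¹ (eta y)), hall y hy, eta_zero, add_zero, herm_add_left, herm_smul_left,
            herm_smul_left, T.we hF, T.wf hF, mul_zero, mul_zero, add_zero]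
        rw [← sv_herm k, sv_sv_inv, T.decomp hF (sv k (eta v))] at h1
        simpa [herm_add_right hF, herm_smul_right, T.ew, T.fw, herm_eta hF] using h1
      have hinj : Function.Injective fun v : Vm => (h[sv k (eta v), T.f], h[sv k (eta v), T.e]) := fun v v' h => by
        simp only [Prod.mk.injEq] at h
        refine eta_injective ?_
        rw [← sv_inv_sv k (eta v), ← sv_inv_sv k (eta v'), T.decomp hF (sv k (eta v)), T.decomp hF (sv k (eta v')),
          hz, hz, h.1, h.2]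
      have h3 := Nat.card_le_card_of_injective _ hinj
      rw [card_Vm hF, Nat.card_prod, Nat.card_eq_fintype_card, hF, ← pow_add] at h3
      have := (Nat.pow_le_pow_iff_right hq).1 h3
      omega
  have hsmall : (orbitE T K).ncard ≤ q ^ 2 * q ^ 2 := by
    have h4 : Nat.card (F × F) = q ^ 2 * q ^ 2 := by rw [Nat.card_prod, Nat.card_eq_fintype_card, hF]
    rw [← h4, ← Nat.card_coe_set_eq]
    refine Nat.card_le_card_of_injective (fun v : orbitE T K => (h[v.1, T.f], h[v.1, T.e])) ?_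
    rintro ⟨_, k, rfl⟩ ⟨_, k', rfl⟩ h
    simp only [Prod.mk.injEq] at h
    refine Subtype.ext ?_
    show sv k.1 T.e = sv k'.1 T.e
    rw [T.decomp hF (sv k.1 T.e), T.decomp hF (sv k'.1 T.e), key _ k.2, key _ k'.2, h.1, h.2]
  have h5 := orbit_big hF T hm h42 hbad hs
  have h6 : q ^ 2 * q ^ 2 ≤ (q - 1) * (q + 1) * q ^ (2 * m + 1) := by
    rw [← pow_add]
    refine le_trans (Nat.pow_le_pow_right (by omega) (show 2 + 2 ≤ 2 * m + 1 by omega)) ?_
    exact Nat.le_mul_of_pos_left _ (Nat.mul_pos (by omega) (by omega))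
  omega

include hF in
theorem two_classes (hm : 3 ≤ m) {b : F} (hb : b ^ q = b) (hb0 : b ≠ 0) :
    iso F m q + 1 ≤ 2 * normCount m q b ∧ (Odd m → iso F m q + 1 ≤ normCount m q b) := by
  have hq := two_le_q hF
  have hq' : (2 : ℤ) ≤ q := by exact_mod_cast hq
  have h1 := iso_eq hF m
  have h2 := normCount_eq hF m hb hb0
  have hP : (q : ℤ) + 1 ≤ (q : ℤ) ^ m := le_trans (show (q : ℤ) + 1 ≤ (q : ℤ) ^ 3 by nlinarith [sq_nonneg ((q : ℤ) - 1), pow_le_pow_left₀ (show (0 : ℤ) ≤ 2 by norm_num) hq' 2])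
    (pow_le_pow_right₀ (by linarith) hm)
  refine ⟨?_, fun ho => ?_⟩ <;> rw [← Nat.cast_le (α := ℤ)] <;> push_cast <;>
    refine le_of_mul_le_mul_left ?_ (show (0 : ℤ) < q by linarith)
  · rw [h1, mul_left_comm, h2]
    have hs : ((-1 : ℤ)) ^ m ≤ 1 := by rcases neg_one_pow_eq_or ℤ m with e | e <;> rw [e] <;> norm_num
    have h3 := mul_le_mul_of_nonneg_left hs (show (0 : ℤ) ≤ (q : ℤ) + 1 by linarith)
    have h4 : (q : ℤ) ^ m + (q - 1) * (-1) ^ m ≤ 2 * ((q : ℤ) ^ m - (-1) ^ m) := by linarith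
    have h5 := mul_le_mul_of_nonneg_left h4 (show (0 : ℤ) ≤ (q : ℤ) ^ m by positivity)
    linarith
  · rw [h1, h2, ho.neg_one_pow]
    exact mul_le_mul_of_nonneg_left (by linarith) (by positivity)

include hF in
/-- The orbit of a mixed good vector under the small group. -/
theorem good_orbit (hm : 3 ≤ m) (hemb : CtrLift hF T K) {a : F} {u : Vm} (hu0 : u ≠ 0)
    (hg : Good hF K (a • T.e + T.f + eta u)) {v : Vm} (hv0 : v ≠ 0) (hv : hm[v, v] = hm[u, u]) :
    ∃ b : F, b + b ^ q = a + a ^ q ∧ Good hF K (b • T.e + T.f + eta v) := by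
  obtain ⟨A, hA⟩ : ∃ A : ↥(Cfsg.SU m F q), sv A u = v := by
    by_cases h : hm[u, u] = 0
    · exact exists_SU_map_isotropic hF hm hu0 hv0 h (hv.trans h)
    · exact exists_SU_map_norm hF (by omega) h hv
  obtain ⟨z, hz, hk⟩ := hemb A
  refine ⟨a + z, by rw [add_pow_q hF]; linear_combination hcond_zero_iff.1 hz, ?_⟩
  have := hg.map hF hk
  simp only [sv_mul, sv_add, sv_smul, emb_e, emb_f, emb_eta, hA] at this
  convert this using 1
  simp only [sv_add, sv_smul, T.sv_heis hF, T.heisLin_e hF, T.heisLin_f hF, T.heisLin_eta hF, eta_zero,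
    herm_zero_right hF]
  module

include hF in
theorem iso_coords {a : F} {u : Vm} :
    h[a • T.e + T.f + eta u, a • T.e + T.f + eta u] = a + a ^ q + hm[u, u] := by
  simp only [herm_add_left, herm_add_right hF, herm_smul_left, herm_smul_right, T.he, T.hf, T.hef, T.hfe hF,
    T.ew, T.fw, T.we hF, T.wf hF, herm_eta hF]
  ring

include hF in
theorem count_good {X : Type*} [Finite X] (hm : 3 ≤ m) (hemb : CtrLift hF T K) (φ : X → Vn) (hφ : Function.Injective φ)
    (hφg : ∀ x, φ x ∈ goodSet hF K) (hφb : ∀ x, h[φ x, T.e] ≠ 0) :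
    iso F m q + Nat.card X ≤ (goodSet hF K).ncard := by
  rw [← card_isoVec (n := m) hF, ← Nat.card_sum, ← Nat.card_coe_set_eq]
  refine Nat.card_le_card_of_injective (fun o => match o with
    | Sum.inl y => (⟨eta y.1, fun e => y.2.1 (eta_injective (e.trans eta_zero.symm)),
        by rw [herm_eta hF]; exact y.2.2, good_eta hF T (by omega) hemb y.2.2⟩ : goodSet hF K)
    | Sum.inr x => ⟨φ x, hφg x⟩) ?_
  rintro (y | x) (y' | x') h <;> replace h := congrArg Subtype.val h <;> dsimp only at h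
  · exact congrArg Sum.inl (Subtype.ext (eta_injective h))
  · exact absurd (by rw [← h, T.ew]) (hφb x')
  · exact absurd (by rw [h, T.ew]) (hφb x)
  · exact congrArg Sum.inr (hφ h)

include hF in
theorem lifted_false (hm : 3 ≤ m) (h42 : ¬ (m = 4 ∧ q = 2)) (hqm : 3 ≤ q ∨ Odd m) (hbad : ¬ Good hF K T.e)
    (hs : Small K) (hemb : CtrLift hF T K)
    (hnf : 3 ≤ q → ∀ (l : F) (R : Matrix (Fin m) (Fin m) F) (h : Adm q l R) (w : Vm) (c : F) (hc : HCond q w c),
      T.heis hF w c hc * T.tor hF h ∈ K → w = 0) : False := by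
  have hq := two_le_q hF
  have hfew := good_few hF T hm h42 hbad hs
  obtain ⟨s, ⟨hs0, hsiso, hsg⟩, hu0, hab⟩ := exists_mixed hF T hm h42 hbad hs hemb
  set u0 := proj s
  have hdec := T.decomp hF s
  by_cases hb : h[s, T.e] = 0
  · have ha : h[s, T.f] ≠ 0 := hab.resolve_right (by simp [hb])
    rw [hb, zero_smul, add_zero] at hdec
    have hu : hm[u0, u0] = 0 := by
      have h := hsiso
      rw [T.herm_coords hF, hb, zero_pow_q hF] at h
      simpa using h
    refine no_twin hF hm h42 hs (T.e_ne_zero hF) T.he hbad (u := (h[s, T.f])⁻¹ • eta u0) ?_ ?_ ?_ ?_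
    · rw [herm_smul_left, T.ew, mul_zero]
    · rw [herm_self_smul, herm_eta hF, hu, mul_zero]
    · exact (good_eta hF T (by omega) hemb hu).smul hF _
    · have h' : (h[s, T.f])⁻¹ • s = (h[s, T.f])⁻¹ • eta u0 + T.e := by
        conv_lhs => arg 2; rw [hdec]
        rw [smul_add, inv_smul_smul₀ ha]
        exact add_comm _ _
      exact h' ▸ hsg.smul hF _
  obtain ⟨a, ha⟩ : ∃ a, a = (h[s, T.e])⁻¹ * h[s, T.f] := ⟨_, rfl⟩
  obtain ⟨u, hu⟩ : ∃ u, u = (h[s, T.e])⁻¹ • u0 := ⟨_, rfl⟩
  have hsn : (h[s, T.e])⁻¹ • s = a • T.e + T.f + eta u := by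
    conv_lhs => arg 2; rw [hdec]
    rw [ha, hu, eta_smul, smul_add, smul_add, smul_smul, smul_smul, inv_mul_cancel₀ hb, one_smul]
  have hg : Good hF K (a • T.e + T.f + eta u) := hsn ▸ hsg.smul hF _
  have hiso : a + a ^ q + hm[u, u] = 0 := by
    rw [← iso_coords hF T, ← hsn, herm_self_smul, hsiso, mul_zero]
  have hune : u ≠ 0 := by rw [hu]; exact smul_ne_zero (inv_ne_zero hb) hu0
  -- scaled vectors of a given norm
  have hvec : ∀ (a' : F) (u' : Vm), a' + a' ^ q + hm[u', u'] = 0 → u' ≠ 0 → Good hF K (a' • T.e + T.f + eta u') →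
      ∀ (v : {v : Vm // v ≠ 0 ∧ hm[v, v] = hm[u', u']}), ∃ b : F, ∀ (l : Fˣ),
        (l : F) • (b • T.e + T.f + eta v.1) ∈ goodSet hF K ∧ h[(l : F) • (b • T.e + T.f + eta v.1), T.e] = l := by
    intro a' u' hi hu' hg' v
    obtain ⟨b, hb', hgb⟩ := good_orbit hF T (by omega) hemb hu' hg' v.2.1 v.2.2
    refine ⟨b, fun l => ?_⟩
    have h1 : h[(l : F) • (b • T.e + T.f + eta v.1), T.e] = l := by
      simp [herm_smul_left, herm_add_left, T.he, T.hfe hF, T.ew]
    refine ⟨⟨fun e => l.ne_zero ?_, ?_, hgb.smul hF _⟩, h1⟩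
    · rw [← h1, e, herm_zero_left]
    · rw [herm_self_smul, iso_coords hF T, v.2.2, hb', hi, mul_zero]
  have hinj : ∀ (a' a'' : F) (l l' : Fˣ) (v v' : Vm),
      (l : F) • (a' • T.e + T.f + eta v) = (l' : F) • (a'' • T.e + T.f + eta v') → l = l' ∧ v = v' := by
    intro a' a'' l l' v v' h
    have h1 := congrArg (fun x => h[x, T.e]) h
    simp [herm_smul_left, herm_add_left, T.he, T.hfe hF, T.ew] at h1
    refine ⟨Units.ext h1, ?_⟩
    have h2 := congrArg proj h
    simp [proj_smul, proj_add, T.proj_e hF, T.proj_f hF, h1] at h2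
    exact h2
  by_cases hn : hm[u, u] = 0
  · rw [hn, add_zero] at hiso
    set p : Vn := a • T.e + T.f
    have hp : h[p, p] = 0 := by
      have := iso_coords hF T (a := a) (u := (0 : Vm))
      rwa [eta_zero, add_zero, herm_zero_left, add_zero, hiso] at this
    have hpe : h[p, T.e] = 1 := by simp [p, herm_add_left, herm_smul_left, T.he, T.hfe hF]
    have hp0 : p ≠ 0 := fun e => one_ne_zero (hpe.symm.trans (by rw [e, herm_zero_left]))
    by_cases hgp : Good hF K p
    · choose β hβ using hvec a u (by rw [hn, add_zero]; exact hiso) hune hg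
      have h := count_good hF T hm hemb (X := Fˣ × Option {v : Vm // v ≠ 0 ∧ hm[v, v] = hm[u, u]})
        (fun x => (x.1 : F) • (x.2.elim a β • T.e + T.f + eta (x.2.elim 0 Subtype.val))) ?_ ?_ ?_
      · rw [Nat.card_prod, Finite.card_option, card_units_eq hF, show Nat.card {v : Vm // v ≠ 0 ∧ hm[v, v] = hm[u, u]} =
          iso F m q from by rw [hn, card_isoVec hF], mul_add, mul_one] at h
        have e : (q - 1) * (q + 1) * iso F m q + iso F m q = q ^ 2 * iso F m q := by
          rw [← Nat.succ_mul]; congr 1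
          rw [← Nat.sq_sub_sq q 1 |>.trans (mul_comm _ _)]
          have : 1 ≤ q ^ 2 := Nat.one_le_pow _ _ (by omega)
          omega
        omega
      · rintro ⟨l, o⟩ ⟨l', o'⟩ h
        obtain ⟨h1, h2⟩ := hinj _ _ _ _ _ _ h
        dsimp only at h1 h2
        rcases o with _ | v <;> rcases o' with _ | v' <;> simp only [Option.elim] at h2
        · rw [h1]
        · exact absurd h2.symm v'.2.1
        · exact absurd h2 v.2.1
        · rw [h1, Subtype.ext h2]
      · rintro ⟨l, _ | v⟩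
        · simp only [Option.elim, eta_zero, add_zero]
          exact ⟨smul_ne_zero l.ne_zero hp0, by rw [herm_self_smul, hp, mul_zero], hgp.smul hF _⟩
        · exact (hβ v l).1
      · rintro ⟨l, o⟩
        simp [herm_smul_left, herm_add_left, T.he, T.hfe hF, T.ew]
    · refine no_twin hF hm h42 hs hp0 hp hgp (u := eta u) ?_ (by rw [herm_eta hF, hn]) (good_eta hF T (by omega) hemb hn) ?_
      · simp [p, herm_add_right hF, herm_smul_right, T.ew, T.fw]
      · rw [add_comm (eta u)]; exact hg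
  · have hfix : hm[u, u] ^ q = hm[u, u] := herm_self_fixed hF u
    have hNu : ∀ (u' : Vm), hm[u', u'] ≠ 0 →
        Nat.card {v : Vm // v ≠ 0 ∧ hm[v, v] = hm[u', u']} = normCount m q (hm[u', u']) := fun u' h =>
      Nat.card_congr (Equiv.subtypeEquivRight fun v =>
        ⟨fun hv => hv.2, fun hv => ⟨fun e => h (by rw [← hv, e, herm_zero_left]), hv⟩⟩)
    obtain ⟨hcl2, hcl1⟩ := two_classes hF hm hfix hn
    have e : (q - 1) * (q + 1) * iso F m q + iso F m q = q ^ 2 * iso F m q := by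
      rw [← Nat.succ_mul]; congr 1
      rw [← Nat.sq_sub_sq q 1 |>.trans (mul_comm _ _)]
      have : 1 ≤ q ^ 2 := Nat.one_le_pow _ _ (by omega)
      omega
    choose β hβ using hvec a u hiso hune hg
    rcases em (Odd m) with ho | ho
    · have h := count_good hF T hm hemb (X := Fˣ × {v : Vm // v ≠ 0 ∧ hm[v, v] = hm[u, u]})
        (fun x => (x.1 : F) • (β x.2 • T.e + T.f + eta x.2.1)) ?_ (fun x => (hβ x.2 x.1).1)
        (fun x => by rw [(hβ x.2 x.1).2]; exact x.1.ne_zero)
      · rw [Nat.card_prod, card_units_eq hF, hNu u hn] at h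
        have := Nat.mul_le_mul_left ((q - 1) * (q + 1)) (hcl1 ho)
        rw [mul_add, mul_one] at this
        omega
      · rintro ⟨l, v⟩ ⟨l', v'⟩ h
        obtain ⟨h1, h2⟩ := hinj _ _ _ _ _ _ h
        dsimp only at h1 h2
        rw [h1, Subtype.ext h2]
    -- a second class, from a scalar of norm different from one
    have hq3 : 3 ≤ q := hqm.resolve_right ho
    obtain ⟨l, hl⟩ : ∃ l : Fˣ, (l : F) ^ (q + 1) ≠ 1 := by
      by_contra hcon
      push Not at hcon
      have h1 : Nat.card Fˣ ≤ q + 1 := (Nat.card_le_card_of_injective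
        (fun l : Fˣ => (⟨(l : F), hcon l⟩ : {x : F // x ^ (q + 1) = 1}))
        fun x y h => Units.ext (congrArg Subtype.val h)).trans (card_norm_one hF).le
      rw [card_units_eq hF] at h1
      have := Nat.mul_le_mul_right (q + 1) (show 2 ≤ q - 1 by omega)
      omega
    obtain ⟨k, hk, hke⟩ := (scal_eq_top hF T hm h42 hbad hs).2 l
    obtain ⟨w, c, hc, R, hR, ek⟩ := exists_line_form hF T l.ne_zero hke
    subst ek
    obtain rfl : w = 0 := hnf hq3 _ _ hR _ _ hc hk
    set lq := (l : F) ^ q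
    have hlq : lq ≠ 0 := pow_ne_zero _ l.ne_zero
    obtain ⟨a', ha'⟩ : ∃ a', a' = lq * ((l : F) * a) + c := ⟨_, rfl⟩
    have himg : lq • sv (T.heis hF 0 c hc * T.tor hF hR) (a • T.e + T.f + eta u) =
        a' • T.e + T.f + eta (lq • (R *ᵥ u)) := by
      simp only [sv_mul, sv_add, sv_smul, T.sv_tor hF, T.lin_e hF, T.lin_f hF, T.lin_eta, map_smul,
        T.sv_heis hF, T.heisLin_e hF, T.heisLin_f hF, T.heisLin_eta hF, eta_zero, herm_zero_right hF, eta_smul, ha']
      match_scalars <;> field_simp <;> ring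
    have hg' : Good hF K (a' • T.e + T.f + eta (lq • (R *ᵥ u))) := himg ▸ (hg.map hF hk).smul hF _
    have hnorm : hm[lq • (R *ᵥ u), lq • (R *ᵥ u)] = (l : F) ^ (q + 1) * hm[u, u] := by
      rw [herm_self_smul, hR.2.1]
      simp only [lq]
      rw [pow_right_comm, norm_pow_q hF]
    have hne' : hm[lq • (R *ᵥ u), lq • (R *ᵥ u)] ≠ 0 := by
      rw [hnorm]; exact mul_ne_zero (pow_ne_zero _ l.ne_zero) hn
    have hu'0 : lq • (R *ᵥ u) ≠ 0 := fun e' => hne' (by rw [e', herm_zero_left])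
    have hiso' : a' + a' ^ q + hm[lq • (R *ᵥ u), lq • (R *ᵥ u)] = 0 := by
      rw [← iso_coords hF T, ← himg, herm_self_smul, sv_herm, iso_coords hF T, hiso, mul_zero]
    choose β' hβ' using hvec a' _ hiso' hu'0 hg'
    have h := count_good hF T hm hemb (X := Fˣ × ({v : Vm // v ≠ 0 ∧ hm[v, v] = hm[u, u]} ⊕
        {v : Vm // v ≠ 0 ∧ hm[v, v] = hm[lq • (R *ᵥ u), lq • (R *ᵥ u)]}))
      (fun x => match x.2 with
        | Sum.inl v => (x.1 : F) • (β v • T.e + T.f + eta v.1)
        | Sum.inr v => (x.1 : F) • (β' v • T.e + T.f + eta v.1)) ?_ ?_ ?_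
    · rw [Nat.card_prod, Nat.card_sum, card_units_eq hF, hNu u hn, hNu _ hne', hnorm] at h
      have hfix' : ((l : F) ^ (q + 1) * hm[u, u]) ^ q = (l : F) ^ (q + 1) * hm[u, u] := by
        rw [mul_pow, norm_pow_q hF, hfix]
      have heq : normCount m q ((l : F) ^ (q + 1) * hm[u, u]) = normCount m q (hm[u, u]) := by
        have h1 := normCount_eq hF m hfix hn
        have h2 := normCount_eq hF m hfix' (mul_ne_zero (pow_ne_zero _ l.ne_zero) hn)
        have := mul_left_cancel₀ (show (q : ℤ) ≠ 0 by exact_mod_cast (show q ≠ 0 by omega)) (h2.trans h1.symm)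
        exact_mod_cast this
      rw [heq, ← two_mul] at h
      have := Nat.mul_le_mul_left ((q - 1) * (q + 1)) hcl2
      rw [mul_add, mul_one] at this
      omega
    · rintro ⟨x, v | v⟩ ⟨x', v' | v'⟩ h <;> simp only at h
      all_goals have h1 := congrArg (fun z => h[z, T.e]) h
      all_goals have h2 := congrArg proj h
      all_goals simp [herm_smul_left, herm_add_left, T.he, T.hfe hF, T.ew] at h1
      all_goals simp [proj_smul, proj_add, T.proj_e hF, T.proj_f hF, h1] at h2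
      all_goals have h3 : x = x' := Units.ext h1
      · rw [h3, Subtype.ext h2]
      · exact absurd (by rw [← v.2.2, h2, v'.2.2]) (fun e : hm[u, u] = _ => hl (by
          rw [hnorm] at e; exact mul_right_cancel₀ hn (by rw [one_mul]; exact e.symm)))
      · exact absurd (by rw [← v'.2.2, ← h2, v.2.2]) (fun e : hm[u, u] = _ => hl (by
          rw [hnorm] at e; exact mul_right_cancel₀ hn (by rw [one_mul]; exact e.symm)))
      · rw [h3, Subtype.ext h2]
    · rintro ⟨x, v | v⟩
      · exact (hβ v x).1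
      · exact (hβ' v x).1
    · rintro ⟨x, v | v⟩
      · show h[(x : F) • _, T.e] ≠ 0
        rw [(hβ v x).2]; exact x.ne_zero
      · show h[(x : F) • _, T.e] ≠ 0
        rw [(hβ' v x).2]; exact x.ne_zero

include hF in
/-- The lower bound for `n ≥ 5`. -/
theorem iso_le_index (hn : 5 ≤ n) (hqn : 3 ≤ q ∨ Odd n) (K : Subgroup ↥(Cfsg.SU n F q)) (hK : K ≠ ⊤) :
    iso F n q ≤ (q - 1) * (q + 1) * K.index := by
  obtain ⟨m, rfl⟩ : ∃ m, n = m + 2 := ⟨n - 2, by omega⟩
  by_contra hlt
  push Not at hlt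
  obtain ⟨T⟩ := exists_frame (F := F) (m := m) hF
  obtain ⟨K', hidx, -, hbad⟩ := exists_bad_conj hF (by omega) T (fun h => by omega) K hK
  have hs : Small K' := by rwa [Small, hidx]
  have hqm : 3 ≤ q ∨ Odd m := hqn.imp_right fun h => by
    rwa [Nat.odd_add, iff_true_right (by decide)] at h
  have h42 : ¬ (m = 4 ∧ q = 2) := by
    rintro ⟨rfl, rfl⟩
    rcases hqm with h | h
    · omega
    · exact absurd h (by decide)
  have hm : 3 ≤ m := by omega
  by_cases hc : 3 ≤ q ∨ m % 3 ≠ 1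
  · obtain ⟨K'', hs'', hbad'', hemb, hnf⟩ := exists_lifted_scalar hF T hm hc h42 hbad hs
    exact lifted_false hF T hm h42 hqm hbad'' hs'' hemb fun _ => hnf
  · push Not at hc
    obtain rfl : q = 2 := by have := two_le_q hF; omega
    obtain ⟨k, rfl⟩ : ∃ k, m = k + 2 := ⟨m - 2, by omega⟩
    obtain ⟨K'', hs'', hbad'', hemb⟩ := exists_lifted_two hF T (by omega) hc.2 hbad hs
    exact lifted_false hF T hm h42 hqm hbad'' hs'' (fun a => ⟨0, hcond_zero_iff.2 (by rw [zero_add, zero_pow_q hF]),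
      by rw [heis_zero hF T _ rfl, one_mul]; exact hemb a⟩) fun h => absurd h (by omega)

end CfsgLib.MinIndexPSU
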