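import Cfsg.Agent.MinIndexPSU.Two

/-!
A subgroup of `SU_3(q)`, `q ≥ 3`, preserving an additive subgroup `R` of `F^3` on which the form avoids a coset of
a proper subgroup has order at most about `q^8 / |R|`.
-/

set_option autoImplicit false
set_option linter.unusedSectionVars false

open scoped Classical

namespace CfsgLib.MinIndexPSU

open Matrix CfsgLib.Unitary CfsgLib.AutPSU CfsgLib.AutPSU.Frame CfsgLib.SchurClassical.Un

variable {F : Type*} [Field F] [Fintype F] {n q : ℕ} (hF : Fintype.card F = q ^ 2)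

local notation "H₂[" u "," v "]" => Cfsg.hermForm 2 F q u v
local notation "H₃[" u "," v "]" => Cfsg.hermForm 3 F q u v

/-- The form on `R` takes values in `A`. -/
def FormIn (q : ℕ) (A : AddSubgroup F) (R : AddSubgroup (Fin n → F)) : Prop :=
  ∀ r ∈ R, ∀ s ∈ R, Cfsg.hermForm n F q r s ∈ A

include hF in
theorem card_le_of_formIn {A : AddSubgroup F} (hA : A ≠ ⊤) {R : AddSubgroup (Fin n → F)} (h : FormIn q A R) :
    Nat.card R ≤ q ^ n := by
  have hsq := MinIndexPSp.sq_card_le (fun x y : Fin n → F => Cfsg.hermForm n F q y x)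
    (fun x y z => herm_add_left y z x) (fun x y z => herm_add_right hF z x y) (fun x c y => herm_smul_left c y x)
    (fun x hx => herm_nondeg hF x fun v => herm_eq_zero_comm hF (hx v)) A hA R (fun x hx y hy => h y hy x hx)
  rw [card_Vm hF, two_mul, pow_add] at hsq
  exact Nat.mul_self_le_mul_self_iff.1 hsq

theorem card_le_orbit_mul {G α : Type*} [Group G] [Finite G] [Finite α] (H : Subgroup G) (f : G → α) (b : ℕ)
    (hb : ∀ g0 ∈ H, Nat.card {g : H // f g.1 = f g0} ≤ b) {S : Set α} (hS : ∀ g ∈ H, f g ∈ S) :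
    Nat.card H ≤ S.ncard * b := by
  haveI := Fintype.ofFinite H
  rw [Nat.card_eq_fintype_card, ← Finset.card_univ, Set.ncard_eq_toFinset_card S (Set.toFinite _), mul_comm]
  refine Finset.card_le_mul_card_image_of_maps_to (f := fun g : H => f g.1) (fun g _ => by simpa using hS g.1 g.2) b
    fun y _ => ?_
  rcases Finset.eq_empty_or_nonempty (Finset.univ.filter fun g : H => f g.1 = y) with e | ⟨g0, hg0⟩
  · rw [e]; exact Nat.zero_le _
  · rw [← Fintype.card_subtype, ← Nat.card_eq_fintype_card, ← (Finset.mem_filter.1 hg0).2]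
    exact hb g0.1 g0.2

/-- Fibres of an orbit map are no larger than a bound on the stabiliser. -/
theorem card_fibre_le {G : Type*} [Group G] [Finite G] (H P : Subgroup G) {α : Type*} (f : G → α)
    (hf : ∀ g g' : G, f g = f g' → g'⁻¹ * g ∈ P) (g0 : G) (hg0 : g0 ∈ H) :
    Nat.card {g : H // f g.1 = f g0} ≤ Nat.card ↥(H ⊓ P) :=
  Nat.card_le_card_of_injective
    (fun g => (⟨g0⁻¹ * g.1.1, H.mul_mem (H.inv_mem hg0) g.1.2, hf _ _ g.2⟩ : ↥(H ⊓ P)))
    fun a b h => Subtype.ext (Subtype.ext (mul_left_cancel (congrArg Subtype.val h)))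

section Small

include hF in
/-- A large subgroup of `SU_2(q)` fixes no non-zero vector. -/
theorem eq_zero_of_fixed {H : Subgroup ↥(Cfsg.SU 2 F q)} (hH : q ^ 2 ≤ Nat.card H + 1) {v : Fin 2 → F}
    (hv : ∀ g ∈ H, sv g v = v) : v = 0 := by
  by_contra h0
  have hq := two_le_q hF
  have h4 : 2 * q ≤ q ^ 2 := by rw [sq]; exact Nat.mul_le_mul_right _ hq
  by_cases hi : H₂[v, v] = 0
  · have h1 := card_le_iso hF H h0 hi {v} (fun g hg => hv g hg)
    rw [Nat.card_coe_set_eq, Set.ncard_singleton, one_mul] at h1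
    omega
  · have h1 : Nat.card H ≤ 1 := by
      have : Subsingleton H := ⟨fun g g' => Subtype.ext (sv_inj_aniso hi ((hv _ g.2).trans (hv _ g'.2).symm))⟩
      exact Finite.card_le_one_iff_subsingleton.2 this
    omega

include hF in
/-- A large subgroup of `SU_2(q)`, `q ≥ 3`, only preserves additive groups of isotropic vectors. -/
theorem iso_of_large {H : Subgroup ↥(Cfsg.SU 2 F q)} (hq : 3 ≤ q) (hH : q ^ 2 ≤ Nat.card H + 1)
    {R : AddSubgroup (Fin 2 → F)} (hinv : ∀ g ∈ H, ∀ r ∈ R, sv g r ∈ R) (hR : Nat.card R ≤ q ^ 2) :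
    ∀ r ∈ R, H₂[r, r] = 0 := by
  by_contra hcon
  push Not at hcon
  obtain ⟨y, hyR, hy⟩ := hcon
  have hy0 : y ≠ 0 := fun e => hy (by rw [e, herm_zero_left])
  let S : Set (Fin 2 → F) := (R : Set (Fin 2 → F)) \ {0}
  have hScard : Nat.card S + 1 = Nat.card R := by
    rw [Nat.card_coe_set_eq, Set.ncard_sdiff_singleton_add_one R.zero_mem (Set.toFinite _), ← Nat.card_coe_set_eq]
    rfl
  let f : H → S := fun g => ⟨sv g.1 y, hinv g.1 g.2 y hyR, fun e => hy0 (by
    rw [← sv_inv_sv g.1 y, show sv g.1 y = 0 from e]; exact Matrix.mulVec_zero _)⟩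
  have hf : Function.Injective f := fun g g' h => Subtype.ext (sv_inj_aniso hy (congrArg Subtype.val h))
  have h1 := Nat.card_le_card_of_injective f hf
  have hsurj : Function.Surjective f := (hf.bijective_of_nat_card_le (by omega)).2
  have hN : ∀ z ∈ R, z ≠ 0 → H₂[z, z] = H₂[y, y] := fun z hz hz0 => by
    obtain ⟨g, hg⟩ := hsurj ⟨z, hz, hz0⟩
    rw [← show sv g.1 y = z from congrArg Subtype.val hg, sv_herm]
  have h9 : 9 ≤ q ^ 2 := le_trans (by norm_num) (Nat.pow_le_pow_left hq 2)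
  have h5 : 4 < (R : Set (Fin 2 → F)).ncard := by
    rw [← Nat.card_coe_set_eq]; change 4 < Nat.card R; omega
  obtain ⟨u, huR, hu⟩ : ∃ u ∈ R, u ∉ ({0, -y} : Set (Fin 2 → F)) := by
    by_contra hc
    push Not at hc
    have := (Set.ncard_le_ncard (show (R : Set (Fin 2 → F)) ⊆ {0, -y} from hc)).trans (Set.ncard_insert_le _ _)
    rw [Set.ncard_singleton] at this
    omega
  obtain ⟨v, hvR, hv⟩ : ∃ v ∈ R, v ∉ ({0, -y, -u, -y - u} : Set (Fin 2 → F)) := by
    by_contra hc
    push Not at hc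
    have h6 := Set.ncard_le_ncard (show (R : Set (Fin 2 → F)) ⊆ {0, -y, -u, -y - u} from hc)
    have h7 := Set.ncard_insert_le (0 : Fin 2 → F) {-y, -u, -y - u}
    have h8 := Set.ncard_insert_le (-y) ({-u, -y - u} : Set (Fin 2 → F))
    have h9 := Set.ncard_insert_le (-u) ({-y - u} : Set (Fin 2 → F))
    rw [Set.ncard_singleton] at h9
    omega
  simp only [Set.mem_insert_iff, Set.mem_singleton_iff, not_or] at hu hv
  obtain ⟨hu0, huy⟩ := hu
  obtain ⟨hv0, hvy, hvu, hvyu⟩ := hv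
  have e_u := hN u huR hu0
  have e_v := hN v hvR hv0
  have e_yu := hN _ (R.add_mem hyR huR) fun e => huy (eq_neg_of_add_eq_zero_right e)
  have e_yv := hN _ (R.add_mem hyR hvR) fun e => hvy (eq_neg_of_add_eq_zero_right e)
  have e_uv := hN _ (R.add_mem huR hvR) fun e => hvu (eq_neg_of_add_eq_zero_right e)
  have e_yuv := hN _ (R.add_mem (R.add_mem hyR huR) hvR) fun e => hvyu (by linear_combination (norm := module) e)
  simp only [herm_add_left, herm_add_right hF] at e_yu e_yv e_uv e_yuv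
  exact hy (by linear_combination e_yu + e_yv + e_uv - e_yuv - e_u - e_v)

include hF in
/-- A large subgroup of `SU_2(q)` fixes no isotropic line. -/
theorem not_line_of_large {H : Subgroup ↥(Cfsg.SU 2 F q)} (hH : q ^ 2 ≤ Nat.card H + 1) {r : Fin 2 → F}
    (hr0 : r ≠ 0) (hr : H₂[r, r] = 0) : ∃ g ∈ H, H₂[sv g r, r] ≠ 0 := by
  by_contra hcon
  push Not at hcon
  obtain ⟨f, hf, hfr, hD, key⟩ := exists_basis_iso hF hr0 hr
  have hmul : ∀ g ∈ H, ∃ l : F, l ^ q = l ∧ l ≠ 0 ∧ sv g r = l • r := by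
    intro g hg
    have hgr : sv g r = H₂[sv g r, f] • r := by
      conv_lhs => rw [key (sv g r), hcon g hg, zero_smul, zero_add]
    set l := H₂[sv g r, f]
    have hl : l ≠ 0 := fun e => by
      rw [e, zero_smul] at hgr
      exact hr0 (by rw [← sv_inv_sv g r, hgr]; exact Matrix.mulVec_zero _)
    refine ⟨l, ?_, hl, hgr⟩
    have h1 : H₂[sv g f, r] * l ^ q = 1 := by
      have h := sv_herm g f r
      rw [hgr, herm_smul_right, hfr] at h
      linear_combination h
    have h2 := D2_sv g r f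
    rw [hgr, key (sv g f)] at h2
    simp only [D2, Pi.add_apply, Pi.smul_apply, smul_eq_mul] at h2
    have h3 : l * H₂[sv g f, r] = 1 := mul_right_cancel₀ hD (by simp only [D2]; linear_combination h2)
    have h4 : H₂[sv g f, r] ≠ 0 := left_ne_zero_of_mul_eq_one h1
    exact mul_left_cancel₀ h4 (by rw [h1, mul_comm, h3])
  let S : Set (Fin 2 → F) := (fun l : {a : F // a ^ q = a ∧ a ≠ 0} => (l : F) • r) '' Set.univ
  have h1 := card_le_iso hF H hr0 hr S fun g hg => by
    obtain ⟨l, hl1, hl2, hl3⟩ := hmul g hg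
    exact ⟨⟨l, hl1, hl2⟩, trivial, hl3.symm⟩
  have h2 : Nat.card S + 1 ≤ q := by
    refine le_trans (Nat.add_le_add_right (Nat.card_le_card_of_surjective
      (fun l => (⟨_, l, trivial, rfl⟩ : S)) ?_) 1) ?_
    · rintro ⟨_, l, -, rfl⟩; exact ⟨l, rfl⟩
    · have h3 : Nat.card (Option {a : F // a ^ q = a ∧ a ≠ 0}) ≤ Nat.card {a : F // a ^ q = a} := by
        refine Nat.card_le_card_of_injective
          (fun o => o.elim ⟨0, zero_pow_q hF⟩ fun a => ⟨a.1, a.2.1⟩) ?_
        rintro (_ | ⟨a, ha⟩) (_ | ⟨b, hb⟩) h <;> simp at h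
        · rfl
        · exact absurd h.symm hb.2
        · exact absurd h ha.2
        · subst h; rfl
      rwa [Finite.card_option, card_fixed hF] at h3
  obtain ⟨j, hj⟩ := Nat.exists_eq_add_of_le h2
  have := two_le_q hF
  nlinarith

include hF in
/-- The rational plane spanned by a large invariant group absorbs everything invariant modulo it. -/
theorem real_coords_of_large {H : Subgroup ↥(Cfsg.SU 2 F q)} (hq : 3 ≤ q) (hH : q ^ 2 ≤ Nat.card H + 1)
    {R : AddSubgroup (Fin 2 → F)} (hinv : ∀ g ∈ H, ∀ r ∈ R, sv g r ∈ R) (hR : Nat.card R ≤ q ^ 2)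
    (hne : ∃ r ∈ R, r ≠ 0) :
    ∃ r s : Fin 2 → F, r ∈ R ∧ s ∈ R ∧ H₂[r, s] ≠ 0 ∧ ∀ z : Fin 2 → F, (∀ g ∈ H, sv g z - z ∈ R) →
      ∃ a b : F, z = a • r + b • s ∧ H₂[z, z] = 0 := by
  obtain ⟨r, hr, hr0⟩ := hne
  have hall := iso_of_large hF hq hH hinv hR
  obtain ⟨g, hg, hgr⟩ := not_line_of_large hF hH hr0 (hall r hr)
  set s := sv g r
  have hs : s ∈ R := hinv g hg r hr
  have hrs : H₂[r, s] ≠ 0 := fun e => hgr (herm_eq_zero_comm hF e)
  have hanti : ∀ y ∈ R, ∀ z ∈ R, H₂[y, z] + H₂[z, y] = 0 := fun y hy z hz => by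
    have h := hall _ (R.add_mem hy hz)
    rw [herm_add_left, herm_add_right hF, herm_add_right hF, hall y hy, hall z hz] at h
    linear_combination h
  have him : ∀ y ∈ R, ∀ z ∈ R, H₂[y, z] ^ q = -H₂[y, z] := fun y hy z hz => by
    rw [← herm_conj hF y z]; exact eq_neg_of_add_eq_zero_left (hanti z hz y hy)
  have hrr := hall r hr
  have hss := hall s hs
  obtain ⟨f, hf, hfr, hD, key⟩ := exists_basis_iso hF hr0 hrr
  have hcoord : ∀ v : Fin 2 → F, v = (H₂[v, s] / H₂[r, s]) • r + (H₂[v, r] / H₂[s, r]) • s := by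
    intro v
    set v' := (H₂[v, s] / H₂[r, s]) • r + (H₂[v, r] / H₂[s, r]) • s
    have e1 : H₂[v', r] = H₂[v, r] := by simp [v', herm_add_left, herm_smul_left, hrr, hgr]
    have e2 : H₂[v', s] = H₂[v, s] := by simp [v', herm_add_left, herm_smul_left, hss, hrs]
    have e3 : H₂[v', f] = H₂[v, f] := by
      rw [key s, herm_add_right hF, herm_add_right hF, herm_smul_right, herm_smul_right, herm_smul_right,
        herm_smul_right, e1] at e2
      exact mul_left_cancel₀ (pow_ne_zero q hgr) (add_right_cancel e2)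
    rw [key v, ← e1, ← e3, ← key v']
  let σ : (Fin 2 → F) → (Fin 2 → F) := fun v => (H₂[v, s] / H₂[r, s]) ^ q • r + (H₂[v, r] / H₂[s, r]) ^ q • s
  have hfix : ∀ y ∈ R, σ y = y := fun y hy => by
    conv_rhs => rw [hcoord y]
    simp only [σ, div_pow, him y hy s hs, him r hr s hs, him y hy r hr, him s hs r hr, neg_div_neg_eq]
  have hσadd : ∀ v w, σ (v + w) = σ v + σ w := fun v w => by
    simp only [σ, herm_add_left, add_div, add_pow_q hF, add_smul]; abel
  have hσlin : ∀ (a b : F), σ (a • r + b • s) = a ^ q • r + b ^ q • s := fun a b => by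
    simp [σ, herm_add_left, herm_smul_left, hrr, hss, hrs, hgr]
  have hσg : ∀ k ∈ H, ∀ v, σ (sv k v) = sv k (σ v) := by
    intro k hk v
    have e1 := hcoord (sv k r)
    have e2 := hcoord (sv k s)
    have r1 := him _ (hinv k hk r hr) s hs
    have r2 := him _ (hinv k hk r hr) r hr
    have r3 := him _ (hinv k hk s hs) s hs
    have r4 := him _ (hinv k hk s hs) r hr
    conv_lhs => rw [hcoord v]
    simp only [σ, sv_add, sv_smul, herm_add_left, herm_smul_left, add_div, mul_div_assoc, add_pow_q hF, mul_pow,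
      div_pow, r1, r2, r3, r4, him r hr s hs, him s hs r hr, neg_div_neg_eq]
    conv_rhs => rw [e1, e2]
    module
  refine ⟨r, s, hr, hs, hrs, fun z hz => ?_⟩
  have hy : σ z - z = 0 := by
    refine eq_zero_of_fixed hF hH fun k hk => ?_
    have h := hfix _ (hz k hk)
    rw [sub_eq_add_neg, hσadd, hσg k hk] at h
    have hneg : σ (-z) = -σ z := by
      have := hσadd z (-z)
      rw [add_neg_cancel] at this
      have h0 : σ 0 = 0 := hfix 0 R.zero_mem
      rw [h0] at this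
      exact eq_neg_of_add_eq_zero_right this.symm
    rw [hneg] at h
    rw [sv_sub]
    linear_combination (norm := module) h
  refine ⟨_, _, hcoord z, ?_⟩
  have e := sub_eq_zero.1 hy
  set a := H₂[z, s] / H₂[r, s]
  set b := H₂[z, r] / H₂[s, r]
  have hz' : z = a • r + b • s := hcoord z
  have e' : a ^ q • r + b ^ q • s = a • r + b • s := by rw [← hz']; exact e
  have ea := congrArg (fun v => H₂[v, s]) e'
  have eb := congrArg (fun v => H₂[v, r]) e'
  simp [herm_add_left, herm_smul_left, hrr, hss, hrs, hgr] at ea eb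
  rw [hz', herm_add_left, herm_add_right hF, herm_add_right hF, herm_smul_left, herm_smul_left, herm_smul_left,
    herm_smul_left, herm_smul_right, herm_smul_right, herm_smul_right, herm_smul_right, ea, eb, hrr, hss]
  linear_combination a * b * hanti r hr s hs

end Small

section Stab

local notation "e₀" => (Pi.single 0 1 : Fin 3 → F)

include hF in
theorem herm_e0_right (v : Fin 3 → F) : H₃[v, e₀] = v 0 := by
  rw [herm_single_right _ _ (by have := two_le_q hF; omega)]

variable (F q) in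
/-- The stabiliser of the first basis vector. -/
def stab0 : Subgroup ↥(Cfsg.SU 3 F q) where
  carrier := {g | sv g e₀ = e₀}
  one_mem' := sv_one _
  mul_mem' {a b} ha hb := by
    show sv (a * b) e₀ = e₀
    rw [sv_mul, hb, ha]
  inv_mem' {a} ha := by
    show sv a⁻¹ e₀ = e₀
    conv_lhs => rw [← (show sv a e₀ = e₀ from ha), sv_inv_sv]

include hF in
theorem stab0_apply (g : stab0 F q) (v : Fin 2 → F) :
    sv (g : ↥(Cfsg.SU 3 F q)) (Fin.cons 0 v) = Fin.cons 0 (Fin.tail (sv (g : ↥(Cfsg.SU 3 F q)) (Fin.cons 0 v))) := by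
  conv_lhs => rw [← Fin.cons_self_tail (sv (g : ↥(Cfsg.SU 3 F q)) (Fin.cons 0 v))]
  congr 1
  rw [← herm_e0_right hF (sv _ _), ← show sv (g : ↥(Cfsg.SU 3 F q)) e₀ = e₀ from g.2, sv_herm, herm_e0_right hF,
    Fin.cons_zero]

include hF in
theorem exists_res (g : stab0 F q) :
    ∃ a : ↥(Cfsg.SU 2 F q), ∀ v, sv (g : ↥(Cfsg.SU 3 F q)) (Fin.cons 0 v) = Fin.cons 0 (sv a v) := by
  set M : Matrix (Fin 3) (Fin 3) F := ((g : ↥(Cfsg.SU 3 F q)) : Matrix.SpecialLinearGroup (Fin 3) F).1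
  set N : Matrix (Fin 2) (Fin 2) F := M.submatrix Fin.succ Fin.succ
  have hN : ∀ v, sv (g : ↥(Cfsg.SU 3 F q)) (Fin.cons 0 v) = Fin.cons 0 (N *ᵥ v) := fun v => by
    rw [stab0_apply hF g v]
    congr 1
    funext i
    show (M *ᵥ Fin.cons 0 v) i.succ = (N *ᵥ v) i
    simp [Matrix.mulVec, dotProduct, Fin.sum_univ_succ, N]
  have hcol : ∀ i, M i 0 = e₀ i := fun i => by
    have h := congrFun (show M *ᵥ e₀ = e₀ from g.2) i
    rwa [Matrix.mulVec_single_one] at h
  have hdet : N.det = 1 := by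
    have h : M.det = 1 := ((g : ↥(Cfsg.SU 3 F q)) : Matrix.SpecialLinearGroup (Fin 3) F).2
    rw [Matrix.det_succ_column_zero, Finset.sum_eq_single (0 : Fin 3) (fun i _ hi => by simp [hcol, hi]) (by simp)] at h
    simpa [hcol, N] using h
  refine ⟨⟨⟨N, hdet⟩, mem_SU.2 fun u v => ?_⟩, hN⟩
  have h := sv_herm (g : ↥(Cfsg.SU 3 F q)) (Fin.cons 0 u) (Fin.cons 0 v)
  rw [hN, hN, herm_cons_cons, herm_cons_cons, zero_mul, zero_add, zero_add] at h
  exact h

include hF in
theorem eq_one_of_res {g : ↥(Cfsg.SU 3 F q)} (h0 : sv g e₀ = e₀)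
    (h : ∀ v : Fin 2 → F, sv g (Fin.cons 0 v) = Fin.cons 0 v) : g = 1 := by
  refine sv_ext fun x => ?_
  have e : x = x 0 • e₀ + Fin.cons 0 (Fin.tail x) := by
    funext i; refine Fin.cases ?_ (fun i => ?_) i <;> simp [Fin.tail]
  rw [sv_one, e, sv_add, sv_smul, h0, h]

/-- The action of the stabiliser on the orthogonal plane. -/
noncomputable def resHom : stab0 F q →* ↥(Cfsg.SU 2 F q) :=
  MonoidHom.mk' (fun g => (exists_res hF g).choose) fun a b => sv_ext fun v => by
    refine Fin.cons_right_injective (α := fun _ : Fin 3 => F) (0 : F) ?_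
    show (Fin.cons 0 (sv (exists_res hF (a * b)).choose v) : Fin 3 → F) =
      Fin.cons 0 (sv ((exists_res hF a).choose * (exists_res hF b).choose) v)
    rw [← (exists_res hF (a * b)).choose_spec, Subgroup.coe_mul, sv_mul, sv_mul, (exists_res hF b).choose_spec,
      (exists_res hF a).choose_spec]

theorem resHom_apply (g : stab0 F q) (v : Fin 2 → F) :
    sv (g : ↥(Cfsg.SU 3 F q)) (Fin.cons 0 v) = Fin.cons 0 (sv (resHom hF g) v) :=
  (exists_res hF g).choose_spec v

include hF in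
theorem resHom_injective : Function.Injective (resHom (F := F) (q := q) hF) := by
  refine (injective_iff_map_eq_one _).2 fun g hg => Subtype.ext ?_
  refine eq_one_of_res hF g.2 fun v => ?_
  rw [resHom_apply hF, hg, sv_one]

include hF in
theorem card_stab0_le : Nat.card (stab0 F q) ≤ q * ((q - 1) * (q + 1)) := by
  rw [← card_SU_two hF]
  exact Nat.card_le_card_of_injective _ (resHom_injective hF)

end Stab

include hF in
/-- Totally isotropic vectors of `F^3` are proportional. -/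
theorem proportional_of_iso {r s : Fin 3 → F} (hr0 : r ≠ 0) (hr : H₃[r, r] = 0) (hs : H₃[s, s] = 0)
    (hrs : H₃[r, s] = 0) : ∃ c : F, s = c • r := by
  by_contra hcon
  push Not at hcon
  have hli : LinearIndependent F ![r, s] := by
    rw [LinearIndependent.pair_iff' hr0]
    intro a e
    exact hcon a e.symm
  set U := Submodule.span F (Set.range ![r, s])
  have h2 : Module.finrank F U = 2 := by rw [finrank_span_eq_card hli]; simp
  have hle : U ≤ perp q U := by
    refine Submodule.span_le.2 ?_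
    rintro x ⟨i, rfl⟩ y hy
    induction hy using Submodule.span_induction with
    | mem z hz =>
      obtain ⟨j, rfl⟩ := hz
      fin_cases i <;> fin_cases j <;> simp [hr, hs, hrs, herm_eq_zero_comm hF hrs]
    | zero => exact herm_zero_right hF _
    | add a b _ _ ha hb => rw [herm_add_right hF, ha, hb, add_zero]
    | smul c a _ ha => rw [herm_smul_right, ha, mul_zero]
  have h3 := finrank_perp_add hF U
  have h4 := Submodule.finrank_mono hle
  omega

include hF in
theorem card_iso_stab_le {r : Fin 3 → F} (hr0 : r ≠ 0) (hr : H₃[r, r] = 0) :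
    Nat.card (vecStab F 1 q r) ≤ q ^ 3 := by
  have h := (vecStab F 1 q r).card_mul_index
  have hi := index_vecStab hF (le_refl 1) hr0 hr
  have hn : (q : ℤ) * normCount (1 + 2) q (0 : F) = (q : ℤ) ^ 3 * ((q : ℤ) ^ 3 + (q - 1) * (-1) ^ 3) :=
    normCount_zero_eq hF 3
  have hS := card_SU hF 3 (by norm_num)
  simp only [Finset.prod_range_succ, Finset.prod_range_zero, Even.zero, Nat.not_even_one, even_two, if_true, if_false,
    pow_one, zero_add, one_mul, show (1 : ℕ) + 1 = 2 from rfl, show (2 : ℕ) + 1 = 3 from rfl,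
    show 3 * (3 - 1) / 2 = 3 from rfl] at hS
  have hq := two_le_q hF
  obtain ⟨p, rfl⟩ : ∃ p, q = p + 1 := ⟨q - 1, by omega⟩
  have e1 : (vecStab F 1 (p + 1) r).index = p * (p + 1 + 1) * ((p + 1) ^ 3 + 1) := by
    have h' : ((vecStab F 1 (p + 1) r).index : ℤ) + 1 = normCount (1 + 2) (p + 1) (0 : F) := by exact_mod_cast hi
    apply Nat.cast_injective (R := ℤ)
    push_cast at hn ⊢
    refine mul_left_cancel₀ (show ((p : ℤ) + 1) ≠ 0 by positivity) ?_
    linear_combination hn + ((p : ℤ) + 1) * h'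
  have e2 : Nat.card ↥(Cfsg.SU (1 + 2) F (p + 1)) = (p + 1) ^ 3 * (p * (p + 1 + 1) * ((p + 1) ^ 3 + 1)) := by
    refine Nat.eq_of_mul_eq_mul_left (show 0 < p + 1 + 1 by omega) ?_
    rw [hS, show (p + 1) ^ 2 - 1 = p * (p + 1 + 1) by
      have : (p + 1) ^ 2 = p * (p + 1 + 1) + 1 := by ring
      omega]
    ring
  rw [e1, e2] at h
  refine Nat.le_of_mul_le_mul_right h.le (Nat.mul_pos (Nat.mul_pos (by omega) (by omega)) (by positivity))

variable {H : Subgroup ↥(Cfsg.SU 3 F q)} {R : AddSubgroup (Fin 3 → F)}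

include hF in
theorem three_bound_iso (hq : 3 ≤ q) (hinv : ∀ g ∈ H, ∀ r ∈ R, sv g r ∈ R) (hne : ∃ r ∈ R, r ≠ 0)
    (hall : ∀ r ∈ R, H₃[r, r] = 0) : Nat.card H * Nat.card R + 2 * q ^ 6 ≤ q ^ 8 := by
  obtain ⟨r, hr, hr0⟩ := hne
  have hanti : ∀ y ∈ R, ∀ z ∈ R, H₃[y, z] + H₃[z, y] = 0 := fun y hy z hz => by
    have h := hall _ (R.add_mem hy hz)
    rw [herm_add_left, herm_add_right hF, herm_add_right hF, hall y hy, hall z hz] at h
    linear_combination h
  have hρ : Nat.card R ≤ q ^ 2 := by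
    by_cases hline : ∀ s ∈ R, H₃[r, s] = 0
    · choose c hc using fun s : R => proportional_of_iso hF hr0 (hall r hr) (hall s s.2) (hline s s.2)
      calc Nat.card R ≤ Nat.card F := Nat.card_le_card_of_injective c fun a b h => Subtype.ext (by rw [hc a, hc b, h])
        _ = q ^ 2 := by rw [Nat.card_eq_fintype_card, hF]
    · push Not at hline
      obtain ⟨s, hs, hrs⟩ := hline
      have him : ∀ y ∈ R, ∀ z ∈ R, H₃[y, z] + H₃[y, z] ^ q = 0 := fun y hy z hz => by
        rw [← herm_conj hF y z]; exact hanti y hy z hz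
      calc Nat.card R ≤ Nat.card ({a : F // a + a ^ q = 0} × {a : F // a + a ^ q = 0}) := by
            refine Nat.card_le_card_of_injective
              (fun y : R => (⟨H₃[y.1, r], him y y.2 r hr⟩, ⟨H₃[y.1, s], him y y.2 s hs⟩)) fun a b h => ?_
            simp only [Prod.mk.injEq, Subtype.mk.injEq] at h
            have hd := R.sub_mem a.2 b.2
            have e1 : H₃[a.1 - b.1, r] = 0 := by rw [herm_sub_left, h.1, sub_self]
            have e2 : H₃[a.1 - b.1, s] = 0 := by rw [herm_sub_left, h.2, sub_self]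
            obtain ⟨c, hc⟩ := proportional_of_iso hF hr0 (hall r hr) (hall _ hd) (herm_eq_zero_comm hF e1)
            rw [hc, herm_smul_left] at e2
            rw [(mul_eq_zero.1 e2).resolve_right hrs, zero_smul, sub_eq_zero] at hc
            exact Subtype.ext hc
        _ = q ^ 2 := by rw [Nat.card_prod, card_trace_zero hF, ← pow_two]
  have hκ : Nat.card H ≤ q ^ 2 * q ^ 3 := by
    refine (card_le_orbit_mul H (fun g => sv g r) (q ^ 3) (fun g0 hg0 => ?_) (S := (R : Set (Fin 3 → F)))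
      (fun g hg => hinv g hg r hr)).trans (Nat.mul_le_mul_right _ ?_)
    · refine (card_fibre_le H (vecStab F 1 q r) (fun g => sv g r) (fun g g' h => ?_) g0 hg0).trans
        ((Nat.card_le_card_of_injective (Subgroup.inclusion inf_le_right) (Subgroup.inclusion_injective _)).trans
          (card_iso_stab_le hF hr0 (hall r hr)))
      show sv (g'⁻¹ * g) r = r
      rw [sv_mul, h, sv_inv_sv]
    · rw [← Nat.card_coe_set_eq]; exact hρ
  have hq9 : 9 ≤ q ^ 2 := le_trans (by norm_num) (Nat.pow_le_pow_left hq 2)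
  calc Nat.card H * Nat.card R + 2 * q ^ 6 ≤ q ^ 2 * q ^ 3 * q ^ 2 + 2 * q ^ 6 :=
        Nat.add_le_add_right (Nat.mul_le_mul hκ hρ) _
    _ = q ^ 6 * (q + 2) := by ring
    _ ≤ q ^ 6 * q ^ 2 := Nat.mul_le_mul_left _ (by nlinarith)
    _ = q ^ 8 := by ring

include hF in
theorem three_bound_e0 (hq : 3 ≤ q) {A : AddSubgroup F} (hA : A ≠ ⊤) (hR : FormIn q A R)
    (hinv : ∀ g ∈ H, ∀ r ∈ R, sv g r ∈ R) {l : F} (hl : l ≠ 0) (hx : l • (Pi.single 0 1 : Fin 3 → F) ∈ R) :
    Nat.card H * Nat.card R + 2 * q ^ 6 ≤ q ^ 8 := by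
  have hρ3 := card_le_of_formIn hF hA hR
  have hq9 : 9 ≤ q ^ 2 := le_trans (by norm_num) (Nat.pow_le_pow_left hq 2)
  have hfib : ∀ g0 ∈ H, Nat.card {g : H // (fun g => sv g (l • (Pi.single 0 1 : Fin 3 → F))) g.1 =
      (fun g => sv g (l • (Pi.single 0 1 : Fin 3 → F))) g0} ≤ Nat.card ↥(H ⊓ stab0 F q) := fun g0 hg0 =>
    card_fibre_le H _ (fun g => sv g (l • (Pi.single 0 1 : Fin 3 → F))) (fun g g' h => by
      show sv (g'⁻¹ * g) (Pi.single 0 1) = _
      simp only [sv_smul] at h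
      rw [sv_mul, smul_right_injective _ hl h, sv_inv_sv]) g0 hg0
  have hκ := card_le_orbit_mul H (fun g => sv g (l • (Pi.single 0 1 : Fin 3 → F))) _ hfib
    (S := (R : Set (Fin 3 → F))) fun g hg => hinv g hg _ hx
  rw [← Nat.card_coe_set_eq] at hκ
  change Nat.card H ≤ Nat.card R * _ at hκ
  by_cases hρ2 : Nat.card R ≤ q ^ 2
  · have hS : Nat.card ↥(H ⊓ stab0 F q) ≤ q ^ 3 := by
      refine le_trans (Nat.card_le_card_of_injective (Subgroup.inclusion inf_le_right) (Subgroup.inclusion_injective _))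
        ((card_stab0_le hF).trans ?_)
      rw [pow_succ', sq]
      refine Nat.mul_le_mul_left _ ?_
      rw [← Nat.sq_sub_sq q 1 |>.trans (mul_comm _ _)]
      exact le_trans (Nat.sub_le _ _) (le_of_eq (sq q))
    calc Nat.card H * Nat.card R + 2 * q ^ 6 ≤ q ^ 2 * q ^ 3 * q ^ 2 + 2 * q ^ 6 :=
          Nat.add_le_add_right (Nat.mul_le_mul (hκ.trans (Nat.mul_le_mul hρ2 hS)) hρ2) _
      _ = q ^ 6 * (q + 2) := by ring
      _ ≤ q ^ 6 * q ^ 2 := Nat.mul_le_mul_left _ (by nlinarith)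
      _ = q ^ 8 := by ring
  let H2 : Subgroup ↥(Cfsg.SU 2 F q) := (H.subgroupOf (stab0 F q)).map (resHom hF)
  have hH2 : Nat.card H2 = Nat.card ↥(H ⊓ stab0 F q) := by
    rw [Nat.card_congr ((H.subgroupOf (stab0 F q)).equivMapOfInjective _ (resHom_injective hF)).toEquiv.symm,
      Nat.card_congr (Subgroup.subgroupOfEquivOfLe (inf_le_right : H ⊓ stab0 F q ≤ stab0 F q)).toEquiv.symm,
      Subgroup.inf_subgroupOf_right]
  by_cases hsmall : Nat.card H2 + 2 ≤ q ^ 2
  · rw [hH2] at hsmall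
    obtain ⟨j, hj⟩ := Nat.exists_eq_add_of_le hsmall
    calc Nat.card H * Nat.card R + 2 * q ^ 6
        ≤ q ^ 3 * Nat.card ↥(H ⊓ stab0 F q) * q ^ 3 + 2 * q ^ 6 :=
          Nat.add_le_add_right (Nat.mul_le_mul (hκ.trans (Nat.mul_le_mul_right _ hρ3)) hρ3) _
      _ = q ^ 6 * (Nat.card ↥(H ⊓ stab0 F q) + 2) := by ring
      _ ≤ q ^ 6 * q ^ 2 := Nat.mul_le_mul_left _ (by omega)
      _ = q ^ 8 := by ring
  have hbig : q ^ 2 ≤ Nat.card H2 + 1 := by omega
  let ι : (Fin 2 → F) →+ (Fin 3 → F) := AddMonoidHom.mk' (fun v : Fin 2 → F => (Fin.cons 0 v : Fin 3 → F))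
    fun a b => by funext i; refine Fin.cases ?_ (fun i => ?_) i <;> simp
  let R0 : AddSubgroup (Fin 2 → F) := R.comap ι
  have hR0 : Nat.card R0 ≤ q ^ 2 := card_le_of_formIn hF hA fun u hu v hv => by
    have h := hR _ hu _ hv
    change Cfsg.hermForm 3 F q (Fin.cons 0 u) (Fin.cons 0 v) ∈ A at h
    rwa [herm_cons_cons, zero_mul, zero_add] at h
  have hinv2 : ∀ a ∈ H2, ∀ v ∈ R0, sv a v ∈ R0 := by
    rintro _ ⟨g, hg, rfl⟩ v hv
    show Fin.cons 0 (sv (resHom hF g) v) ∈ R
    rw [← resHom_apply hF]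
    exact hinv _ hg _ hv
  have hdiff : ∀ t ∈ R, ∀ a ∈ H2, sv a (Fin.tail t) - Fin.tail t ∈ R0 := by
    rintro t ht _ ⟨g, hg, rfl⟩
    show ι (sv (resHom hF g) (Fin.tail t) - Fin.tail t) ∈ R
    have e : sv (g : ↥(Cfsg.SU 3 F q)) t - t = ι (sv (resHom hF g) (Fin.tail t) - Fin.tail t) := by
      have ht' : t = t 0 • (Pi.single 0 1 : Fin 3 → F) + ι (Fin.tail t) := by
        funext i; refine Fin.cases ?_ (fun i => ?_) i <;> simp [ι, Fin.tail]
      conv_lhs => rw [ht']
      rw [sv_add, sv_smul, show sv (g : ↥(Cfsg.SU 3 F q)) (Pi.single 0 1) = Pi.single 0 1 from g.2, map_sub,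
        show sv (g : ↥(Cfsg.SU 3 F q)) (ι (Fin.tail t)) = ι (sv (resHom hF g) (Fin.tail t)) from resHom_apply hF g _]
      abel
    rw [← e]
    exact R.sub_mem (hinv _ hg t ht) ht
  by_cases hne : ∃ v ∈ R0, v ≠ 0
  swap
  · exfalso
    push Not at hne
    refine hρ2 ?_
    calc Nat.card R ≤ Nat.card F := Nat.card_le_card_of_injective (fun t : R => t.1 0) fun a b h => ?_
      _ = q ^ 2 := by rw [Nat.card_eq_fintype_card, hF]
    refine Subtype.ext ?_
    have ht : ∀ t ∈ R, Fin.tail t = 0 := fun t ht => eq_zero_of_fixed hF hbig fun g hg =>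
      sub_eq_zero.1 (hne _ (hdiff t ht g hg))
    rw [← Fin.cons_self_tail a.1, ← Fin.cons_self_tail b.1, ht _ a.2, ht _ b.2]
    exact congrArg (Fin.cons · 0) h
  obtain ⟨r, s, hr, hs, hrs, hz⟩ := real_coords_of_large hF hq hbig hinv2 hR0 hne
  -- the isotropic elements of `R` are those in the plane
  have hiso : ∀ t ∈ R, H₃[t, t] = 0 → t 0 = 0 := fun t ht h => by
    obtain ⟨a, b, -, hb⟩ := hz (Fin.tail t) (hdiff t ht)
    rw [← Fin.cons_self_tail t, herm_cons_cons, hb, add_zero, ← pow_succ'] at h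
    exact eq_zero_of_pow_eq_zero h
  have hrsiso := iso_of_large hF hq hbig hinv2 hR0
  have hline : ∀ g ∈ H, ∀ u v : Fin 2 → F, u ∈ R0 → v ∈ R0 → H₂[u, v] ≠ 0 →
      Fin.tail (sv g (Pi.single 0 1)) = 0 := by
    intro g hg u v hu hv huv
    have him : ∀ w ∈ R0, sv g (ι w) 0 = 0 := fun w hw => hiso _ (hinv g hg _ hw) (by
      rw [sv_herm]
      show Cfsg.hermForm 3 F q (Fin.cons 0 w) (Fin.cons 0 w) = 0
      rw [herm_cons_cons, zero_mul, zero_add, hrsiso w hw])
    set x := Fin.tail (sv g (Pi.single 0 1))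
    have horth : ∀ w ∈ R0, H₂[Fin.tail (sv g (ι w)), x] = 0 := fun w hw => by
      have h : H₃[sv g (ι w), sv g (Pi.single 0 1)] = 0 := by
        rw [sv_herm, herm_e0_right hF]; rfl
      rwa [← Fin.cons_self_tail (sv g (ι w)), ← Fin.cons_self_tail (sv g (Pi.single 0 1)), herm_cons_cons,
        him w hw, zero_mul, zero_add] at h
    set u' := Fin.tail (sv g (ι u))
    set v' := Fin.tail (sv g (ι v))
    have hh : ∀ a b, a ∈ R0 → b ∈ R0 → H₂[Fin.tail (sv g (ι a)), Fin.tail (sv g (ι b))] = H₂[a, b] := by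
      intro a b ha hb
      have h : H₃[sv g (ι a), sv g (ι b)] = H₃[ι a, ι b] := sv_herm _ _ _
      rw [← Fin.cons_self_tail (sv g (ι a)), ← Fin.cons_self_tail (sv g (ι b)), herm_cons_cons, him a ha,
        zero_mul, zero_add] at h
      rw [h]
      show Cfsg.hermForm 3 F q (Fin.cons 0 a) (Fin.cons 0 b) = _
      rw [herm_cons_cons, zero_mul, zero_add]
    have hu' : H₂[u', u'] = 0 := (hh u u hu hu).trans (hrsiso u hu)
    have huv' : H₂[u', v'] ≠ 0 := by rw [hh u v hu hv]; exact huv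
    have hu0 : u' ≠ 0 := fun e => huv' (by rw [e, herm_zero_left])
    obtain ⟨f, hf, hfu, hD, key⟩ := exists_basis_iso hF hu0 hu'
    have hxu : H₂[x, u'] = 0 := herm_eq_zero_comm hF (horth u hu)
    have hxv : H₂[x, v'] = 0 := herm_eq_zero_comm hF (horth v hv)
    have hx' : x = H₂[x, f] • u' := by
      conv_lhs => rw [key x, hxu, zero_smul, zero_add]
    rw [hx', herm_smul_left] at hxv
    rw [hx', (mul_eq_zero.1 hxv).resolve_right huv', zero_smul]
  have hκ2 : Nat.card H ≤ (q + 1) * (q * ((q - 1) * (q + 1))) := by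
    let S : Set (Fin 3 → F) := (fun c : {c : F // c ^ (q + 1) = 1} => (c : F) • l • (Pi.single 0 1 : Fin 3 → F)) '' Set.univ
    refine (card_le_orbit_mul H (fun g => sv g (l • (Pi.single 0 1 : Fin 3 → F))) _ hfib (S := S)
      fun g hg => ?_).trans (Nat.mul_le_mul ?_ ?_)
    · have ht := hline g hg r s hr hs hrs
      have he : sv g (Pi.single 0 1) = sv g (Pi.single 0 1) 0 • (Pi.single 0 1 : Fin 3 → F) := by
        funext i
        refine Fin.cases ?_ (fun i => ?_) i
        · simp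
        · simpa [Fin.tail] using congrFun ht i
      set c := sv g (Pi.single 0 1 : Fin 3 → F) 0
      refine ⟨⟨c, ?_⟩, trivial, ?_⟩
      · have h := sv_herm g (Pi.single 0 1 : Fin 3 → F) (Pi.single 0 1)
        rw [he, herm_self_smul, herm_single_single hF, if_pos rfl, mul_one] at h
        exact h
      · show c • l • (Pi.single 0 1 : Fin 3 → F) = sv g _
        rw [sv_smul]
        conv_rhs => rw [he]
        rw [smul_comm]
    · refine le_trans ?_ (card_norm_one hF).le
      rw [← Nat.card_coe_set_eq]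
      refine Nat.card_le_card_of_surjective (fun c => (⟨_, c, trivial, rfl⟩ : S)) ?_
      rintro ⟨_, c, -, rfl⟩; exact ⟨c, rfl⟩
    · exact le_trans (Nat.card_le_card_of_injective (Subgroup.inclusion inf_le_right) (Subgroup.inclusion_injective _))
        (card_stab0_le hF)
  obtain ⟨p, rfl⟩ : ∃ p, q = p + 3 := ⟨q - 3, by omega⟩
  have h := Nat.mul_le_mul hκ2 hρ3
  rw [show p + 3 - 1 = p + 2 by omega] at h
  have e : (p + 3 + 1) * ((p + 3) * ((p + 2) * (p + 3 + 1))) * (p + 3) ^ 3 + 2 * (p + 3) ^ 6 ≤ (p + 3) ^ 8 := by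
    rw [show (p + 3) ^ 8 = (p + 3 + 1) * ((p + 3) * ((p + 2) * (p + 3 + 1))) * (p + 3) ^ 3 + 2 * (p + 3) ^ 6 +
      (p + 3) ^ 4 * (p ^ 4 + 11 * p ^ 3 + 42 * p ^ 2 + 64 * p + 31) by ring]
    exact Nat.le_add_right _ _
  omega

include hF in
/-- The bound on an image group and an invariant image of the radical. -/
theorem three_bound (hq : 3 ≤ q) {A : AddSubgroup F} (hA : A ≠ ⊤) (hR : FormIn q A R)
    (hinv : ∀ g ∈ H, ∀ r ∈ R, sv g r ∈ R) (hne : ∃ r ∈ R, r ≠ 0) :
    Nat.card H * Nat.card R + 2 * q ^ 6 ≤ q ^ 8 := by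
  by_cases hall : ∀ r ∈ R, H₃[r, r] = 0
  · exact three_bound_iso hF hq hinv hne hall
  push Not at hall
  obtain ⟨x, hxR, hx⟩ := hall
  obtain ⟨l, hl⟩ := exists_norm_eq hF (herm_self_fixed hF x)
  have hl0 : l ≠ 0 := fun e => hx (by rw [← hl, e, zero_pow (Nat.succ_ne_zero q)])
  obtain ⟨a, ha⟩ := exists_SU_map_norm hF (by norm_num) hx
    (show H₃[l • (Pi.single 0 1 : Fin 3 → F), l • (Pi.single 0 1 : Fin 3 → F)] = H₃[x, x] by
      rw [herm_self_smul, herm_single_single hF, if_pos rfl, mul_one, hl])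
  let f : (Fin 3 → F) →+ (Fin 3 → F) := AddMonoidHom.mk' (sv a) fun u v => sv_add a u v
  let R' : AddSubgroup (Fin 3 → F) := R.map f
  have hcard : Nat.card R' = Nat.card R := (Nat.card_congr (R.equivMapOfInjective f fun u v h => by
    rw [← sv_inv_sv a u, ← sv_inv_sv a v]; exact congrArg (sv a⁻¹) h).toEquiv).symm
  have hR' : FormIn q A R' := by
    rintro _ ⟨u, hu, rfl⟩ _ ⟨v, hv, rfl⟩
    show H₃[sv a u, sv a v] ∈ A
    rw [sv_herm]; exact hR u hu v hv
  have hinv' : ∀ g ∈ conjSub a H, ∀ r ∈ R', sv g r ∈ R' := by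
    rintro g hg _ ⟨u, hu, rfl⟩
    refine ⟨sv (a⁻¹ * g * a) u, hinv _ (mem_conjSub.1 hg) u hu, ?_⟩
    show sv a (sv (a⁻¹ * g * a) u) = sv g (sv a u)
    rw [sv_mul, sv_mul, sv_sv_inv]
  have h := three_bound_e0 hF hq hA hR' hinv' hl0 ⟨x, hxR, ha⟩
  rwa [hcard, conjSub, Nat.card_congr (H.equivMapOfInjective _ (MulAut.conj a).injective).toEquiv.symm] at h

end CfsgLib.MinIndexPSU
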