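import Cfsg.Agent.MinIndexPSU.Three
import Cfsg.Agent.MinIndexPSU.Weak

/-!
The index at a bad point of a subgroup of `SU_5(q)`, `q ≥ 3`, whose image on the middle space is proper.
-/

set_option autoImplicit false
set_option linter.unusedSectionVars false

open scoped Classical

namespace CfsgLib.MinIndexPSU

open Matrix CfsgLib.Unitary CfsgLib.AutPSU CfsgLib.AutPSU.Frame CfsgLib.SchurClassical.Un

variable {F : Type*} [Field F] [Fintype F] {m q : ℕ} (hF : Fintype.card F = q ^ 2)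

include hF in
theorem card_SU_three_eq : Nat.card ↥(Cfsg.SU 3 F q) = q ^ 3 * ((q ^ 3 + 1) * (q ^ 2 - 1)) := by
  have h := card_SU hF 3 (by norm_num)
  simp [Finset.prod_range_succ, show ¬ Even 1 by decide, show Even 2 by decide] at h
  refine Nat.eq_of_mul_eq_mul_left (show 0 < q + 1 by omega) ?_
  rw [Nat.card_eq_fintype_card, h]
  ring

include hF in
/-- The image of the radical pairs into a proper subgroup of the field. -/
theorem exists_formIn (T : Frame F m q) {K : Subgroup ↥(Cfsg.SU (m + 2) F q)} (h : ¬ Good hF K T.e) :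
    ∃ A : AddSubgroup F, A ≠ ⊤ ∧ FormIn q A (rbar hF T K) := by
  refine ⟨(aSub hF T K).comap ((AddMonoidHom.id F) - (conjHom hF).toAddMonoidHom), fun e => ?_,
    fun x hx y hy => ?_⟩
  · refine aSub_ne hF T h (le_antisymm (aSub_le hF T) fun r hr => ?_)
    obtain ⟨t, ht⟩ := exists_pow_sub_eq hF (show r + r ^ q = 0 from AddMonoidHom.mem_ker.1 hr)
    have hmem : -t ∈ (aSub hF T K).comap ((AddMonoidHom.id F) - (conjHom hF).toAddMonoidHom) := e ▸ trivial
    rw [AddSubgroup.mem_comap] at hmem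
    change -t - (-t) ^ q ∈ _ at hmem
    rwa [neg_pow_q hF, show -t - -(t ^ q) = r by linear_combination ht] at hmem
  · show Cfsg.hermForm m F q x y - Cfsg.hermForm m F q x y ^ q ∈ aSub hF T K
    rw [← herm_conj hF x y]
    exact comm_mem_aSub hF T hx hy

include hF in
theorem index_mul_ge_three (hq : 3 ≤ q) (T : Frame F 3 q) {K : Subgroup ↥(Cfsg.SU (3 + 2) F q)}
    (hbad : ¬ Good hF K T.e) (hk : kbar hF T K ≠ ⊤) :
    q ^ 6 + q ^ 4 + q + 1 ≤ (kbar hF T K).index * (rbar hF T K).index := by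
  by_cases hr : ∀ r ∈ rbar hF T K, r = 0
  · rw [rbar_index_of_bot hF T hr, show 2 * 3 = 6 from rfl]
    refine le_trans ?_ (Nat.mul_le_mul_right _ (index_ge_succ hF le_rfl (fun h => by omega) _ hk))
    have h1 : q ^ 4 + q + 1 ≤ q ^ 6 * q := by
      have h2 : q ≤ q ^ 4 := Nat.le_self_pow (by norm_num) q
      have h3 : 1 ≤ q ^ 4 := Nat.one_le_pow _ _ (by omega)
      have h4 : q ^ 4 * 3 ≤ q ^ 6 * q :=
        Nat.mul_le_mul (Nat.pow_le_pow_right (by omega) (by norm_num)) hq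
      omega
    rw [add_mul, one_mul, mul_comm q]
    omega
  push Not at hr
  obtain ⟨A, hA, hR⟩ := exists_formIn hF T hbad
  have h3 := three_bound hF hq hA hR (fun g hg r hr => kbar_rbar hF T hg hr) hr
  have hmk := (kbar hF T K).card_mul_index
  have hmr := (rbar hF T K).card_mul_index
  rw [card_SU_three_eq hF] at hmk
  rw [card_Vm hF] at hmr
  have hmul : Nat.card (kbar hF T K) * Nat.card (rbar hF T K) * ((kbar hF T K).index * (rbar hF T K).index) =
      q ^ 3 * ((q ^ 3 + 1) * (q ^ 2 - 1)) * q ^ (2 * 3) := by rw [← hmk, ← hmr]; ring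
  by_contra hlt
  push Not at hlt
  have hq2 : 1 ≤ q ^ 2 := Nat.one_le_pow _ _ (by omega)
  generalize (kbar hF T K).index * (rbar hF T K).index = N at hlt hmul
  generalize Nat.card (kbar hF T K) * Nat.card (rbar hF T K) = P at h3 hmul
  have h4 := Nat.mul_le_mul (le_of_eq (rfl : P = P)) hlt.le
  rw [hmul] at h4
  zify [hq2] at h3 h4
  have hq' : (3 : ℤ) ≤ q := by exact_mod_cast hq
  have h5 := mul_le_mul_of_nonneg_right (show (P : ℤ) ≤ (q : ℤ) ^ 8 - 2 * (q : ℤ) ^ 6 by linarith)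
    (show (0 : ℤ) ≤ (q : ℤ) ^ 6 + (q : ℤ) ^ 4 + q + 1 by positivity)
  have h25 : (q : ℤ) ^ 2 ≤ (q : ℤ) ^ 5 := pow_le_pow_right₀ (by linarith) (by norm_num)
  have h34 : (q : ℤ) ^ 3 ≤ (q : ℤ) ^ 4 := pow_le_pow_right₀ (by linarith) (by norm_num)
  have h6 : (0 : ℤ) < (q : ℤ) ^ 6 *
      ((q : ℤ) ^ 5 + 2 * (q : ℤ) ^ 4 - 2 * (q : ℤ) ^ 3 - (q : ℤ) ^ 2 + 2 * q + 2) :=
    mul_pos (by positivity) (by linarith)
  rw [show 2 * 3 = 6 from rfl] at h4
  ring_nf at h4 h5 h6
  linarith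

end CfsgLib.MinIndexPSU
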