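import Cfsg.Agent.MinIndexPSU.Bad

/-!
The bound on the index in `SU_4(q)` from the action of `SU_2` on the image of the radical.
-/

set_option autoImplicit false
set_option linter.unusedSectionVars false

open scoped Classical

namespace CfsgLib.MinIndexPSU

open Matrix CfsgLib.Unitary CfsgLib.AutPSU CfsgLib.AutPSU.Frame CfsgLib.SchurClassical.Un

variable {F : Type*} [Field F] [Fintype F] {q : ℕ} (hF : Fintype.card F = q ^ 2)

local notation "H₂[" u "," v "]" => Cfsg.hermForm 2 F q u v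

/-- The determinant of two vectors. -/
def D2 (u v : Fin 2 → F) : F := u 0 * v 1 - u 1 * v 0

theorem D2_sv (g : ↥(Cfsg.SU 2 F q)) (u v : Fin 2 → F) : D2 (sv g u) (sv g v) = D2 u v := by
  obtain ⟨⟨M, hM⟩, hg⟩ := g
  rw [Matrix.det_fin_two] at hM
  show (M *ᵥ u) 0 * (M *ᵥ v) 1 - (M *ᵥ u) 1 * (M *ᵥ v) 0 = u 0 * v 1 - u 1 * v 0
  simp only [Matrix.mulVec, dotProduct, Fin.sum_univ_two]
  linear_combination (u 0 * v 1 - u 1 * v 0) * hM

theorem eq_of_aniso {x v v' : Fin 2 → F} (hx : H₂[x, x] ≠ 0) (hD : D2 x v = D2 x v') (hh : H₂[v, x] = H₂[v', x]) :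
    v = v' := by
  simp only [Cfsg.hermForm, Fin.sum_univ_two] at hx hh
  simp only [D2] at hD
  have h0 : (v 0 - v' 0) * (x 0 * x 0 ^ q + x 1 * x 1 ^ q) = 0 := by
    linear_combination (x 0) * hh - (x 1 ^ q) * hD
  have h1 : (v 1 - v' 1) * (x 0 * x 0 ^ q + x 1 * x 1 ^ q) = 0 := by
    linear_combination (x 0 ^ q) * hD + (x 1) * hh
  funext i
  fin_cases i
  · exact sub_eq_zero.1 ((mul_eq_zero.1 h0).resolve_right hx)
  · exact sub_eq_zero.1 ((mul_eq_zero.1 h1).resolve_right hx)

theorem sv_inj_aniso {x : Fin 2 → F} (hx : H₂[x, x] ≠ 0) {g g' : ↥(Cfsg.SU 2 F q)}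
    (h : sv g x = sv g' x) : g = g' := by
  refine sv_ext fun v => eq_of_aniso (x := sv g x) (by rw [sv_herm]; exact hx) ?_ ?_
  · rw [D2_sv, h, D2_sv]
  · rw [sv_herm, h, sv_herm]

include hF in
theorem exists_basis_iso {r : Fin 2 → F} (hr0 : r ≠ 0) (hr : H₂[r, r] = 0) :
    ∃ f, H₂[f, f] = 0 ∧ H₂[f, r] = 1 ∧ D2 r f ≠ 0 ∧ ∀ v, v = H₂[v, r] • f + H₂[v, f] • r := by
  obtain ⟨f, -, hf, hrf⟩ := exists_partner hF (isNondeg_top hF) trivial hr0 hr
  have hfr : H₂[f, r] = 1 := by rw [herm_conj hF, hrf, one_pow]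
  have key : ∀ v, v = H₂[v, r] • f + H₂[v, f] • r := by
    have hinj : Function.Injective fun p : F × F => p.1 • f + p.2 • r := fun p p' h => by
      have e1 := congrArg (fun v => H₂[v, r]) h
      have e2 := congrArg (fun v => H₂[v, f]) h
      simp only [herm_add_left, herm_smul_left, hfr, hr, hf, hrf, mul_one, mul_zero, add_zero, zero_add] at e1 e2
      exact Prod.ext e1 e2
    have hb := (Fintype.bijective_iff_injective_and_card _).2 ⟨hinj, by simp [sq]⟩
    intro v
    obtain ⟨⟨a, b⟩, rfl⟩ := hb.2 v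
    simp [herm_add_left, herm_smul_left, hfr, hr, hf, hrf]
  refine ⟨f, hf, hfr, fun hD => ?_, key⟩
  -- proportional vectors would be orthogonal
  have hx : ∀ v, D2 r v = H₂[v, r] * D2 r f := by
    intro v
    conv_lhs => rw [key v]
    simp [D2]; ring
  have h0 := hx (Pi.single 0 1)
  have h1 := hx (Pi.single 1 1)
  simp [D2] at h0 h1
  rw [show r 0 * f 1 - r 1 * f 0 = 0 from hD, mul_zero] at h0 h1
  refine hr0 (funext fun i => ?_)
  fin_cases i
  · simpa using h1
  · simpa using h0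

include hF in
/-- Images of an isotropic vector bound a subgroup of `SU_2`. -/
theorem card_le_iso (H : Subgroup ↥(Cfsg.SU 2 F q)) {r : Fin 2 → F} (hr0 : r ≠ 0) (hr : H₂[r, r] = 0)
    (S : Set (Fin 2 → F)) (hS : ∀ g ∈ H, sv g r ∈ S) : Nat.card H ≤ Nat.card S * q := by
  obtain ⟨f, hf, hfr, hD, key⟩ := exists_basis_iso hF hr0 hr
  have hrf : H₂[r, f] = 1 := by rw [herm_conj hF, hfr, one_pow]
  -- the stabiliser of `r`
  have hstab : ∀ g : ↥(Cfsg.SU 2 F q), sv g r = r → ∃ z : {x : F // x + x ^ q = 0}, sv g f = f + (z : F) • r := by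
    intro g hg
    have e : H₂[sv g f, r] = 1 := by conv_lhs => rw [← hg]
                                     rw [sv_herm, hfr]
    have hgf : sv g f = f + H₂[sv g f, f] • r := by
      conv_lhs => rw [key (sv g f), e, one_smul]
    refine ⟨⟨H₂[sv g f, f], ?_⟩, hgf⟩
    have h := sv_herm g f f
    rw [hgf, hf] at h
    simp only [herm_add_left, herm_add_right hF, herm_smul_left, herm_smul_right, hr, hf, hfr, hrf] at h
    linear_combination h
  choose rep hrep hrepe using fun s : {s : S // ∃ g ∈ H, sv g r = s} => s.2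
  let img : H → {s : S // ∃ g ∈ H, sv g r = s} := fun g => ⟨⟨sv g.1 r, hS g.1 g.2⟩, g.1, g.2, rfl⟩
  have hfix : ∀ g : H, sv ((rep (img g))⁻¹ * g.1) r = r := fun g => by
    have := hrepe (img g)
    rw [sv_mul, show sv g.1 r = sv (rep (img g)) r from this.symm, sv_inv_sv]
  choose z hz using fun g : H => hstab _ (hfix g)
  calc Nat.card H ≤ Nat.card ({s : S // ∃ g ∈ H, sv g r = s} × {x : F // x + x ^ q = 0}) := by
        refine Nat.card_le_card_of_injective (fun g => (img g, z g)) fun g g' h => ?_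
        obtain ⟨h1, h2⟩ := Prod.mk.injEq _ _ _ _ ▸ h
        have e : (rep (img g))⁻¹ * g.1 = (rep (img g'))⁻¹ * g'.1 := sv_ext fun v => by
          rw [key v]
          simp only [sv_add, sv_smul, hfix, hz, h2]
        rw [h1] at e
        exact Subtype.ext (mul_left_cancel e)
    _ ≤ Nat.card S * q := by
        rw [Nat.card_prod, card_trace_zero hF]
        exact Nat.mul_le_mul_right _ (Nat.card_le_card_of_injective Subtype.val Subtype.val_injective)

include hF in
theorem card_SU_two : Nat.card ↥(Cfsg.SU 2 F q) = q * ((q - 1) * (q + 1)) := by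
  have h := card_SU hF 2 (by norm_num)
  simp only [Finset.prod_range_succ, Finset.prod_range_zero, Even.zero, Nat.not_even_one, if_true, if_false,
    pow_one, zero_add, one_mul, show (1 : ℕ) + 1 = 2 from rfl, show 2 * (2 - 1) / 2 = 1 from rfl] at h
  refine Nat.eq_of_mul_eq_mul_left (show 0 < q + 1 by omega) ?_
  rw [h, ← Nat.sq_sub_sq q 1 |>.trans (mul_comm _ _)]
  ring

section Four

variable (T : Frame F 2 q) {K : Subgroup ↥(Cfsg.SU (2 + 2) F q)}

include hF in
theorem index_kbar_ge_of_small (h : Nat.card (kbar hF T K) + 1 < q ^ 2) : q + 1 ≤ (kbar hF T K).index := by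
  have hm := (kbar hF T K).card_mul_index
  rw [card_SU_two hF] at hm
  have hq := two_le_q hF
  obtain ⟨p, rfl⟩ : ∃ p, q = p + 1 := ⟨q - 1, by omega⟩
  rw [Nat.add_sub_cancel] at hm
  by_contra hlt
  push Not at hlt
  have h2 : Nat.card (kbar hF T K) < p * (p + 1 + 1) := by nlinarith
  have h3 := Nat.mul_le_mul (le_refl (Nat.card (kbar hF T K))) (Nat.lt_succ_iff.1 hlt)
  nlinarith

include hF in
/-- A radical image on a rational plane has at most `q` elements in odd characteristic. -/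
theorem card_rbar_le_plane (h2 : (2 : F) ≠ 0) (hbad : ¬ Good hF K T.e) {r s : Fin 2 → F}
    (hr : r ∈ rbar hF T K) (hs : s ∈ rbar hF T K) (hrs : H₂[r, s] ≠ 0)
    (hiso : ∀ x ∈ rbar hF T K, H₂[x, x] = 0)
    (hspan : ∀ x ∈ rbar hF T K, ∃ a b : F, a ^ q = a ∧ b ^ q = b ∧ x = a • r + b • s) :
    Nat.card (rbar hF T K) ≤ q := by
  let K0 := RingHom.eqLocusField (conjHom hF) (RingHom.id F)
  have hK0 : Nat.card K0 = q := (Nat.card_congr (Equiv.subtypeEquivRight fun _ => Iff.rfl)).trans (card_fixed hF)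
  set δ := H₂[r, s]
  have hsr : H₂[s, r] = -δ := by
    have h := hiso _ ((rbar hF T K).add_mem hr hs)
    rw [herm_add_left, herm_add_right hF, herm_add_right hF, hiso r hr, hiso s hs] at h
    linear_combination h
  let emb2 : (K0 × K0) →+ (Fin 2 → F) :=
    AddMonoidHom.mk' (fun p => (p.1 : F) • r + (p.2 : F) • s) fun p p' => by
      simp only [Prod.fst_add, Prod.snd_add, Subfield.coe_add, add_smul]; abel
  let R' : AddSubgroup (K0 × K0) := (rbar hF T K).comap emb2
  let A' : AddSubgroup K0 := (aSub hF T K).comap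
    ((AddMonoidHom.mulRight (2 * δ)).comp K0.subtype.toAddMonoidHom)
  have hA' : A' ≠ ⊤ := by
    intro e
    refine aSub_ne hF T hbad (le_antisymm (aSub_le hF T) fun t ht => ?_)
    have ht' : t + t ^ q = 0 := AddMonoidHom.mem_ker.1 ht
    have hδ : δ + δ ^ q = 0 := by
      have h := herm_conj hF s r
      change δ = _ at h
      rw [hsr, neg_pow_q hF] at h
      linear_combination h
    have hd0 : 2 * δ ≠ 0 := mul_ne_zero h2 hrs
    have hc : (t / (2 * δ)) ^ q = t / (2 * δ) := by
      rw [div_pow, show t ^ q = -t by linear_combination ht', mul_pow,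
        show (2 : F) ^ q = 2 by rw [← one_add_one_eq_two, add_pow_q hF, one_pow],
        show δ ^ q = -δ by linear_combination hδ, mul_neg, neg_div_neg_eq]
    have hmem : (⟨t / (2 * δ), hc⟩ : K0) ∈ A' := e ▸ trivial
    simp only [A', AddSubgroup.mem_comap, AddMonoidHom.comp_apply, AddMonoidHom.mulRight_apply] at hmem
    change t / (2 * δ) * (2 * δ) ∈ _ at hmem
    rwa [div_mul_cancel₀ _ hd0] at hmem
  have hle : Nat.card (rbar hF T K) ≤ Nat.card R' := by
    choose a b ha hb hab using fun x : rbar hF T K => hspan x x.2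
    refine Nat.card_le_card_of_injective (fun x => (⟨(⟨a x, ha x⟩, ⟨b x, hb x⟩), by
      show a x • r + b x • s ∈ rbar hF T K
      exact hab x ▸ x.2⟩ : R')) fun x y h => Subtype.ext ?_
    have h' := congrArg (fun p : R' => emb2 p.1) h
    rw [hab x, hab y]
    exact h'
  have hsq := MinIndexPSp.sq_card_le (fun p p' : K0 × K0 => p.1 * p'.2 - p.2 * p'.1)
    (fun x y z => by simp only [Prod.fst_add, Prod.snd_add]; ring)
    (fun x y z => by simp only [Prod.fst_add, Prod.snd_add]; ring)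
    (fun x c y => by simp only [Prod.smul_fst, Prod.smul_snd, smul_eq_mul]; ring)
    (fun x hx => by
      have h1 := hx (0, 1)
      have h2 := hx (1, 0)
      simp at h1 h2
      exact Prod.ext h1 h2) A' hA' R' (fun p hp p' hp' => by
      have h := comm_mem_aSub hF T (K := K) hp hp'
      show ((p.1 * p'.2 - p.2 * p'.1 : K0) : F) * (2 * δ) ∈ aSub hF T K
      convert h using 1
      simp only [emb2, AddMonoidHom.mk'_apply, herm_add_left, herm_add_right hF, herm_smul_left, herm_smul_right,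
        hiso r hr, hiso s hs, hsr, show ∀ c : K0, ((c : F)) ^ q = c from fun c => c.2]
      push_cast
      ring)
  rw [Nat.card_prod, hK0] at hsq
  exact hle.trans (Nat.mul_self_le_mul_self_iff.1 hsq)

include hF in
/-- In characteristic two the scalars preserving a rational plane are rational. -/
theorem scal_rational (h2 : (2 : F) = 0) {r s : Fin 2 → F}
    (hr : r ∈ rbar hF T K) (hs : s ∈ rbar hF T K) (hD : D2 r s ≠ 0)
    (hspan : ∀ x ∈ rbar hF T K, ∃ a b : F, a ^ q = a ∧ b ^ q = b ∧ x = a • r + b • s) {μ : Fˣ}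
    (hμ : μ ∈ scal T K) : (μ : F) ^ q = μ := by
  obtain ⟨k, hk, hke⟩ := hμ
  set l := (μ : F)
  have hl : l ≠ 0 := μ.ne_zero
  obtain ⟨w, c, hc, R, hA, e⟩ := exists_line_form hF T hl hke
  have hk' := e ▸ hk
  obtain ⟨a, b, ha, hb, e1⟩ := hspan _ (act_mem_rbar hF T hk' hr)
  obtain ⟨a', b', ha', hb', e2⟩ := hspan _ (act_mem_rbar hF T hk' hs)
  have hlq : l ^ q ≠ 0 := pow_ne_zero _ hl
  have hdet : R.det * l = l ^ q := by
    have := hA.2.2
    field_simp at this
    linear_combination this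
  have key : D2 (act q l R r) (act q l R s) = (l ^ q) ^ 2 * R.det * D2 r s := by
    simp only [act, D2, Pi.smul_apply, smul_eq_mul, Matrix.mulVec, dotProduct, Fin.sum_univ_two, Matrix.det_fin_two]
    ring
  have key2 : D2 (act q l R r) (act q l R s) = (a * b' - b * a') * D2 r s := by
    rw [e1, e2]
    simp only [D2, Pi.add_apply, Pi.smul_apply, smul_eq_mul]
    ring
  rw [key2] at key
  have h3 : a * b' - b * a' = (l ^ q) ^ 2 * R.det := mul_right_cancel₀ hD key
  have h4 : (l ^ q) ^ 3 = (a * b' - b * a') * l := by rw [h3, mul_assoc, hdet]; ring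
  have h5 : l ^ 3 = (a * b' - b * a') * l ^ q := by
    calc l ^ 3 = ((l ^ q) ^ q) ^ 3 := by rw [pow_q_q hF]
      _ = ((l ^ q) ^ 3) ^ q := pow_right_comm _ _ _
      _ = _ := by rw [h4, mul_pow, sub_pow_q hF, mul_pow, mul_pow, ha, hb, ha', hb']
  -- `(l^q / l)^4 = 1`
  have h6 : (l ^ q / l) ^ 4 = 1 := by
    rw [div_pow, div_eq_one_iff_eq (pow_ne_zero _ hl)]
    calc (l ^ q) ^ 4 = (l ^ q) ^ 3 * l ^ q := by ring
      _ = (a * b' - b * a') * l * l ^ q := by rw [h4]
      _ = ((a * b' - b * a') * l ^ q) * l := by ring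
      _ = l ^ 3 * l := by rw [h5]
      _ = l ^ 4 := by ring
  have h7 : (l ^ q / l - 1) ^ 4 = 0 := by
    generalize l ^ q / l = x at h6
    linear_combination h6 + (-2 * x ^ 3 + 3 * x ^ 2 - 2 * x + 1) * h2
  have h8 : l ^ q / l = 1 := sub_eq_zero.1 (eq_zero_of_pow_eq_zero h7)
  exact (div_eq_one_iff_eq hl).1 h8

include hF in
/-- Over the field with four elements the image of the radical at a bad point is isotropic. -/
theorem rbar_iso_char_two (hq : q = 2) (hbad : ¬ Good hF K T.e) {r : Fin 2 → F} (hr : r ∈ rbar hF T K) :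
    H₂[r, r] = 0 := by
  subst hq
  have h2 : (2 : F) = 0 := by linear_combination add_pow_q hF (1 : F) 1
  have h1 := card_norm_scal_le hF T hbad
  have hα : Nat.card (aSub hF T K) = 1 := by
    have hrp : 0 < Nat.card ((powMonoidHom (2 + 1)).comp (scal T K).subtype).range := Nat.card_pos
    have hα0 : 0 < Nat.card (aSub hF T K) := Nat.card_pos
    generalize Nat.card ((powMonoidHom (2 + 1)).comp (scal T K).subtype).range = R at h1 hrp
    nlinarith
  haveI : Subsingleton (aSub hF T K) := (Nat.card_eq_one_iff_unique.1 hα).1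
  obtain ⟨c, hc, h⟩ := hr
  have hh := K.mul_mem h h
  rw [T.heis_mul hF hc hc] at hh
  have hrr : r + r = 0 := by rw [← two_smul F r, h2, zero_smul]
  have h0 : HCond 2 (0 : Fin 2 → F) (c + c - Cfsg.hermForm 2 F 2 r r) := hrr ▸ hcond_mul hF hc hc
  rw [T.heis_congr hF _ h0 hrr rfl] at hh
  have : c + c - Cfsg.hermForm 2 F 2 r r = 0 :=
    congrArg Subtype.val (Subsingleton.elim (⟨_, h0, hh⟩ : aSub hF T K) 0)
  linear_combination -this + c * h2

include hF in
/-- The two partial indices at a bad point of a subgroup of `SU_4(q)`. -/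
theorem count_four (hbad : ¬ Good hF K T.e) :
    (Nat.card (scal T K) * Nat.card (aSub hF T K) + (Nat.card (aSub hF T K) - 1)) * (q ^ 4 + q ^ 3) ≤
      (q - 1) * (q + 1) * (q * ((kbar hF T K).index * (rbar hF T K).index)) := by
  have hq := two_le_q hF
  have hI : 1 ≤ (kbar hF T K).index := Nat.one_le_iff_ne_zero.2 Subgroup.index_ne_zero_of_finite
  have hτ := rbar_index_ge hF T hbad
  have hρ := card_rbar_le hF T hbad
  have hα : 0 < Nat.card (aSub hF T K) := Nat.card_pos
  have hX : Nat.card (scal T K) * Nat.card (aSub hF T K) + (Nat.card (aSub hF T K) - 1) ≤ (q - 1) * (q + 1) := by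
    have h1 := card_scal_le hF T hbad
    obtain ⟨p, rfl⟩ : ∃ p, q = p + 1 := ⟨q - 1, by omega⟩
    obtain ⟨a, ha⟩ : ∃ a, Nat.card (aSub hF T K) = a + 1 := ⟨Nat.card (aSub hF T K) - 1, by omega⟩
    rw [ha] at h1 ⊢
    rw [Nat.add_sub_cancel, Nat.add_sub_cancel]
    nlinarith
  by_cases h0 : ∀ r ∈ rbar hF T K, r = 0
  · rw [rbar_index_of_bot hF T h0]
    refine Nat.mul_le_mul hX ?_
    calc q ^ 4 + q ^ 3 ≤ q ^ 4 + q ^ 4 := Nat.add_le_add_left (Nat.pow_le_pow_right (by omega) (by omega)) _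
      _ ≤ q * (1 * q ^ (2 * 2)) := by norm_num; nlinarith [pow_pos (show 0 < q by omega) 4]
      _ ≤ _ := Nat.mul_le_mul_left _ (Nat.mul_le_mul_right _ hI)
  by_cases hsmall : Nat.card (kbar hF T K) + 1 < q ^ 2
  · refine Nat.mul_le_mul hX ?_
    calc q ^ 4 + q ^ 3 = q * ((q + 1) * q ^ 2) := by ring
      _ ≤ _ := Nat.mul_le_mul_left _ (Nat.mul_le_mul (index_kbar_ge_of_small hF T hsmall) hτ)
  push Not at h0 hsmall
  obtain ⟨x, hxR, hx0⟩ := h0
  obtain ⟨S, hS⟩ : ∃ S : Set (Fin 2 → F), S = {y | y ∈ rbar hF T K ∧ y ≠ 0} := ⟨_, rfl⟩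
  have hScard : Nat.card S + 1 = Nat.card (rbar hF T K) := by
    rw [Nat.card_coe_set_eq, hS]
    have : {y : Fin 2 → F | y ∈ rbar hF T K ∧ y ≠ 0} = ((rbar hF T K : Set (Fin 2 → F))) \ {0} := rfl
    rw [this, Set.ncard_sdiff_singleton_add_one (rbar hF T K).zero_mem (Set.toFinite _), ← Nat.card_coe_set_eq]
    rfl
  have hmap : ∀ g ∈ kbar hF T K, ∀ y ∈ S, sv g y ∈ S := by
    intro g hg y hy
    rw [hS] at hy ⊢
    exact ⟨kbar_rbar hF T hg hy.1, fun e => hy.2 (by
      rw [← sv_inv_sv g y, e]; exact Matrix.mulVec_zero _)⟩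
  have hxS : x ∈ S := hS ▸ ⟨hxR, hx0⟩
  by_cases haniso : ∃ y ∈ rbar hF T K, H₂[y, y] ≠ 0
  · exfalso
    obtain ⟨y, hyR, hy⟩ := haniso
    have hq3 : 3 ≤ q := by
      rcases Nat.eq_or_lt_of_le hq with e | e
      · exact absurd (rbar_iso_char_two hF T e.symm hbad hyR) hy
      · exact e
    have hy0 : y ≠ 0 := fun e => hy (by rw [e, herm_zero_left])
    have hyS : y ∈ S := hS ▸ ⟨hyR, hy0⟩
    let f : kbar hF T K → S := fun g => ⟨sv g.1 y, hmap g.1 g.2 y hyS⟩
    have hf : Function.Injective f := fun g g' h => Subtype.ext (sv_inj_aniso hy (congrArg Subtype.val h))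
    have h1 := Nat.card_le_card_of_injective f hf
    have hsurj : Function.Surjective f := (hf.bijective_of_nat_card_le (by omega)).2
    have hall : ∀ z ∈ rbar hF T K, z ≠ 0 → H₂[z, z] = H₂[y, y] := fun z hz hz0 => by
      obtain ⟨g, hg⟩ := hsurj ⟨z, hS ▸ ⟨hz, hz0⟩⟩
      rw [← show sv g.1 y = z from congrArg Subtype.val hg, sv_herm]
    have h5 : 4 < Nat.card (rbar hF T K) := by
      have : 9 ≤ q ^ 2 := le_trans (by norm_num) (Nat.pow_le_pow_left hq3 2)
      omega
    rw [show Nat.card (rbar hF T K) = ((rbar hF T K : Set (Fin 2 → F))).ncard from Nat.card_coe_set_eq _] at h5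
    obtain ⟨u, huR, hu⟩ : ∃ u ∈ rbar hF T K, u ∉ ({0, -y} : Set (Fin 2 → F)) := by
      by_contra hc
      push Not at hc
      have := (Set.ncard_le_ncard (show ((rbar hF T K : Set (Fin 2 → F))) ⊆ {0, -y} from hc)).trans
        (Set.ncard_insert_le _ _)
      rw [Set.ncard_singleton] at this
      omega
    obtain ⟨v, hvR, hv⟩ : ∃ v ∈ rbar hF T K, v ∉ ({0, -y, -u, -y - u} : Set (Fin 2 → F)) := by
      by_contra hc
      push Not at hc
      have h6 := Set.ncard_le_ncard (show ((rbar hF T K : Set (Fin 2 → F))) ⊆ {0, -y, -u, -y - u} from hc)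
      have h7 := Set.ncard_insert_le (0 : Fin 2 → F) {-y, -u, -y - u}
      have h8 := Set.ncard_insert_le (-y) ({-u, -y - u} : Set (Fin 2 → F))
      have h9 := Set.ncard_insert_le (-u) ({-y - u} : Set (Fin 2 → F))
      rw [Set.ncard_singleton] at h9
      omega
    simp only [Set.mem_insert_iff, Set.mem_singleton_iff, not_or] at hu hv
    obtain ⟨hu0, huy⟩ := hu
    obtain ⟨hv0, hvy, hvu, hvyu⟩ := hv
    have hN := fun z hz hz0 => hall z hz hz0
    have e_u := hN u huR hu0
    have e_v := hN v hvR hv0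
    have hyu0 : y + u ≠ 0 := fun e => huy (eq_neg_of_add_eq_zero_right e)
    have hyv0 : y + v ≠ 0 := fun e => hvy (eq_neg_of_add_eq_zero_right e)
    have huv0 : u + v ≠ 0 := fun e => hvu (eq_neg_of_add_eq_zero_right e)
    have hyuv0 : y + u + v ≠ 0 := fun e => hvyu (by linear_combination (norm := module) e)
    have e_yu := hN _ ((rbar hF T K).add_mem hyR huR) hyu0
    have e_yv := hN _ ((rbar hF T K).add_mem hyR hvR) hyv0
    have e_uv := hN _ ((rbar hF T K).add_mem huR hvR) huv0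
    have e_yuv := hN _ ((rbar hF T K).add_mem ((rbar hF T K).add_mem hyR huR) hvR) hyuv0
    simp only [herm_add_left, herm_add_right hF] at e_yu e_yv e_uv e_yuv
    exact hy (by linear_combination e_yu + e_yv + e_uv - e_yuv - e_u - e_v)
  push Not at haniso
  by_cases hline : ∀ y ∈ rbar hF T K, ∀ z ∈ rbar hF T K, H₂[y, z] = 0
  · exfalso
    obtain ⟨f, hf, hfx, hD, key⟩ := exists_basis_iso hF hx0 (haniso x hxR)
    have hxf : H₂[x, f] = 1 := by rw [herm_conj hF, hfx, one_pow]
    have hmul : ∀ g ∈ kbar hF T K, ∃ l : F, l ^ q = l ∧ l ≠ 0 ∧ sv g x = l • x := by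
      intro g hg
      have hgx : sv g x = H₂[sv g x, f] • x := by
        conv_lhs => rw [key (sv g x), hline _ (kbar_rbar hF T hg hxR) x hxR, zero_smul, zero_add]
      set l := H₂[sv g x, f]
      have hl : l ≠ 0 := fun e => by
        rw [e, zero_smul] at hgx
        exact hx0 (by rw [← sv_inv_sv g x, hgx]; exact Matrix.mulVec_zero _)
      refine ⟨l, ?_, hl, hgx⟩
      have h1 : H₂[sv g f, x] * l ^ q = 1 := by
        have h := sv_herm g f x
        rw [hgx, herm_smul_right, hfx] at h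
        linear_combination h
      have h2 := D2_sv g x f
      rw [hgx, key (sv g f)] at h2
      simp only [D2, Pi.add_apply, Pi.smul_apply, smul_eq_mul] at h2
      have h3 : l * H₂[sv g f, x] = 1 := mul_right_cancel₀ hD (by
        simp only [D2]; linear_combination h2)
      have h4 : H₂[sv g f, x] ≠ 0 := left_ne_zero_of_mul_eq_one h1
      exact mul_left_cancel₀ h4 (by rw [h1, mul_comm, h3])
    have h1 := card_le_iso hF (kbar hF T K) hx0 (haniso x hxR)
      ((fun l : {a : F // a ^ q = a ∧ a ≠ 0} => (l : F) • x) '' Set.univ) (fun g hg => by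
        obtain ⟨l, hl1, hl2, hl3⟩ := hmul g hg
        exact ⟨⟨l, hl1, hl2⟩, trivial, hl3.symm⟩)
    have h2 : Nat.card ((fun l : {a : F // a ^ q = a ∧ a ≠ 0} => (l : F) • x) '' Set.univ) + 1 ≤ q := by
      refine le_trans (Nat.add_le_add_right (Nat.card_le_card_of_surjective (fun l =>
        (⟨_, l, trivial, rfl⟩ : ((fun l : {a : F // a ^ q = a ∧ a ≠ 0} => (l : F) • x) '' Set.univ))) ?_) 1) ?_
      · rintro ⟨_, l, -, rfl⟩; exact ⟨l, rfl⟩
      · have h3 : Nat.card (Option {a : F // a ^ q = a ∧ a ≠ 0}) ≤ Nat.card {a : F // a ^ q = a} := by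
          refine Nat.card_le_card_of_injective
            (fun o => o.elim ⟨0, zero_pow_q hF⟩ fun a => ⟨a.1, a.2.1⟩) ?_
          rintro (_ | ⟨a, ha⟩) (_ | ⟨b, hb⟩) h <;> simp at h
          · rfl
          · exact absurd h.symm hb.2
          · exact absurd h ha.2
          · subst h; rfl
        rwa [Finite.card_option, card_fixed hF] at h3
    obtain ⟨j, hj⟩ := Nat.exists_eq_add_of_le h2
    nlinarith
  push Not at hline
  obtain ⟨r, hr, s, hs, hrs⟩ := hline
  have hr0 : r ≠ 0 := fun e => hrs (by rw [e, herm_zero_left])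
  have hanti : ∀ y ∈ rbar hF T K, ∀ z ∈ rbar hF T K, H₂[y, z] + H₂[z, y] = 0 := fun y hy z hz => by
    have h := haniso _ ((rbar hF T K).add_mem hy hz)
    rw [herm_add_left, herm_add_right hF, herm_add_right hF, haniso y hy, haniso z hz] at h
    linear_combination h
  have hsr : H₂[s, r] = -H₂[r, s] := eq_neg_of_add_eq_zero_left (hanti s hs r hr)
  have hspan : ∀ y ∈ rbar hF T K, ∃ a b : F, a ^ q = a ∧ b ^ q = b ∧ y = a • r + b • s := by
    have him : ∀ y ∈ rbar hF T K, ∀ z ∈ rbar hF T K, H₂[y, z] ^ q = -H₂[y, z] := fun y hy z hz => by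
      rw [← herm_conj hF y z]; exact eq_neg_of_add_eq_zero_left (hanti z hz y hy)
    intro y hy
    refine ⟨H₂[y, s] / H₂[r, s], H₂[y, r] / H₂[s, r], ?_, ?_, ?_⟩
    · rw [div_pow, him y hy s hs, him r hr s hs, neg_div_neg_eq]
    · rw [div_pow, him y hy r hr, him s hs r hr, neg_div_neg_eq]
    · obtain ⟨f, hf, hfr, hD, key⟩ := exists_basis_iso hF hr0 (haniso r hr)
      set y' := (H₂[y, s] / H₂[r, s]) • r + (H₂[y, r] / H₂[s, r]) • s
      have hsr0 : H₂[s, r] ≠ 0 := by rw [hsr]; exact neg_ne_zero.2 hrs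
      have e1 : H₂[y', r] = H₂[y, r] := by
        simp [y', herm_add_left, herm_smul_left, haniso r hr, hsr0]
      have e2 : H₂[y', s] = H₂[y, s] := by
        simp [y', herm_add_left, herm_smul_left, haniso s hs, hrs]
      have e3 : H₂[y', f] = H₂[y, f] := by
        have hs' := key s
        rw [hs', herm_add_right hF, herm_add_right hF, herm_smul_right, herm_smul_right, herm_smul_right,
          herm_smul_right, e1] at e2
        exact mul_left_cancel₀ (pow_ne_zero q hsr0) (add_right_cancel e2)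
      rw [key y, ← e1, ← e3, ← key y']
  rcases em ((2 : F) = 0) with h2 | h2
  · have hD : D2 r s ≠ 0 := by
      obtain ⟨f, hf, hfr, hD, key⟩ := exists_basis_iso hF hr0 (haniso r hr)
      intro e
      rw [key s] at e
      simp only [D2, Pi.add_apply, Pi.smul_apply, smul_eq_mul] at e
      have e' : H₂[s, r] * D2 r f = 0 := by simp only [D2]; linear_combination e
      exact hrs (neg_eq_zero.1 (hsr ▸ (mul_eq_zero.1 e').resolve_right hD))
    have hγ : ∀ μ ∈ scal T K, ((μ : Fˣ) : F) ^ q = μ := fun μ hμ => scal_rational hF T h2 hr hs hD hspan hμ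
    have h1 := card_norm_scal_le hF T hbad
    have h3 : Nat.card (scal T K) ≤ Nat.card ((powMonoidHom (q + 1)).comp (scal T K).subtype).range := by
      refine Nat.card_le_card_of_injective _ (MonoidHom.rangeRestrict_injective_iff.2 fun μ ν h => ?_)
      have h' : ((μ : Fˣ) : F) ^ (q + 1) = ((ν : Fˣ) : F) ^ (q + 1) := by simpa [Units.ext_iff] using h
      rw [pow_succ, pow_succ, hγ _ μ.2, hγ _ ν.2] at h'
      rcases mul_self_eq_mul_self_iff.1 h' with e | e
      · exact Subtype.ext (Units.ext e)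
      · refine Subtype.ext (Units.ext (e.trans ?_))
        linear_combination (-((ν : Fˣ) : F)) * h2
    have hα : 0 < Nat.card (aSub hF T K) := Nat.card_pos
    have hγα : Nat.card (scal T K) * Nat.card (aSub hF T K) + (Nat.card (aSub hF T K) - 1) ≤ q - 1 := by
      have h4 := Nat.mul_le_mul_right (Nat.card (aSub hF T K)) h3
      rw [add_mul, one_mul] at h1
      omega
    calc _ ≤ (q - 1) * (q ^ 4 + q ^ 3) := Nat.mul_le_mul_right _ hγα
      _ = (q - 1) * (q + 1) * (q * (1 * q ^ 2)) := by ring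
      _ ≤ _ := Nat.mul_le_mul_left _ (Nat.mul_le_mul_left _ (Nat.mul_le_mul hI hτ))
  · exfalso
    have h1 := card_le_iso hF (kbar hF T K) hr0 (haniso r hr) S (fun g hg => hmap g hg r (hS ▸ ⟨hr, hr0⟩))
    have h3 := card_rbar_le_plane hF T h2 hbad hr hs hrs haniso hspan
    obtain ⟨j, hj⟩ := Nat.exists_eq_add_of_le (show Nat.card S + 1 ≤ q by omega)
    nlinarith

include hF in
/-- A proper subgroup of `SU_4(q)`, bad at `e`, has index at least `q^4 + q^3`. -/
theorem index_ge_four (hbad : ¬ Good hF K T.e) : q ^ 4 + q ^ 3 ≤ K.index := by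
  have h1 := count_four hF T hbad
  have h2 := count_le hF T (K := K) (by norm_num)
  rw [mul_assoc] at h2
  refine Nat.le_of_mul_le_mul_left (le_trans (le_trans ?_ h1) h2)
    (Nat.mul_pos Nat.card_pos Nat.card_pos : 0 < Nat.card (scal T K) * Nat.card (aSub hF T K))
  exact Nat.mul_le_mul_right _ (Nat.le_add_right _ _)

end Four

end CfsgLib.MinIndexPSU
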